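import Mathlib
import Cfsg.Agent.Lib.Helper94.Symp
import Cfsg.Agent.Lib.Helper94.SympMax

set_option autoImplicit false

namespace Cfsg.Agent.Lib.Helper94

open LinearMap (BilinForm)
open Module

variable {F V : Type*} [Field F] [AddCommGroup V] [Module F V]

/-- for `B u v = 2`, the involutive isometry `x ↦ x - B x v • u + B x u • v`. -/
lemma exists_plane_neg {B : BilinForm F V} (hA : B.IsAlt) (u v : V) (huv : B u v = 2) :
    ∃ s : V ≃ₗ[F] V, IsIsom B s ∧ ∀ x, s x = x - B x v • u + B x u • v := by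
  have hvu : B v u = -2 := by rw [alt_swap hA, huv]
  let s0 : V →ₗ[F] V := LinearMap.id - (B.flip v).smulRight u + (B.flip u).smulRight v
  have hs0 : ∀ x, s0 x = x - B x v • u + B x u • v := fun x => by
    simp [s0]
  have hinv : Function.Involutive s0 := by
    intro x
    rw [hs0, hs0]
    simp only [map_add, map_sub, map_smul, LinearMap.add_apply, LinearMap.sub_apply,
      LinearMap.smul_apply, smul_eq_mul, hA u, hA v, huv, hvu]
    module
  refine ⟨LinearEquiv.ofInvolutive s0 hinv, ?_, fun x => hs0 x⟩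
  intro x y
  change B (s0 x) (s0 y) = B x y
  rw [hs0, hs0]
  simp only [map_add, map_sub, map_smul, LinearMap.add_apply, LinearMap.sub_apply,
    LinearMap.smul_apply, smul_eq_mul, hA u, hA v, huv, hvu]
  rw [alt_swap hA u y, alt_swap hA v y]
  ring

/-- nondegeneracy of `B` on a subspace -/
def NondegOn (B : BilinForm F V) (A : Submodule F V) : Prop :=
  ∀ w ∈ A, w ≠ 0 → ∃ x ∈ A, B x w ≠ 0

lemma exists_hyp_pair {B : BilinForm F V} (hA : B.IsAlt) {A : Submodule F V} (hnd : NondegOn B A)
    (hA0 : A ≠ ⊥) : ∃ e ∈ A, ∃ f ∈ A, B e f = 1 := by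
  obtain ⟨f, hf, hf0⟩ := Submodule.exists_mem_ne_zero_of_ne_bot hA0
  obtain ⟨x, hx, hxf⟩ := hnd f hf hf0
  exact ⟨(B x f)⁻¹ • x, A.smul_mem _ hx, f, hf, by
    rw [map_smul, LinearMap.smul_apply, smul_eq_mul, inv_mul_cancel₀ hxf]⟩

/-- the part of `A` orthogonal to `e, f` -/
def perpIn (B : BilinForm F V) (A : Submodule F V) (e f : V) : Submodule F V :=
  A ⊓ B.orthogonal (Submodule.span F {e, f})

lemma mem_perpIn {B : BilinForm F V} {A : Submodule F V} {e f x : V} :
    x ∈ perpIn B A e f ↔ x ∈ A ∧ B e x = 0 ∧ B f x = 0 := by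
  unfold perpIn
  rw [Submodule.mem_inf, mem_orth]
  constructor
  · rintro ⟨h1, h2⟩
    exact ⟨h1, h2 e (Submodule.subset_span (by simp)), h2 f (Submodule.subset_span (by simp))⟩
  · rintro ⟨h1, h2, h3⟩
    refine ⟨h1, fun w hw => ?_⟩
    obtain ⟨a, b, rfl⟩ := Submodule.mem_span_pair.1 hw
    simp [h2, h3]

lemma decomp_perpIn {B : BilinForm F V} (hA : B.IsAlt) {A : Submodule F V} {e f : V} (he : e ∈ A)
    (hf : f ∈ A) (hef : B e f = 1) (x : V) (hx : x ∈ A) :
    x - (B x f • e - B x e • f) ∈ perpIn B A e f := by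
  have hfe : B f e = -1 := by rw [alt_swap hA, hef]
  rw [mem_perpIn]
  refine ⟨A.sub_mem hx (A.sub_mem (A.smul_mem _ he) (A.smul_mem _ hf)), ?_, ?_⟩
  · simp only [map_sub, map_smul, smul_eq_mul, hA e, hef]
    rw [alt_swap hA e x]; ring
  · simp only [map_sub, map_smul, smul_eq_mul, hA f, hfe]
    rw [alt_swap hA f x]; ring

lemma nondegOn_perpIn {B : BilinForm F V} (hA : B.IsAlt) {A : Submodule F V} (hnd : NondegOn B A)
    {e f : V} (he : e ∈ A) (hf : f ∈ A) (hef : B e f = 1) : NondegOn B (perpIn B A e f) := by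
  intro w hw hw0
  obtain ⟨hwA, hew, hfw⟩ := mem_perpIn.1 hw
  obtain ⟨x, hx, hxw⟩ := hnd w hwA hw0
  refine ⟨_, decomp_perpIn hA he hf hef x hx, ?_⟩
  simp only [map_sub, map_smul, LinearMap.sub_apply, LinearMap.smul_apply, smul_eq_mul, hew, hfw,
    mul_zero, sub_zero]
  exact hxw

lemma finrank_perpIn [FiniteDimensional F V] {B : BilinForm F V} (hA : B.IsAlt) {A : Submodule F V}
    {e f : V} (he : e ∈ A) (hf : f ∈ A) (hef : B e f = 1) :
    finrank F A = finrank F (perpIn B A e f) + 2 := by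
  have hfe : B f e = -1 := by rw [alt_swap hA, hef]
  set S := Submodule.span F {e, f} with hS
  have hsup : S ⊔ perpIn B A e f = A := by
    apply le_antisymm
    · refine sup_le ?_ inf_le_left
      rw [hS, Submodule.span_le]
      intro x hx
      rcases hx with rfl | rfl
      · exact he
      · exact hf
    · intro x hx
      have h1 := decomp_perpIn hA he hf hef x hx
      have h2 : B x f • e - B x e • f ∈ S :=
        S.sub_mem (S.smul_mem _ (Submodule.subset_span (by simp)))
          (S.smul_mem _ (Submodule.subset_span (by simp)))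
      have : x = (B x f • e - B x e • f) + (x - (B x f • e - B x e • f)) := by abel
      rw [this]
      exact Submodule.add_mem_sup h2 h1
  have hinf : S ⊓ perpIn B A e f = ⊥ := by
    rw [eq_bot_iff]
    rintro x ⟨hx1, hx2⟩
    obtain ⟨a, b, rfl⟩ := Submodule.mem_span_pair.1 hx1
    obtain ⟨-, h1, h2⟩ := mem_perpIn.1 hx2
    simp only [map_add, map_smul, smul_eq_mul, hA e, hA f, hef, hfe] at h1 h2
    have hb : b = 0 := by linear_combination h1
    have ha : a = 0 := by linear_combination -h2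
    simp [ha, hb]
  have hli : LinearIndependent F ![e, f] := by
    rw [LinearIndependent.pair_iff]
    intro a b hab
    have h1 : B e (a • e + b • f) = 0 := by rw [hab, map_zero]
    have h2 : B f (a • e + b • f) = 0 := by rw [hab, map_zero]
    simp only [map_add, map_smul, smul_eq_mul, hA e, hA f, hef, hfe] at h1 h2
    exact ⟨by linear_combination -h2, by linear_combination h1⟩
  have hS2 : finrank F S = 2 := by
    have h := finrank_span_eq_card hli
    have hr : Set.range ![e, f] = {e, f} := by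
      ext x; simp [eq_comm, or_comm]
    rw [hr] at h
    simpa using h
  have := Submodule.finrank_sup_add_finrank_inf_eq S (perpIn B A e f)
  rw [hsup, hinf, finrank_bot, hS2] at this
  omega

/-- two orthogonal nondegenerate subspaces of the same dimension can be swapped by an isometry fixing
everything orthogonal to both. -/
theorem exists_swap [FiniteDimensional F V] {B : BilinForm F V} (hA : B.IsAlt) :
    ∀ (n : ℕ) (A A' : Submodule F V), finrank F A = n → finrank F A' = n → NondegOn B A →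
      NondegOn B A' → (∀ u ∈ A, ∀ v ∈ A', B u v = 0) →
      ∃ s : V ≃ₗ[F] V, IsIsom B s ∧ (∀ x ∈ A, s x ∈ A') ∧ (∀ x ∈ A', s x ∈ A) ∧
        (∀ x, (∀ a ∈ A, B a x = 0) → (∀ a ∈ A', B a x = 0) → s x = x) := by
  intro n
  induction' n using Nat.strong_induction_on with n ih
  intro A A' hAn hA'n hnd hnd' hort
  by_cases hA0 : A = ⊥
  · have hn : n = 0 := by rw [← hAn, hA0, finrank_bot]
    have hA'0 : A' = ⊥ := by
      rw [← Submodule.finrank_eq_zero (R := F), hA'n, hn]
    refine ⟨1, IsIsom.one B, ?_, ?_, fun x _ _ => rfl⟩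
    · intro x hx; rw [hA0, Submodule.mem_bot] at hx; rw [hx]; simp
    · intro x hx; rw [hA'0, Submodule.mem_bot] at hx; rw [hx]; simp
  have hA'0 : A' ≠ ⊥ := by
    intro h
    apply hA0
    rw [← Submodule.finrank_eq_zero (R := F), hAn, ← hA'n, h, finrank_bot]
  obtain ⟨e, he, f, hf, hef⟩ := exists_hyp_pair hA hnd hA0
  obtain ⟨e', he', f', hf', hef'⟩ := exists_hyp_pair hA hnd' hA'0
  have hort' : ∀ u ∈ A', ∀ v ∈ A, B u v = 0 := fun u hu v hv => by
    rw [alt_swap hA, hort v hv u hu, neg_zero]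
  have hfr := finrank_perpIn hA he hf hef
  have hfr' := finrank_perpIn hA he' hf' hef'
  obtain ⟨s1, hs1I, hs1A, hs1A', hs1fix⟩ := ih (n - 2) (by omega) (perpIn B A e f) (perpIn B A' e' f')
    (by omega) (by omega) (nondegOn_perpIn hA hnd he hf hef) (nondegOn_perpIn hA hnd' he' hf' hef')
    (fun u hu v hv => hort u (mem_perpIn.1 hu).1 v (mem_perpIn.1 hv).1)
  have huv : B (e - e') (f - f') = 2 := by
    simp only [map_sub, LinearMap.sub_apply, hef, hef', hort e he f' hf', hort' e' he' f hf]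
    ring
  obtain ⟨s0, hs0I, hs0⟩ := exists_plane_neg hA (e - e') (f - f') huv
  have hfe : B f e = -1 := by rw [alt_swap hA, hef]
  have hfe' : B f' e' = -1 := by rw [alt_swap hA, hef']
  -- values of s1 on e f e' f'
  have fixA : ∀ z ∈ A, (∀ a ∈ perpIn B A e f, B a z = 0) → s1 z = z := fun z hz h =>
    hs1fix z h (fun a ha => hort' a (mem_perpIn.1 ha).1 z hz)
  have fixA' : ∀ z ∈ A', (∀ a ∈ perpIn B A' e' f', B a z = 0) → s1 z = z := fun z hz h =>
    hs1fix z (fun a ha => hort a (mem_perpIn.1 ha).1 z hz) h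
  have hs1e : s1 e = e := fixA e he fun a ha => by rw [alt_swap hA, (mem_perpIn.1 ha).2.1, neg_zero]
  have hs1f : s1 f = f := fixA f hf fun a ha => by rw [alt_swap hA, (mem_perpIn.1 ha).2.2, neg_zero]
  have hs1e' : s1 e' = e' := fixA' e' he' fun a ha => by
    rw [alt_swap hA, (mem_perpIn.1 ha).2.1, neg_zero]
  have hs1f' : s1 f' = f' := fixA' f' hf' fun a ha => by
    rw [alt_swap hA, (mem_perpIn.1 ha).2.2, neg_zero]
  have hs0e : s0 e = e' := by
    rw [hs0]
    simp only [map_sub, hA e, hef, hort e he f' hf', hort e he e' he']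
    module
  have hs0f : s0 f = f' := by
    rw [hs0]
    simp only [map_sub, hA f, hfe, hort f hf f' hf', hort f hf e' he']
    module
  have hs0e' : s0 e' = e := by
    rw [hs0]
    simp only [map_sub, hA e', hef', hort' e' he' f hf, hort' e' he' e he]
    module
  have hs0f' : s0 f' = f := by
    rw [hs0]
    simp only [map_sub, hA f', hfe', hort' f' hf' f hf, hort' f' hf' e he]
    module
  have hs0fix : ∀ y, B y e = 0 → B y f = 0 → B y e' = 0 → B y f' = 0 → s0 y = y := by
    intro y h1 h2 h3 h4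
    rw [hs0]
    simp [h1, h2, h3, h4]
  refine ⟨s0 * s1, hs0I.mul hs1I, ?_, ?_, ?_⟩
  · intro x hx
    have h1 := decomp_perpIn hA he hf hef x hx
    set x1 := x - (B x f • e - B x e • f) with hx1
    have hxe : x = (B x f • e - B x e • f) + x1 := by rw [hx1]; abel
    have h2 := hs1A x1 h1
    obtain ⟨h2A, h2e, h2f⟩ := mem_perpIn.1 h2
    have h3 : s0 (s1 x1) = s1 x1 := hs0fix _ (hort' _ h2A e he) (hort' _ h2A f hf)
      (by rw [alt_swap hA, h2e, neg_zero]) (by rw [alt_swap hA, h2f, neg_zero])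
    rw [LinearEquiv.mul_apply, hxe]
    simp only [map_add, map_sub, map_smul, hs1e, hs1f, hs0e, hs0f, h3]
    exact A'.add_mem (A'.sub_mem (A'.smul_mem _ he') (A'.smul_mem _ hf')) h2A
  · intro x hx
    have h1 := decomp_perpIn hA he' hf' hef' x hx
    set x1 := x - (B x f' • e' - B x e' • f') with hx1
    have hxe : x = (B x f' • e' - B x e' • f') + x1 := by rw [hx1]; abel
    have h2 := hs1A' x1 h1
    obtain ⟨h2A, h2e, h2f⟩ := mem_perpIn.1 h2
    have h3 : s0 (s1 x1) = s1 x1 := hs0fix _
      (by rw [alt_swap hA, h2e, neg_zero]) (by rw [alt_swap hA, h2f, neg_zero])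
      (hort _ h2A e' he') (hort _ h2A f' hf')
    rw [LinearEquiv.mul_apply, hxe]
    simp only [map_add, map_sub, map_smul, hs1e', hs1f', hs0e', hs0f', h3]
    exact A.add_mem (A.sub_mem (A.smul_mem _ he) (A.smul_mem _ hf)) h2A
  · intro x hxA hxA'
    rw [LinearEquiv.mul_apply, hs1fix x (fun a ha => hxA a (mem_perpIn.1 ha).1)
      (fun a ha => hxA' a (mem_perpIn.1 ha).1)]
    exact hs0fix x (by rw [alt_swap hA, hxA e he, neg_zero]) (by rw [alt_swap hA, hxA f hf, neg_zero])
      (by rw [alt_swap hA, hxA' e' he', neg_zero]) (by rw [alt_swap hA, hxA' f' hf', neg_zero])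

end Cfsg.Agent.Lib.Helper94
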