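import Mathlib
import Cfsg.Agent.S0750
import Cfsg.Agent.Lib.Helper94.Symp
import Cfsg.Agent.Lib.Helper94.SympMax
import Cfsg.Agent.Lib.Helper94.SympSL
import Cfsg.Agent.Lib.Helper94.SympSwap

set_option autoImplicit false

namespace Cfsg.Agent.Lib.Helper94

open LinearMap (BilinForm)
open Module

variable {F V : Type*} [Field F] [AddCommGroup V] [Module F V]

/-- Witt transitivity on vectors of the same norm -/
lemma exists_qisom_map [Finite F] [FiniteDimensional F V] (Q : QuadraticForm F V)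
    (hQ : (QuadraticMap.polarBilin Q).Nondegenerate) (x y : V) (hx : x ≠ 0) (hy : y ≠ 0)
    (hxy : Q x = Q y) : ∃ g : V ≃ₗ[F] V, (∀ v, Q (g v) = Q v) ∧ g x = y := by
  let φ : Submodule.span F {x} ≃ₗ[F] Submodule.span F {y} :=
    (LinearEquiv.toSpanNonzeroSingleton F V x hx).symm.trans (LinearEquiv.toSpanNonzeroSingleton F V y hy)
  have hφ : ∀ c : F, ∀ hc : c • x ∈ Submodule.span F {x}, ((φ ⟨c • x, hc⟩ : Submodule.span F {y}) : V) = c • y := by
    intro c hc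
    have h1 : (⟨c • x, hc⟩ : Submodule.span F {x}) = LinearEquiv.toSpanNonzeroSingleton F V x hx c := by
      ext; simp
    simp only [φ, LinearEquiv.trans_apply, h1, LinearEquiv.symm_apply_apply]
    simp
  obtain ⟨g, hg1, hg2⟩ := Cfsg.Agent.S0750.result Q hQ _ _ φ (by
    rintro ⟨z, hz⟩
    obtain ⟨c, rfl⟩ := Submodule.mem_span_singleton.1 hz
    rw [hφ c hz]
    simp [QuadraticMap.map_smul, hxy])
  refine ⟨g, hg1, ?_⟩
  have h1 : (1 : F) • x ∈ Submodule.span F {x} := by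
    rw [one_smul]; exact Submodule.mem_span_singleton_self x
  have := hg2 ⟨(1 : F) • x, h1⟩
  rw [hφ 1 h1] at this
  simpa using this

/-- the polar form as a `BilinForm` -/
def pB (Q : QuadraticForm F V) : BilinForm F V := QuadraticMap.polarBilin Q

lemma polarB_apply (Q : QuadraticForm F V) (x y : V) :
    pB Q x y = Q (x + y) - Q x - Q y := rfl

lemma Q_add (Q : QuadraticForm F V) (x y : V) :
    Q (x + y) = Q x + Q y + pB Q x y := by
  rw [polarB_apply]; ring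

lemma Q_smul (Q : QuadraticForm F V) (a : F) (x : V) : Q (a • x) = a ^ 2 * Q x := by
  rw [QuadraticMap.map_smul, smul_eq_mul]; ring

lemma isIsom_of_Q (Q : QuadraticForm F V) (g : V ≃ₗ[F] V) (hg : ∀ v, Q (g v) = Q v) :
    IsIsom (pB Q) g := by
  intro u v
  rw [polarB_apply, polarB_apply, ← map_add, hg, hg, hg]

lemma polarB_isAlt [CharP F 2] (Q : QuadraticForm F V) : (pB Q).IsAlt := by
  intro v
  change pB Q v v = 0
  rw [polarB_apply]
  have h1 : v + v = (2 : F) • v := by rw [two_smul]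
  rw [h1, Q_smul]
  have h2 : (2 : F) = 0 := CharP.cast_eq_zero F 2
  rw [h2]
  have h3 : Q v + Q v = 0 := by
    have : Q v + Q v = 2 * Q v := by ring
    rw [this, h2, zero_mul]
  linear_combination -h3

lemma Q_st (Q : QuadraticForm F V) (hA : (pB Q).IsAlt) (v : V) (c : F) (x : V) :
    Q (st _ hA v c x) = Q x + (pB Q x v) ^ 2 * (c ^ 2 * Q v + c) := by
  rw [st_apply, Q_add, Q_smul, map_smul, smul_eq_mul]
  ring

/-- a nonsingular vector orthogonal to a hyperbolic pair -/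
lemma exists_nonsing_perp [FiniteDimensional F V] (Q : QuadraticForm F V)
    (hA : (pB Q).IsAlt) (hN : (pB Q).Nondegenerate)
    (hdim : 3 ≤ finrank F V) (u w : V) (huw : pB Q u w = 1) :
    ∃ p, pB Q u p = 0 ∧ pB Q w p = 0 ∧ Q p ≠ 0 := by
  set B := pB Q with hB
  have hndT : NondegOn B ⊤ := by
    intro z _ hz
    by_contra hcon
    push Not at hcon
    exact hz (hN.2 z fun x => hcon x trivial)
  have hnd := nondegOn_perpIn hA hndT (e := u) (f := w) trivial trivial huw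
  have hfr := finrank_perpIn hA (A := ⊤) (e := u) (f := w) trivial trivial huw
  rw [finrank_top] at hfr
  have hne : perpIn B ⊤ u w ≠ ⊥ := by
    intro h
    rw [h, finrank_bot] at hfr
    omega
  obtain ⟨p, hp, hp0⟩ := Submodule.exists_mem_ne_zero_of_ne_bot hne
  obtain ⟨x, hx, hxp⟩ := hnd p hp hp0
  obtain ⟨-, hp1, hp2⟩ := mem_perpIn.1 hp
  obtain ⟨-, hx1, hx2⟩ := mem_perpIn.1 hx
  by_cases h1 : Q p = 0
  · by_cases h2 : Q x = 0
    · refine ⟨x + p, by rw [map_add, hx1, hp1, add_zero], by rw [map_add, hx2, hp2, add_zero], ?_⟩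
      rw [Q_add, h1, h2, zero_add, zero_add]; exact hxp
    · exact ⟨x, hx1, hx2, h2⟩
  · exact ⟨p, hp1, hp2, h1⟩

/-- vectors with prescribed norm and prescribed pairing with `w` -/
lemma exists_norm_pair [FiniteDimensional F V] (Q : QuadraticForm F V)
    (hA : (pB Q).IsAlt) (hN : (pB Q).Nondegenerate)
    (hsq : ∀ a : F, ∃ s, s ^ 2 = a)
    (hdim : 3 ≤ finrank F V) (w : V) (hw : w ≠ 0) (κ : F) :
    ∃ y, pB Q y w = 1 ∧ Q y = κ := by
  set B := pB Q with hB
  obtain ⟨u, huw⟩ : ∃ u, B u w = 1 := by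
    obtain ⟨u0, hu0⟩ := exists_ne_of_ne_zero hN hw
    have hu0' : B u0 w ≠ 0 := by rw [alt_swap hA]; simpa using hu0
    exact ⟨(B u0 w)⁻¹ • u0, by
      rw [map_smul, LinearMap.smul_apply, smul_eq_mul, inv_mul_cancel₀ hu0']⟩
  obtain ⟨p, hp1, hp2, hp3⟩ := exists_nonsing_perp Q hA hN hdim u w huw
  obtain ⟨s, hs⟩ := hsq ((κ - Q u) / Q p)
  refine ⟨u + s • p, ?_, ?_⟩
  · rw [map_add, LinearMap.add_apply, huw, map_smul, LinearMap.smul_apply, alt_swap hA p w, hp2]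
    simp
  · rw [Q_add, Q_smul Q s p, hs, map_smul, hp1, div_mul_cancel₀ _ hp3]
    simp

theorem core_quad_sp [Finite F] [CharP F 2] [FiniteDimensional F V] (Q : QuadraticForm F V)
    (hN : (pB Q).Nondegenerate) (hsq : ∀ a : F, ∃ s, s ^ 2 = a)
    (hdim : 3 ≤ finrank F V) (G : Subgroup (V ≃ₗ[F] V))
    (hP : ∀ g : V ≃ₗ[F] V, (∀ v, Q (g v) = Q v) → g ∈ G)
    (g0 : V ≃ₗ[F] V) (hg0 : g0 ∈ G) (hg0I : IsIsom (pB Q) g0)
    (hg0Q : ¬ ∀ v, Q (g0 v) = Q v) :
    ∀ g, IsIsom (pB Q) g → g ∈ G := by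
  have hA := polarB_isAlt Q
  set B := pB Q with hB
  have h2 : (2 : F) = 0 := CharP.cast_eq_zero F 2
  have hadd : ∀ a : F, a + a = 0 := fun a => by
    have : a + a = 2 * a := by ring
    rw [this, h2, zero_mul]
  -- orthogonal transvections
  have hot : ∀ v, Q v ≠ 0 → st B hA v (Q v)⁻¹ ∈ G := by
    intro v hv
    apply hP
    intro x
    rw [Q_st]
    have : ((Q v)⁻¹) ^ 2 * Q v + (Q v)⁻¹ = 0 := by
      have h3 : ((Q v)⁻¹) ^ 2 * Q v = (Q v)⁻¹ := by field_simp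
      rw [h3]; exact hadd _
    rw [this, mul_zero, add_zero]
  -- step 1
  obtain ⟨v, hv, hgv⟩ : ∃ v, Q v ≠ 0 ∧ Q (g0 v) ≠ Q v := by
    by_contra hcon
    push Not at hcon
    push Not at hg0Q
    obtain ⟨v0, hv0⟩ := hg0Q
    have hQv0 : Q v0 = 0 := by
      by_contra h
      exact hv0 (hcon v0 h)
    have hv00 : v0 ≠ 0 := by
      rintro rfl
      simp at hv0
    have hperp : ∀ u, B u v0 = 0 → Q u = 0 := by
      intro u hu
      by_contra hQu
      have h3 : Q (u + v0) = Q u := by rw [Q_add, hQv0, ← hB, hu]; ring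
      have h4 : Q (g0 (u + v0)) = Q (u + v0) := hcon _ (by rw [h3]; exact hQu)
      rw [map_add, Q_add, ← hB, hg0I, hu, hcon u hQu, h3] at h4
      apply hv0
      rw [hQv0]
      linear_combination h4
    obtain ⟨u, hu1, -⟩ := exists_norm_pair Q hA hN hsq hdim v0 hv00 0
    obtain ⟨p, -, hp2, hp3⟩ := exists_nonsing_perp Q hA hN hdim u v0 hu1
    exact hp3 (hperp p (by rw [alt_swap hA, hp2, neg_zero]))
  -- step 2
  set w := g0 v with hw
  set c := (Q v)⁻¹ with hc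
  have hc0 : c ≠ 0 := inv_ne_zero hv
  have htG : st B hA w c ∈ G := by
    rw [hw, ← conj_st hA hg0I]
    exact G.mul_mem (G.mul_mem hg0 (hot v hv)) (G.inv_mem hg0)
  have hw0 : w ≠ 0 := by
    rw [hw]
    intro h
    have : v = 0 := by simpa using h
    rw [this] at hv
    simp at hv
  set κ := c ^ 2 * Q w + c with hκ
  have hκ0 : κ ≠ 0 := by
    intro h
    apply hgv
    have h3 : c * (c * Q w + 1) = 0 := by rw [← h, hκ]; ring
    have h4 : c * Q w + 1 = 0 := (mul_eq_zero.1 h3).resolve_left hc0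
    have h5 : c * Q w = 1 := by
      have := hadd (1 : F)
      linear_combination h4 - this
    rw [hc] at h5
    field_simp at h5
    exact h5
  -- step 3: a singular vector with a transvection in G
  obtain ⟨z, hz0, hQz, c', hc'0, hzG⟩ : ∃ z, z ≠ 0 ∧ Q z = 0 ∧ ∃ c', c' ≠ 0 ∧ st B hA z c' ∈ G := by
    obtain ⟨y, hy1, hy2⟩ := exists_norm_pair Q hA hN hsq hdim w hw0 κ
    have hy0 : y ≠ 0 := by
      rintro rfl
      simp at hy1
    refine ⟨st B hA w c y, by simpa using hy0, ?_, (Q y)⁻¹, inv_ne_zero (by rw [hy2]; exact hκ0), ?_⟩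
    · rw [Q_st, ← hB, hy1, hy2, ← hκ, one_pow, one_mul]; exact hadd κ
    · rw [← conj_st hA (st_isIsom B hA w c)]
      exact G.mul_mem (G.mul_mem htG (hot y (by rw [hy2]; exact hκ0))) (G.inv_mem htG)
  -- step 4
  have hOG : ∀ h : V ≃ₗ[F] V, (∀ v, Q (h v) = Q v) → h ∈ G ∧ IsIsom B h := fun h hh =>
    ⟨hP h hh, isIsom_of_Q Q h hh⟩
  have hzX : z ∈ tvSet B hA G := by
    intro c''
    by_cases hc'' : c'' = 0
    · subst hc''
      have : st B hA z 0 = 1 := by ext x; simp [st_apply]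
      rw [this]; exact G.one_mem
    obtain ⟨a, ha⟩ := hsq (c'' / c')
    have ha0 : a ≠ 0 := by
      rintro rfl
      rw [zero_pow two_ne_zero] at ha
      exact (div_ne_zero hc'' hc'0) ha.symm
    obtain ⟨h, hh1, hh2⟩ := exists_qisom_map Q hN z (a • z) hz0 (smul_ne_zero ha0 hz0)
      (by rw [Q_smul, hQz, mul_zero])
    obtain ⟨hhG, hhI⟩ := hOG h hh1
    have h3 : st B hA z c'' = h * st B hA z c' * h⁻¹ := by
      rw [conj_st hA hhI, hh2, st_smul, ha, div_mul_cancel₀ _ hc'0]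
    rw [h3]
    exact G.mul_mem (G.mul_mem hhG hzG) (G.inv_mem hhG)
  have hsing : ∀ z', z' ≠ 0 → Q z' = 0 → z' ∈ tvSet B hA G := by
    intro z' hz'0 hQz'
    obtain ⟨h, hh1, hh2⟩ := exists_qisom_map Q hN z z' hz0 hz'0 (by rw [hQz, hQz'])
    obtain ⟨hhG, hhI⟩ := hOG h hh1
    rw [← hh2]
    exact tvSet_map hzX hhG hhI
  -- step 5
  obtain ⟨z2, hz21, hz22⟩ := exists_norm_pair Q hA hN hsq hdim z hz0 0
  have hz20 : z2 ≠ 0 := by
    rintro rfl
    simp at hz21
  have hz2X := hsing z2 hz20 hz22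
  refine mem_of_isIsom hA hN G fun x => ?_
  by_cases hx0 : x = 0
  · rw [hx0]; exact tvSet_zero
  by_cases hQx : Q x = 0
  · exact hsing x hx0 hQx
  have hzz : B z z2 ≠ 0 := by rw [alt_swap hA, hz21]; simp
  have h4 := tvSet_add_smul hzX hz2X hzz (Q x)
  have h5 : Q (z2 + Q x • z) = Q x := by
    rw [Q_add, Q_smul, hQz, hz22, map_smul, ← hB, hz21]; simp
  have h6 : z2 + Q x • z ≠ 0 := by
    intro h
    rw [h] at h5
    simp at h5
    exact hQx h5.symm
  obtain ⟨h, hh1, hh2⟩ := exists_qisom_map Q hN _ x h6 hx0 h5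
  obtain ⟨hhG, hhI⟩ := hOG h hh1
  rw [← hh2]
  exact tvSet_map h4 hhG hhI

/-- an isometry of the polar form not preserving `Q`. -/
lemma exists_isIsom_not_Q [FiniteDimensional F V] (Q : QuadraticForm F V)
    (hA : (pB Q).IsAlt) (hN : (pB Q).Nondegenerate)
    (hsq : ∀ a : F, ∃ s, s ^ 2 = a) (hdim : 3 ≤ finrank F V) :
    ∃ g : V ≃ₗ[F] V, IsIsom (pB Q) g ∧ ∃ x, Q x = 0 ∧ Q (g x) ≠ 0 := by
  have : Nontrivial V := Module.nontrivial_of_finrank_pos (R := F) (by omega)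
  obtain ⟨w, hw⟩ := exists_ne (0 : V)
  obtain ⟨z, hz1, hz2⟩ := exists_norm_pair Q hA hN hsq hdim w hw 0
  have hz0 : z ≠ 0 := by
    rintro rfl
    simp at hz1
  obtain ⟨x, hx1, hx2⟩ := exists_norm_pair Q hA hN hsq hdim z hz0 0
  refine ⟨st _ hA z 1, st_isIsom _ _ _ _, x, hx2, ?_⟩
  rw [Q_st, hx1, hx2, hz2]
  simp

end Cfsg.Agent.Lib.Helper94
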