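import Mathlib
import Cfsg.Prelude.Def_GeometricClasses
import Cfsg.Agent.Lib.Helper94.FormB
import Cfsg.Agent.Lib.Helper94.QuadSp

set_option autoImplicit false

namespace Cfsg.Agent.Lib.Helper94

open LinearMap (BilinForm)
open Module Matrix

variable {ι : Type} [Fintype ι] [DecidableEq ι] {F : Type*} [Field F]

/-- a quadratic form given as a function, as a Mathlib `QuadraticForm`. -/
def quadOf (Q : (ι → F) → F) (hQ : Cfsg.Geo.IsNondegenerateQuadraticForm Q) : QuadraticForm F (ι → F) where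
  toFun := Q
  toFun_smul := fun a x => by rw [hQ.smul, smul_eq_mul, sq]
  exists_companion' := ⟨formB (QuadraticMap.polar Q) hQ.polar_bilinear, fun x y => by
    rw [formB_apply, QuadraticMap.polar]; ring⟩

omit [Fintype ι] [DecidableEq ι] in
@[simp] lemma quadOf_apply (Q : (ι → F) → F) (hQ : Cfsg.Geo.IsNondegenerateQuadraticForm Q) (x : ι → F) :
    quadOf Q hQ x = Q x := rfl

omit [Fintype ι] [DecidableEq ι] in
lemma pB_quadOf (Q : (ι → F) → F) (hQ : Cfsg.Geo.IsNondegenerateQuadraticForm Q) (x y : ι → F) :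
    pB (quadOf Q hQ) x y = QuadraticMap.polar Q x y := rfl

omit [Fintype ι] [DecidableEq ι] in
lemma pB_quadOf_nondegenerate (Q : (ι → F) → F) (hQ : Cfsg.Geo.IsNondegenerateQuadraticForm Q) :
    (pB (quadOf Q hQ)).Nondegenerate := by
  have : pB (quadOf Q hQ) = formB (QuadraticMap.polar Q) hQ.polar_bilinear := by
    ext x y; rfl
  rw [this]
  exact formB_nondegenerate _ _ hQ.nondegenerate

lemma mem_quadSimilarityGroup_iff (Q : (ι → F) → F) (g : Matrix.GeneralLinearGroup ι F) :
    g ∈ Cfsg.Geo.quadSimilarityGroup Q ↔ ∃ c : Fˣ, ∀ v, Q (glEquiv ι F g v) = (c : F) * Q v := by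
  simp only [glEquiv_apply]
  rfl

lemma charTwo_of_not_odd [Fintype F] (h : ¬ Odd (Fintype.card F)) : ringChar F = 2 := by
  rw [FiniteField.even_card_iff_char_two]
  rcases Nat.even_or_odd (Fintype.card F) with h1 | h1
  · exact Nat.even_iff.1 h1
  · exact absurd h1 h

lemma exists_sq_of_charTwo [Fintype F] (h : ringChar F = 2) (a : F) : ∃ s : F, s ^ 2 = a := by
  obtain ⟨r, hr⟩ := FiniteField.isSquare_of_char_two h a
  exact ⟨r, by rw [hr, sq]⟩

end Cfsg.Agent.Lib.Helper94
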