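import Mathlib
import Cfsg.Agent.Lib.Helper94.Symp
import Cfsg.Agent.Lib.Helper94.SympMax
import Cfsg.Agent.Lib.Helper94.SympSwap

set_option autoImplicit false

namespace Cfsg.Agent.Lib.Helper94

open LinearMap (BilinForm)
open Module

variable {F V : Type*} [Field F] [AddCommGroup V] [Module F V]

/-- an orthogonal decomposition into nondegenerate subspaces of dimension `k`. -/
structure OrthDec (B : BilinForm F V) {t : ℕ} (D : Fin t → Submodule F V) (k : ℕ) : Prop where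
  two_le : 2 ≤ t
  pos : 0 < k
  finrank_eq : ∀ i, finrank F (D i) = k
  sup : iSup D = ⊤
  nd : ∀ i, NondegOn B (D i)
  ort : ∀ i j, i ≠ j → ∀ u ∈ D i, ∀ v ∈ D j, B u v = 0

/-- `φ` permutes the members of `D`. -/
def DecStab {t : ℕ} (D : Fin t → Submodule F V) (φ : V ≃ₗ[F] V) : Prop :=
  ∃ σ : Equiv.Perm (Fin t), ∀ i, (D i).map (φ : V →ₗ[F] V) = D (σ i)

lemma map_eq_of_forall_mem [FiniteDimensional F V] (g : V ≃ₗ[F] V) (W W' : Submodule F V)
    (hfr : finrank F W = finrank F W') (h : ∀ w ∈ W, g w ∈ W') : W.map (g : V →ₗ[F] V) = W' := by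
  have hle : W.map (g : V →ₗ[F] V) ≤ W' := by
    rintro _ ⟨w, hw, rfl⟩
    exact h w hw
  exact Submodule.eq_of_le_of_finrank_eq hle ((LinearEquiv.finrank_map_eq g W).trans hfr)

variable {B : BilinForm F V} {t : ℕ} {D : Fin t → Submodule F V} {k : ℕ}

namespace OrthDec

lemma exists_family (h : OrthDec B D k) (x : V) :
    ∃ a : Fin t → V, (∀ i, a i ∈ D i) ∧ ∑ i, a i = x := by
  have hx : x ∈ ⨆ i ∈ (Finset.univ : Finset (Fin t)), D i := by simp [h.sup]
  obtain ⟨μ, hμ⟩ := (Submodule.mem_iSup_finset_iff_exists_sum D x).1 hx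
  exact ⟨fun i => μ i, fun i => (μ i).2, hμ⟩

lemma B_sum (h : OrthDec B D k) (a : Fin t → V) (ha : ∀ i, a i ∈ D i) (s : Finset (Fin t)) (j : Fin t)
    (y : V) (hy : y ∈ D j) : B (∑ i ∈ s, a i) y = if j ∈ s then B (a j) y else 0 := by
  rw [map_sum, LinearMap.sum_apply]
  split_ifs with hj
  · rw [Finset.sum_eq_single_of_mem j hj]
    intro i _ hij
    exact h.ort i j hij _ (ha i) _ hy
  · apply Finset.sum_eq_zero
    intro i hi
    exact h.ort i j (by rintro rfl; exact hj hi) _ (ha i) _ hy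

lemma exists_ne_zero (h : OrthDec B D k) (i : Fin t) : ∃ e ∈ D i, e ≠ 0 := by
  apply Submodule.exists_mem_ne_zero_of_ne_bot
  intro hb
  have := h.finrank_eq i
  rw [hb, finrank_bot] at this
  have := h.pos
  omega

lemma mem_tvSet [FiniteDimensional F V] (h : OrthDec B D k) (hA : B.IsAlt) (G : Subgroup (V ≃ₗ[F] V))
    (hP : ∀ φ, IsIsom B φ → DecStab D φ → φ ∈ G) (i : Fin t) (v : V) (hv : v ∈ D i) :
    v ∈ tvSet B hA G := by
  intro c
  refine hP _ (st_isIsom _ _ _ _) ⟨1, fun j => ?_⟩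
  apply map_eq_of_forall_mem _ _ _ rfl
  intro w hw
  rw [st_apply]
  by_cases hij : j = i
  · subst hij; exact (D j).add_mem hw ((D j).smul_mem _ hv)
  · rw [h.ort j i hij w hw v hv, mul_zero, zero_smul, add_zero]; exact hw

lemma exists_move_in [FiniteDimensional F V] (h : OrthDec B D k) (hA : B.IsAlt) (hN : B.Nondegenerate)
    (G : Subgroup (V ≃ₗ[F] V)) (i : Fin t) (hX : ∀ v ∈ D i, v ∈ tvSet B hA G) (a a' : V)
    (ha : a ∈ D i) (ha' : a' ∈ D i) (ha0 : a ≠ 0) (ha'0 : a' ≠ 0) :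
    ∃ τ ∈ G, IsIsom B τ ∧ τ a = a' ∧ ∀ u, (∀ w ∈ D i, B w u = 0) → τ u = u := by
  have hno : ∀ z ∈ D i, z ≠ 0 → z ∉ B.orthogonal (D i) := by
    intro z hz hz0 hmem
    obtain ⟨x, hx, hxz⟩ := h.nd i z hz hz0
    exact hxz (mem_orth.1 hmem x hx)
  obtain ⟨τ, hτG, hτI, hτU, hτ⟩ := exists_move hA hN G (B.orthogonal (D i))
    (fun v hv c => hX v (by rwa [LinearMap.BilinForm.orthogonal_orthogonal hN hA.isRefl] at hv) c)
    a' a (hno a' ha' ha'0) (hno a ha ha0)
    (fun u hu => by rw [(mem_orth' hA).1 hu a' ha', (mem_orth' hA).1 hu a ha])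
  exact ⟨τ, hτG, hτI, hτ, fun u hu => hτU u (mem_orth.2 hu)⟩

lemma exists_not_mem [FiniteDimensional F V] (h : OrthDec B D k) (X : Set V) (φ0 : V ≃ₗ[F] V)
    (hφ0 : ¬ DecStab D φ0) (hX : ∀ i, ∀ v ∈ D i, φ0 v ∈ X) : ∃ x ∈ X, ∀ j, x ∉ D j := by
  by_contra hcon
  push Not at hcon
  apply hφ0
  have key : ∀ i, ∃ j, ∀ v ∈ D i, φ0 v ∈ D j := by
    intro i
    obtain ⟨e, he, he0⟩ := h.exists_ne_zero i
    obtain ⟨j, hj⟩ := hcon _ (hX i e he)
    refine ⟨j, fun v hv => ?_⟩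
    obtain ⟨j', hj'⟩ := hcon _ (hX i v hv)
    by_cases hjj : j' = j
    · subst hjj; exact hj'
    by_cases hv0 : φ0 v = 0
    · rw [hv0]; exact (D j).zero_mem
    exfalso
    obtain ⟨j'', hj''⟩ := hcon _ (hX i (e + v) ((D i).add_mem he hv))
    rw [map_add] at hj''
    have he0' : φ0 e ≠ 0 := by simpa using he0
    have h1 : j'' = j := by
      by_contra hne
      obtain ⟨z, hz, hzu⟩ := h.nd j (φ0 e) hj he0'
      have h3 : B z (φ0 e + φ0 v) = 0 := h.ort j j'' (Ne.symm hne) z hz _ hj''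
      rw [map_add, h.ort j j' (Ne.symm hjj) z hz _ hj', add_zero] at h3
      exact hzu h3
    have h2 : j'' = j' := by
      by_contra hne
      obtain ⟨z, hz, hzu⟩ := h.nd j' (φ0 v) hj' hv0
      have h3 : B z (φ0 e + φ0 v) = 0 := h.ort j' j'' (Ne.symm hne) z hz _ hj''
      rw [map_add, h.ort j' j hjj z hz _ hj, zero_add] at h3
      exact hzu h3
    exact hjj (h2.symm.trans h1)
  choose σ0 hσ0 using key
  have hmap : ∀ i, (D i).map (φ0 : V →ₗ[F] V) = D (σ0 i) := fun i =>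
    map_eq_of_forall_mem _ _ _ ((h.finrank_eq i).trans (h.finrank_eq _).symm) (hσ0 i)
  have hinj : Function.Injective σ0 := by
    intro i i' hii
    by_contra hne
    have h1 : (D i).map (φ0 : V →ₗ[F] V) = (D i').map (φ0 : V →ₗ[F] V) := by rw [hmap, hmap, hii]
    have hDD : D i = D i' := Submodule.map_injective_of_injective (f := (φ0 : V →ₗ[F] V)) φ0.injective h1
    obtain ⟨e, he, he0⟩ := h.exists_ne_zero i
    obtain ⟨z, hz, hze⟩ := h.nd i e he he0
    exact hze (h.ort i i' hne z hz e (hDD ▸ he))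
  exact ⟨Equiv.ofBijective σ0 (Finite.injective_iff_bijective.1 hinj), fun i => hmap i⟩

lemma two_nonzero (h : OrthDec B D k) (x : V) (hx : ∀ j, x ∉ D j) (a : Fin t → V)
    (ha : ∀ i, a i ∈ D i) (hsum : ∑ i, a i = x) : ∃ j l, j ≠ l ∧ a j ≠ 0 ∧ a l ≠ 0 := by
  by_contra hcon
  push Not at hcon
  by_cases hall : ∀ i, a i = 0
  · have hx0 : x = 0 := by rw [← hsum]; exact Finset.sum_eq_zero fun i _ => hall i
    have := h.two_le
    exact hx ⟨0, by omega⟩ (hx0 ▸ Submodule.zero_mem _)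
  · push Not at hall
    obtain ⟨j, hj⟩ := hall
    have : x = a j := by
      rw [← hsum]
      exact Finset.sum_eq_single j (fun l _ hl => hcon j l (Ne.symm hl) hj) (by simp)
    exact hx j (this ▸ ha j)

/-- `Pairs j l`: all vectors of `D j + D l` are in `X`. -/
lemma pair_of_two [FiniteDimensional F V] (h : OrthDec B D k) (hA : B.IsAlt) (hN : B.Nondegenerate)
    (G : Subgroup (V ≃ₗ[F] V)) (hDX : ∀ i, ∀ v ∈ D i, v ∈ tvSet B hA G)
    (hex : ∀ i, ∀ a ∈ D i, a ≠ 0 → ∃ b ∈ D i, B a b = 0 ∧ b ≠ 0 ∧ a + b ≠ 0)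
    (x : V) (hx : x ∈ tvSet B hA G) (a : Fin t → V) (ha : ∀ i, a i ∈ D i) (hsum : ∑ i, a i = x)
    (j l : Fin t) (hjl : j ≠ l) (haj : a j ≠ 0) (hal : a l ≠ 0) :
    ∀ c ∈ D j, ∀ d ∈ D l, c + d ∈ tvSet B hA G := by
  set r := x - a j - a l with hr
  have hxB : ∀ i, ∀ w ∈ D i, B x w = B (a i) w := by
    intro i w hw
    rw [← hsum, h.B_sum a ha Finset.univ i w hw, if_pos (Finset.mem_univ i)]
  have hrj : ∀ w ∈ D j, B r w = 0 := by
    intro w hw
    rw [hr, map_sub, map_sub, LinearMap.sub_apply, LinearMap.sub_apply, hxB j w hw,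
      h.ort l j hjl.symm _ (ha l) w hw]
    ring
  have hrl : ∀ w ∈ D l, B r w = 0 := by
    intro w hw
    rw [hr, map_sub, map_sub, LinearMap.sub_apply, LinearMap.sub_apply, hxB l w hw,
      h.ort j l hjl _ (ha j) w hw]
    ring
  have hrj' : ∀ w ∈ D j, B w r = 0 := fun w hw => by rw [alt_swap hA, hrj w hw, neg_zero]
  have hrl' : ∀ w ∈ D l, B w r = 0 := fun w hw => by rw [alt_swap hA, hrl w hw, neg_zero]
  obtain ⟨bj, hbj, hbaj⟩ := h.nd j (a j) (ha j) haj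
  have hbj0 : bj ≠ 0 := by rintro rfl; simp at hbaj
  obtain ⟨bl, hbl, hbal, hbl0, habl⟩ := hex l (a l) (ha l) hal
  obtain ⟨t1, ht1G, ht1I, ht1, ht1fix⟩ := h.exists_move_in hA hN G j (hDX j) (-a j) bj
    ((D j).neg_mem (ha j)) hbj (by simpa using haj) hbj0
  obtain ⟨t2, ht2G, ht2I, ht2, ht2fix⟩ := h.exists_move_in hA hN G l (hDX l) (-a l) bl
    ((D l).neg_mem (ha l)) hbl (by simpa using hal) hbl0
  have hx' : -x = -a j + -a l + -r := by rw [hr]; abel
  have hy1 : t1 (-x) = bj + -a l + -r := by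
    rw [hx', map_add t1, map_add t1, ht1, map_neg t1 (a l), map_neg t1 r,
      ht1fix (a l) (fun w hw => h.ort j l hjl w hw _ (ha l)), ht1fix r hrj']
  have hy : t2 (t1 (-x)) = bj + bl + -r := by
    rw [hy1, map_add t2, map_add t2, ht2, map_neg t2 r, ht2fix r hrl',
      ht2fix bj (fun w hw => h.ort l j hjl.symm w hw _ hbj)]
  have hyX : bj + bl + -r ∈ tvSet B hA G := by
    rw [← hy]
    exact tvSet_map (tvSet_map (tvSet_neg hx) ht1G ht1I) ht2G ht2I
  have hxe : x = a j + a l + r := by rw [hr]; abel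
  have hBxy : B x (bj + bl + -r) ≠ 0 := by
    rw [hxe]
    simp only [map_add, map_neg, LinearMap.add_apply, h.ort j l hjl _ (ha j) _ hbl,
      hrj' _ (ha j), h.ort l j hjl.symm _ (ha l) _ hbj, hbal, hrl' _ (ha l), hrj _ hbj, hrl _ hbl, hA r]
    rw [alt_swap hA]
    simpa using hbaj
  have hsumX := tvSet_add hx hyX hBxy
  have hxy : x + (bj + bl + -r) = (a j + bj) + (a l + bl) := by rw [hxe]; abel
  rw [hxy] at hsumX
  have hc0 : a j + bj ≠ 0 := by
    intro h0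
    apply hbaj
    have : bj = -a j := by rw [eq_neg_iff_add_eq_zero, add_comm]; exact h0
    rw [this]; simp [hA (a j)]
  intro c hc d hd
  by_cases hc0' : c = 0
  · rw [hc0', zero_add]; exact hDX l d hd
  by_cases hd0' : d = 0
  · rw [hd0', add_zero]; exact hDX j c hc
  obtain ⟨t3, ht3G, ht3I, ht3, ht3fix⟩ := h.exists_move_in hA hN G j (hDX j) (a j + bj) c
    ((D j).add_mem (ha j) hbj) hc hc0 hc0'
  obtain ⟨t4, ht4G, ht4I, ht4, ht4fix⟩ := h.exists_move_in hA hN G l (hDX l) (a l + bl) d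
    ((D l).add_mem (ha l) hbl) hd habl hd0'
  have := tvSet_map (tvSet_map hsumX ht3G ht3I) ht4G ht4I
  rwa [map_add, ht3, ht3fix (a l + bl) (fun w hw => h.ort j l hjl w hw _ ((D l).add_mem (ha l) hbl)),
    map_add, ht4, ht4fix c (fun w hw => h.ort l j hjl.symm w hw _ hc)] at this

lemma exists_swap_mem [FiniteDimensional F V] (h : OrthDec B D k) (hA : B.IsAlt)
    (j l : Fin t) (hjl : j ≠ l) :
    ∃ s : V ≃ₗ[F] V, IsIsom B s ∧ DecStab D s ∧ (D j).map (s : V →ₗ[F] V) = D l ∧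
      ∀ i, i ≠ j → i ≠ l → ∀ x ∈ D i, s x = x := by
  obtain ⟨s, hsI, hs1, hs2, hsfix⟩ := exists_swap hA k (D j) (D l) (h.finrank_eq j) (h.finrank_eq l)
    (h.nd j) (h.nd l) (h.ort j l hjl)
  have hfix : ∀ i, i ≠ j → i ≠ l → ∀ x ∈ D i, s x = x := fun i hij hil x hx =>
    hsfix x (fun a ha => h.ort j i hij.symm a ha x hx) (fun a ha => h.ort l i hil.symm a ha x hx)
  have hjmap : (D j).map (s : V →ₗ[F] V) = D l :=
    map_eq_of_forall_mem _ _ _ ((h.finrank_eq j).trans (h.finrank_eq l).symm) hs1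
  refine ⟨s, hsI, ⟨Equiv.swap j l, fun i => ?_⟩, hjmap, hfix⟩
  by_cases hij : i = j
  · subst hij; rw [Equiv.swap_apply_left]; exact hjmap
  by_cases hil : i = l
  · subst hil; rw [Equiv.swap_apply_right]
    exact map_eq_of_forall_mem _ _ _ ((h.finrank_eq i).trans (h.finrank_eq j).symm) hs2
  · rw [Equiv.swap_apply_of_ne_of_ne hij hil]
    exact map_eq_of_forall_mem _ _ _ rfl (fun x hx => by rw [hfix i hij hil x hx]; exact hx)

theorem core [FiniteDimensional F V] (h : OrthDec B D k) (hA : B.IsAlt) (hN : B.Nondegenerate)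
    (hex : ∀ i, ∀ a ∈ D i, a ≠ 0 → ∃ b ∈ D i, B a b = 0 ∧ b ≠ 0 ∧ a + b ≠ 0)
    (G : Subgroup (V ≃ₗ[F] V)) (hP : ∀ φ, IsIsom B φ → DecStab D φ → φ ∈ G)
    (φ0 : V ≃ₗ[F] V) (hφ0 : φ0 ∈ G) (hφ0I : IsIsom B φ0) (hφ0S : ¬ DecStab D φ0) :
    ∀ φ, IsIsom B φ → φ ∈ G := by
  have hDX : ∀ i, ∀ v ∈ D i, v ∈ tvSet B hA G := h.mem_tvSet hA G hP
  obtain ⟨x, hxX, hxD⟩ := h.exists_not_mem (tvSet B hA G) φ0 hφ0S
    (fun i v hv => tvSet_map (hDX i v hv) hφ0 hφ0I)
  obtain ⟨a, ha, hsum⟩ := h.exists_family x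
  obtain ⟨j, l, hjl, haj, hal⟩ := h.two_nonzero x hxD a ha hsum
  have hp0 := h.pair_of_two hA hN G hDX hex x hxX a ha hsum j l hjl haj hal
  -- moving pairs
  have hmv : ∀ j l j' : Fin t, j' ≠ j → j' ≠ l → j ≠ l →
      (∀ c ∈ D j, ∀ d ∈ D l, c + d ∈ tvSet B hA G) → (∀ c ∈ D j', ∀ d ∈ D l, c + d ∈ tvSet B hA G) := by
    intro j l j' hj'j hj'l hjl hp c hc d hd
    obtain ⟨s, hsI, hsS, hsmap, hsfix⟩ := h.exists_swap_mem hA j j' hj'j.symm
    rw [← hsmap] at hc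
    obtain ⟨c', hc', rfl⟩ := hc
    have := tvSet_map (hp c' hc' d hd) (hP s hsI hsS) hsI
    rwa [map_add, hsfix l hjl.symm hj'l.symm d hd] at this
  have hsymm : ∀ j l : Fin t, (∀ c ∈ D j, ∀ d ∈ D l, c + d ∈ tvSet B hA G) →
      (∀ c ∈ D l, ∀ d ∈ D j, c + d ∈ tvSet B hA G) := by
    intro j l hp c hc d hd
    rw [add_comm]; exact hp d hd c hc
  -- second coordinate move
  have hmv2 : ∀ j l l' : Fin t, l' ≠ j → l' ≠ l → j ≠ l →
      (∀ c ∈ D j, ∀ d ∈ D l, c + d ∈ tvSet B hA G) → (∀ c ∈ D j, ∀ d ∈ D l', c + d ∈ tvSet B hA G) := by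
    intro j l l' h1 h2 h3 hp
    exact hsymm _ _ (hmv l j l' h2 h1 h3.symm (hsymm _ _ hp))
  have hall : ∀ j' l' : Fin t, j' ≠ l' → (∀ c ∈ D j', ∀ d ∈ D l', c + d ∈ tvSet B hA G) := by
    intro j' l' hjl'
    by_cases h1 : j' = j
    · subst h1
      by_cases h2 : l' = l
      · subst h2; exact hp0
      · exact hmv2 j' l l' hjl'.symm h2 hjl hp0
    by_cases h2 : j' = l
    · subst h2
      by_cases h3 : l' = j
      · subst h3; exact hsymm _ _ hp0
      · exact hmv2 j' j l' hjl'.symm h3 hjl.symm (hsymm _ _ hp0)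
    have hp1 := hmv j l j' h1 h2 hjl hp0
    by_cases h3 : l' = l
    · subst h3; exact hp1
    · exact hmv2 j' l l' hjl'.symm h3 h2 hp1
  have hfin : ∀ s : Finset (Fin t), ∀ a : Fin t → V, (∀ i, a i ∈ D i) → ∑ i ∈ s, a i ∈ tvSet B hA G := by
    intro s
    induction s using Finset.induction_on with
    | empty => intro a _; simpa using tvSet_zero
    | insert l s hl ih =>
      intro a ha
      rw [Finset.sum_insert hl]
      by_cases hal : a l = 0
      · rw [hal, zero_add]; exact ih a ha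
      by_cases hall0 : ∀ j ∈ s, a j = 0
      · rw [Finset.sum_eq_zero hall0, add_zero]; exact hDX l _ (ha l)
      push Not at hall0
      obtain ⟨j, hjs, haj⟩ := hall0
      have hjl : j ≠ l := by rintro rfl; exact hl hjs
      obtain ⟨b, hb, hbaj⟩ := h.nd j (a j) (ha j) haj
      have ha' : ∀ i, a i - (if i = j then b else 0) ∈ D i := by
        intro i
        split_ifs with hij
        · subst hij; exact (D i).sub_mem (ha i) hb
        · rw [sub_zero]; exact ha i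
      have hsum' : ∑ i ∈ s, (a i - (if i = j then b else 0)) = ∑ i ∈ s, a i - b := by
        rw [Finset.sum_sub_distrib, Finset.sum_ite_eq' s j, if_pos hjs]
      have hy' := ih _ ha'
      rw [hsum'] at hy'
      have hz := hall j l hjl b hb (a l) (ha l)
      have hB : B (∑ i ∈ s, a i - b) (b + a l) ≠ 0 := by
        rw [map_sub, LinearMap.sub_apply, map_add, map_add, h.B_sum a ha s j b hb, if_pos hjs,
          h.B_sum a ha s l (a l) (ha l), if_neg hl, hA b, h.ort j l hjl b hb _ (ha l)]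
        rw [alt_swap hA]
        simpa using hbaj
      have := tvSet_add hy' hz hB
      have he : ∑ i ∈ s, a i - b + (b + a l) = a l + ∑ i ∈ s, a i := by abel
      rwa [he] at this
  refine mem_of_isIsom hA hN G fun v c => ?_
  obtain ⟨a, ha, hsum⟩ := h.exists_family v
  rw [← hsum]
  exact hfin Finset.univ a ha c

lemma exists_isIsom_not_stab (h : OrthDec B D k) (hA : B.IsAlt) :
    ∃ φ, IsIsom B φ ∧ ¬ DecStab D φ := by
  have h2 := h.two_le
  set i0 : Fin t := ⟨0, by omega⟩ with hi0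
  set i1 : Fin t := ⟨1, by omega⟩ with hi1
  have h01 : i0 ≠ i1 := by simp [hi0, hi1, Fin.ext_iff]
  obtain ⟨v1, hv1, hv10⟩ := h.exists_ne_zero i0
  obtain ⟨v2, hv2, hv20⟩ := h.exists_ne_zero i1
  obtain ⟨x, hx, hxv⟩ := h.nd i0 v1 hv1 hv10
  refine ⟨st B hA (v1 + v2) 1, st_isIsom _ _ _ _, ?_⟩
  rintro ⟨σ, hσ⟩
  have hmem : st B hA (v1 + v2) 1 x ∈ D (σ i0) := by
    rw [← hσ i0]; exact Submodule.mem_map_of_mem hx
  rw [st_apply, one_mul, map_add, h.ort i0 i1 h01 x hx v2 hv2, add_zero, smul_add, ← add_assoc] at hmem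
  set c := B x v1 with hc
  have hj1 : σ i0 = i1 := by
    by_contra hne
    obtain ⟨z, hz, hzv⟩ := h.nd i1 v2 hv2 hv20
    have h3 := h.ort i1 (σ i0) (Ne.symm hne) z hz _ hmem
    rw [map_add, map_add, map_smul, map_smul, h.ort i1 i0 h01.symm z hz x hx,
      h.ort i1 i0 h01.symm z hz v1 hv1, smul_zero, zero_add, zero_add, smul_eq_mul] at h3
    exact (mul_ne_zero hxv hzv) h3
  have hne0 : x + c • v1 ≠ 0 := by
    intro h0
    apply hxv
    have h4 : B (x + c • v1) v1 = 0 := by rw [h0]; simp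
    rw [map_add, LinearMap.add_apply, map_smul, LinearMap.smul_apply, hA v1, smul_zero, add_zero] at h4
    exact h4
  obtain ⟨z, hz, hzv⟩ := h.nd i0 (x + c • v1) ((D i0).add_mem hx ((D i0).smul_mem _ hv1)) hne0
  rw [hj1] at hmem
  have h3 := h.ort i0 i1 h01 z hz _ hmem
  rw [map_add, map_smul (B z) c v2, h.ort i0 i1 h01 z hz v2 hv2, smul_zero, add_zero] at h3
  exact hzv h3

end OrthDec

end Cfsg.Agent.Lib.Helper94
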