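import Mathlib
import Cfsg.Prelude.Def_GeometricClasses
import Cfsg.Agent.Lib.Helper94.SympWrap
import Cfsg.Agent.Lib.Helper94.SympDecomp

set_option autoImplicit false

namespace Cfsg.Agent.Lib.Helper94

open LinearMap (BilinForm)
open Module Matrix

section abstract

variable {F V : Type*} [Field F] [AddCommGroup V] [Module F V]

lemma finrank_span_pair_of_B_ne {B : BilinForm F V} (hA : B.IsAlt) (a x : V) (h : B x a ≠ 0) :
    finrank F (Submodule.span F {a, x}) = 2 := by
  have hli : LinearIndependent F ![a, x] := by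
    rw [LinearIndependent.pair_iff]
    intro s t hst
    have h1 : B (s • a + t • x) a = 0 := by rw [hst]; simp
    simp only [map_add, map_smul, LinearMap.add_apply, LinearMap.smul_apply, smul_eq_mul, hA a,
      mul_zero, zero_add] at h1
    have ht : t = 0 := (mul_eq_zero.1 h1).resolve_right h
    have h2 : B x (s • a + t • x) = 0 := by rw [hst]; simp
    simp only [map_add, map_smul, smul_eq_mul, hA x, mul_zero, add_zero] at h2
    exact ⟨(mul_eq_zero.1 h2).resolve_right h, ht⟩
  have h := finrank_span_eq_card hli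
  have hr : Set.range ![a, x] = {a, x} := by
    ext y; simp [eq_comm, or_comm]
  rw [hr] at h
  simpa using h

lemma OrthDec.hex_of [FiniteDimensional F V] {B : BilinForm F V} {t : ℕ} {D : Fin t → Submodule F V}
    {k : ℕ} (h : OrthDec B D k) (hA : B.IsAlt) (hk : k ≠ 2 ∨ ∃ r : F, r ≠ 0 ∧ r ≠ -1) :
    ∀ i, ∀ a ∈ D i, a ≠ 0 → ∃ b ∈ D i, B a b = 0 ∧ b ≠ 0 ∧ a + b ≠ 0 := by
  intro i a ha ha0
  rcases hk with hk | ⟨r, hr0, hr1⟩
  · obtain ⟨x, hx, hxa⟩ := h.nd i a ha ha0
    have hax : B a x ≠ 0 := by rw [alt_swap hA]; simpa using hxa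
    have hS2 := finrank_span_pair_of_B_ne hA a x hxa
    have hSle : Submodule.span F {a, x} ≤ D i := by
      rw [Submodule.span_le]
      intro z hz
      rcases hz with rfl | rfl
      · exact ha
      · exact hx
    obtain ⟨y, hy, hyS⟩ : ∃ y ∈ D i, y ∉ Submodule.span F {a, x} := by
      by_contra hcon
      push Not at hcon
      have : D i = Submodule.span F {a, x} := le_antisymm hcon hSle
      apply hk
      rw [← h.finrank_eq i, this, hS2]
    have hbs : y - (B a y / B a x) • x ∉ Submodule.span F {a} := by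
      intro hmem
      obtain ⟨μ, hμ⟩ := Submodule.mem_span_singleton.1 hmem
      apply hyS
      rw [Submodule.mem_span_pair]
      exact ⟨μ, B a y / B a x, by rw [hμ]; abel⟩
    refine ⟨y - (B a y / B a x) • x, (D i).sub_mem hy ((D i).smul_mem _ hx), ?_, ?_, ?_⟩
    · rw [map_sub, map_smul, smul_eq_mul, div_mul_cancel₀ _ hax, sub_self]
    · intro h0; rw [h0] at hbs; exact hbs (Submodule.zero_mem _)
    · intro h0
      apply hbs
      rw [Submodule.mem_span_singleton]
      exact ⟨-1, by rw [neg_smul, one_smul]; exact (eq_neg_of_add_eq_zero_right h0).symm⟩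
  · refine ⟨r • a, (D i).smul_mem _ ha, by simp [hA a], smul_ne_zero hr0 ha0, ?_⟩
    have : a + r • a = (1 + r) • a := by rw [add_smul, one_smul]
    rw [this]
    refine smul_ne_zero ?_ ha0
    intro h0
    exact hr1 (eq_neg_of_add_eq_zero_right h0)

end abstract

variable {F : Type*} [Field F]

lemma glEquiv_coe {ι : Type} [Fintype ι] [DecidableEq ι] (g : Matrix.GeneralLinearGroup ι F) :
    ((glEquiv ι F g : (ι → F) ≃ₗ[F] (ι → F)) : (ι → F) →ₗ[F] (ι → F)) = Matrix.toLin' (g : Matrix ι ι F) := by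
  ext x
  simp

lemma mem_decompositionStabilizer_iff {ι : Type} [Fintype ι] [DecidableEq ι] {t : ℕ}
    (D : Fin t → Submodule F (ι → F)) (g : Matrix.GeneralLinearGroup ι F) :
    g ∈ Cfsg.Geo.decompositionStabilizer D ↔ DecStab D (glEquiv ι F g) := by
  unfold DecStab
  rw [glEquiv_coe]
  rfl

lemma orthDec_of {m : ℕ} {t k : ℕ} {D : Fin t → Submodule F (Fin m ⊕ Fin m → F)}
    (hD : Cfsg.Geo.IsNondegenerateMDecomposition (Cfsg.sympForm m F) k D) :
    OrthDec (sympB m F) D k where
  two_le := hD.decomp.two_le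
  pos := hD.decomp.pos
  finrank_eq := hD.decomp.finrank_eq
  sup := hD.decomp.iSup_eq_top
  nd := fun i w hw hw0 => by
    obtain ⟨⟨x, hx, hxw⟩, _⟩ := hD.nondegenerate i w hw hw0
    exact ⟨x, hx, by rw [sympB_apply]; exact hxw⟩
  ort := fun i j hij u hu v hv => by
    rw [sympB_apply]; exact hD.orthogonal i j hij u hu v hv

lemma exists_ne_zero_ne_neg_one [Fintype F] (h : Fintype.card F ≠ 2) : ∃ r : F, r ≠ 0 ∧ r ≠ -1 := by
  classical
  by_contra hcon
  push Not at hcon
  have hsub : (Finset.univ : Finset F) ⊆ {0, -1} := by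
    intro r _
    by_cases hr : r = 0
    · simp [hr]
    · simp [hcon r hr]
  have h1 := Finset.card_le_card hsub
  have h2 : ({0, -1} : Finset F).card ≤ 2 := Finset.card_le_two
  have h3 : 1 < Fintype.card F := Fintype.one_lt_card
  rw [Finset.card_univ] at h1
  omega

end Cfsg.Agent.Lib.Helper94
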