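import Mathlib
import Cfsg.Agent.Lib.Helper94.HermSL

set_option autoImplicit false

namespace Cfsg.Agent.Lib.Helper94.U

open Module
open Cfsg.Agent.Lib.Helper94

variable {F V : Type*} [Field F] [AddCommGroup V] [Module F V]
variable {σ : F →+* F} {B : V →ₛₗ[σ] V →ₗ[F] F}

/-- prescribing the values of two independent functionals `B x`, `B d` -/
lemma exists_two_values [Finite F] [FiniteDimensional F V] (H : HForm σ B) {x d : V}
    (hd : d ∉ Submodule.span F {x}) (hx : x ∉ Submodule.span F {d}) (p q : F) :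
    ∃ w, B x w = p ∧ B d w = q := by
  obtain ⟨u, hu, hdu⟩ := exists_perp_ne H _ hd
  obtain ⟨u', hu', hxu⟩ := exists_perp_ne H _ hx
  rw [mem_perp_span_singleton] at hu hu'
  refine ⟨(p / B x u') • u' + (q / B d u) • u, ?_, ?_⟩
  · rw [map_add, map_smul, map_smul, hu, smul_zero, add_zero, smul_eq_mul, div_mul_cancel₀ _ hxu]
  · rw [map_add, map_smul, map_smul, hu', smul_zero, zero_add, smul_eq_mul, div_mul_cancel₀ _ hdu]

lemma finrank_span_three_le [FiniteDimensional F V] (x y z : V) :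
    finrank F ↥(Submodule.span F {x} ⊔ Submodule.span F {y} ⊔ Submodule.span F {z}) ≤ 3 := by
  have h1 := finrank_sup_span_singleton_le (Submodule.span F {x} ⊔ Submodule.span F {y}) z
  have h2 := finrank_sup_span_singleton_le (Submodule.span F {x}) y
  have h3 := finrank_span_singleton_le (F := F) x
  omega

/-- one isotropic transvection moves `x` to `y` -/
lemma exists_T_move1 (H : HForm σ B) (R : Subgroup (V ≃ₗ[F] V))
    (hR : ∀ v k hk, B v v = 0 → ur H v k hk ∈ R) {x y : V} (hxy : B x x = B y y)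
    (hd : B (y - x) (y - x) = 0) (hne : B (y - x) x ≠ 0) : ∃ t ∈ R, UIsom B t ∧ t x = y :=
  ⟨_, hR _ _ (move_cond H hxy hne) hd, ur_isom _ _ _ _, move_apply H hxy hne⟩

lemma exists_T_move2 [Finite F] [FiniteDimensional F V] (H : HForm σ B) (hdim : 6 < finrank F V)
    (R : Subgroup (V ≃ₗ[F] V)) (hR : ∀ v k hk, B v v = 0 → ur H v k hk ∈ R) {x y : V}
    (hxy : B x x = B y y) (hx0 : x ≠ 0) (hind : y ∉ Submodule.span F {x}) :
    ∃ t ∈ R, UIsom B t ∧ t x = y := by
  set d := y - x with hd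
  have hd1 : d ∉ Submodule.span F {x} := by
    intro h
    apply hind
    have : y = d + x := by rw [hd]; abel
    rw [this]
    exact Submodule.add_mem _ h (Submodule.mem_span_singleton_self x)
  have hd2 : x ∉ Submodule.span F {d} := by
    intro h
    obtain ⟨c, hc⟩ := Submodule.mem_span_singleton.1 h
    have hc0 : c ≠ 0 := by
      rintro rfl
      rw [zero_smul] at hc
      exact hx0 hc.symm
    apply hd1
    rw [Submodule.mem_span_singleton]
    refine ⟨c⁻¹, ?_⟩
    rw [← hc, smul_smul, inv_mul_cancel₀ hc0, one_smul]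
  obtain ⟨ε, hε0, hε⟩ := H.exists_skew
  obtain ⟨δ0, hδ0⟩ := H.exists_trace (B d d) (H.norm_fixed d)
  obtain ⟨δ, hδ, hδne⟩ : ∃ δ, δ + σ δ = B d d ∧ B d x + σ δ - ε ≠ 0 := by
    by_cases h : B d x + σ δ0 - ε = 0
    · refine ⟨δ0 + ε, ?_, ?_⟩
      · rw [map_add]; linear_combination hδ0 + hε
      · rw [map_add]
        intro h'
        apply hε0
        linear_combination h - h' + hε
    · exact ⟨δ0, hδ0, h⟩
  obtain ⟨w0, hw0x, hw0d⟩ := exists_two_values H hd1 hd2 (σ ε) (σ δ)
  have hfr := finrank_span_three_le (F := F) x d w0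
  obtain ⟨w1, hw1, hw1n, -⟩ := exists_norm_perp H
    (Submodule.span F {x} ⊔ Submodule.span F {d} ⊔ Submodule.span F {w0}) (by omega) (-(B w0 w0))
    (by rw [map_neg, H.norm_fixed])
  rw [mem_perp_sup, mem_perp_sup, mem_perp_span_singleton, mem_perp_span_singleton,
    mem_perp_span_singleton] at hw1
  obtain ⟨⟨hw1x, hw1d⟩, hw1w⟩ := hw1
  set w := w0 + w1 with hw
  have hww : B w w = 0 := by rw [hw, H.norm_add, hw1n, hw1w]; simp
  have hxw : B x w = σ ε := by rw [hw, map_add, hw0x, hw1x, add_zero]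
  have hdw : B d w = σ δ := by rw [hw, map_add, hw0d, hw1d, add_zero]
  have hwx : B w x = ε := by rw [← H.symm, hxw, H.invol]
  have hwd : B w d = δ := by rw [← H.symm, hdw, H.invol]
  have hz : B (x + w) (x + w) = B x x := by
    rw [H.norm_add, hww, hxw, H.invol]; linear_combination hε
  obtain ⟨t1, ht1, hi1, hm1⟩ := exists_T_move1 H R hR (x := x) (y := x + w) hz.symm
    (by rw [add_sub_cancel_left]; exact hww) (by rw [add_sub_cancel_left, hwx]; exact hε0)
  have e : y - (x + w) = d - w := by rw [hd]; abel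
  obtain ⟨t2, ht2, hi2, hm2⟩ := exists_T_move1 H R hR (x := x + w) (y := y) (by rw [hz, hxy])
    (by
      rw [e]
      simp only [map_sub, LinearMap.sub_apply, hww, hdw, hwd]
      linear_combination -hδ)
    (by
      rw [e]
      simp only [map_sub, map_add, LinearMap.sub_apply, hww, hdw, hwx]
      intro h
      apply hδne
      linear_combination h)
  exact ⟨t2 * t1, R.mul_mem ht2 ht1, hi2.mul hi1, by rw [LinearEquiv.mul_apply, hm1, hm2]⟩

/-- the group generated by isotropic transvections is transitive on vectors of given non-zero norm -/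
lemma exists_T_move [Finite F] [FiniteDimensional F V] (H : HForm σ B) (hdim : 6 < finrank F V)
    (R : Subgroup (V ≃ₗ[F] V)) (hR : ∀ v k hk, B v v = 0 → ur H v k hk ∈ R) {x y : V}
    (hxy : B x x = B y y) (hne : B x x ≠ 0) : ∃ t ∈ R, UIsom B t ∧ t x = y := by
  have hx0 : x ≠ 0 := by rintro rfl; simp at hne
  by_cases hind : y ∈ Submodule.span F {x}
  · have h1 := finrank_span_singleton_le (F := F) x
    obtain ⟨z, hz, hzn, -⟩ := exists_norm_perp H (Submodule.span F {x}) (by omega) (B x x)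
      (H.norm_fixed x)
    rw [mem_perp_span_singleton] at hz
    have hz0 : z ≠ 0 := by rintro rfl; simp at hzn; exact hne hzn.symm
    obtain ⟨c, hc⟩ := Submodule.mem_span_singleton.1 hind
    obtain ⟨t1, ht1, hi1, hm1⟩ := exists_T_move2 H hdim R hR (x := x) (y := z) hzn.symm hx0 (by
      intro h
      obtain ⟨c', hc'⟩ := Submodule.mem_span_singleton.1 h
      rw [← hc', map_smul, smul_eq_mul] at hz
      rcases mul_eq_zero.1 hz with h0 | h0
      · rw [h0, zero_smul] at hc'; exact hz0 hc'.symm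
      · exact hne h0)
    obtain ⟨t2, ht2, hi2, hm2⟩ := exists_T_move2 H hdim R hR (x := z) (y := y) (by rw [hzn, hxy]) hz0 (by
      intro h
      obtain ⟨c', hc'⟩ := Submodule.mem_span_singleton.1 h
      have h2 : B x y = 0 := by rw [← hc', map_smul, hz, smul_zero]
      rw [← hc, map_smul, smul_eq_mul] at h2
      rcases mul_eq_zero.1 h2 with h0 | h0
      · rw [h0, zero_smul] at hc
        rw [← hc] at hxy
        simp at hxy
        exact hne hxy
      · exact hne h0)
    exact ⟨t2 * t1, R.mul_mem ht2 ht1, hi2.mul hi1, by rw [LinearEquiv.mul_apply, hm1, hm2]⟩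
  · exact exists_T_move2 H hdim R hR hxy hx0 hind

/-- the set of isotropic transvections -/
def tvs (H : HForm σ B) : Set (V ≃ₗ[F] V) := {t | ∃ v k hk, B v v = 0 ∧ t = ur H v k hk}

/-- the group generated by the isotropic transvections -/
def Tgrp (H : HForm σ B) : Subgroup (V ≃ₗ[F] V) := Subgroup.closure (tvs H)

lemma ur_mem_Tgrp (H : HForm σ B) (v : V) (k : F) (hk) (hv : B v v = 0) : ur H v k hk ∈ Tgrp H :=
  Subgroup.subset_closure ⟨v, k, hk, hv, rfl⟩

lemma Tgrp_conj (H : HForm σ B) {g : V ≃ₗ[F] V} (hg : UIsom B g) {t : V ≃ₗ[F] V} (ht : t ∈ Tgrp H) :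
    g * t * g⁻¹ ∈ Tgrp H := by
  unfold Tgrp at ht
  induction ht using Subgroup.closure_induction with
  | mem t ht =>
    obtain ⟨v, k, hk, hv, rfl⟩ := ht
    rw [conj_ur H hg]
    exact ur_mem_Tgrp H _ _ _ (by rw [hg]; exact hv)
  | one => simp [Subgroup.one_mem]
  | mul a b _ _ ha hb =>
    have : g * (a * b) * g⁻¹ = (g * a * g⁻¹) * (g * b * g⁻¹) := by group
    rw [this]; exact Subgroup.mul_mem _ ha hb
  | inv a _ ha =>
    have : g * a⁻¹ * g⁻¹ = (g * a * g⁻¹)⁻¹ := by group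
    rw [this]; exact Subgroup.inv_mem _ ha

lemma Tgrp_isom (H : HForm σ B) {t : V ≃ₗ[F] V} (ht : t ∈ Tgrp H) : UIsom B t := by
  have : Tgrp H ≤ isomGroup B := by
    unfold Tgrp
    rw [Subgroup.closure_le]
    rintro _ ⟨v, k, hk, -, rfl⟩
    exact ur_isom _ _ _ _
  exact this ht

lemma Tgrp_det [FiniteDimensional F V] (H : HForm σ B) {t : V ≃ₗ[F] V} (ht : t ∈ Tgrp H) :
    LinearMap.det (t : V →ₗ[F] V) = 1 := by
  have : Tgrp H ≤ (LinearEquiv.det : (V ≃ₗ[F] V) →* Fˣ).ker := by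
    unfold Tgrp
    rw [Subgroup.closure_le]
    rintro _ ⟨v, k, hk, hv, rfl⟩
    change _ ∈ (LinearEquiv.det : (V ≃ₗ[F] V) →* Fˣ).ker
    rw [MonoidHom.mem_ker, Units.ext_iff, LinearEquiv.coe_det, ur_det, hv]
    simp
  have h := this ht
  rw [MonoidHom.mem_ker, Units.ext_iff, LinearEquiv.coe_det] at h
  exact h

lemma ur_mul_cond (H : HForm σ B) (u : V) (k1 k2 : F) (h1 : k1 + σ k1 + k1 * σ k1 * B u u = 0)
    (h2 : k2 + σ k2 + k2 * σ k2 * B u u = 0) :
    (k1 + k2 + k1 * k2 * B u u) + σ (k1 + k2 + k1 * k2 * B u u) +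
      (k1 + k2 + k1 * k2 * B u u) * σ (k1 + k2 + k1 * k2 * B u u) * B u u = 0 := by
  simp only [map_add, map_mul, H.norm_fixed]
  linear_combination (1 + B u u * (k2 + σ k2 + k2 * σ k2 * B u u)) * h1 + h2

lemma ur_mul (H : HForm σ B) (u : V) (k1 k2 : F) (h1 : k1 + σ k1 + k1 * σ k1 * B u u = 0)
    (h2 : k2 + σ k2 + k2 * σ k2 * B u u = 0) :
    ur H u k1 h1 * ur H u k2 h2 = ur H u (k1 + k2 + k1 * k2 * B u u) (ur_mul_cond H u k1 k2 h1 h2) := by
  ext x
  simp only [LinearEquiv.mul_apply, ur_apply, map_add, map_smul, smul_eq_mul]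
  module

lemma ur_zero (H : HForm σ B) (u : V) (h : (0 : F) + σ 0 + 0 * σ 0 * B u u = 0) : ur H u 0 h = 1 := by
  ext x; simp [ur_apply]

lemma ur_inv_cond (H : HForm σ B) (u : V) (k : F) (h : k + σ k + k * σ k * B u u = 0) :
    σ k + σ (σ k) + σ k * σ (σ k) * B u u = 0 := by
  rw [H.invol]; linear_combination h

lemma ur_inv (H : HForm σ B) (u : V) (k : F) (h : k + σ k + k * σ k * B u u = 0) :
    (ur H u k h)⁻¹ = ur H u (σ k) (ur_inv_cond H u k h) := by
  rw [inv_eq_iff_mul_eq_one]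
  ext x
  simp only [LinearEquiv.mul_apply, ur_apply, map_add, map_smul, smul_eq_mul, LinearEquiv.coe_one, id_eq]
  have : x + (k * B u x) • u + (σ k * B u x) • (u + (k * B u u) • u) =
      x + ((k + σ k + k * σ k * B u u) * B u x) • u := by module
  rw [this, h, zero_mul, zero_smul, add_zero]

lemma ur_smul (H : HForm σ B) (u : V) (c k : F) (hc : c ≠ 0)
    (h : k + σ k + k * σ k * B u u = 0)
    (h' : k / (c * σ c) + σ (k / (c * σ c)) + k / (c * σ c) * σ (k / (c * σ c)) * B (c • u) (c • u) = 0) :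
    ur H u k h = ur H (c • u) (k / (c * σ c)) h' := by
  have hs := H.sigma_ne_zero hc
  ext x
  simp only [ur_apply, map_smulₛₗ, LinearMap.smul_apply, smul_eq_mul, smul_smul]
  congr 2
  field_simp

/-- the group `T · D`, `D` the quasi-reflections with centre `u0` -/
def TD (H : HForm σ B) (u0 : V) : Subgroup (V ≃ₗ[F] V) where
  carrier := {g | UIsom B g ∧ ∃ k hk, g * ur H u0 k hk ∈ Tgrp H}
  mul_mem' := by
    rintro a b ⟨ha, k1, hk1, h1⟩ ⟨hb, k2, hk2, h2⟩
    refine ⟨ha.mul hb, _, ur_mul_cond H u0 k2 k1 hk2 hk1, ?_⟩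
    rw [← ur_mul H u0 k2 k1 hk2 hk1]
    have : a * b * (ur H u0 k2 hk2 * ur H u0 k1 hk1) =
        (a * (b * ur H u0 k2 hk2) * a⁻¹) * (a * ur H u0 k1 hk1) := by group
    rw [this]
    exact Subgroup.mul_mem _ (Tgrp_conj H ha h2) h1
  one_mem' := by
    refine ⟨UIsom.one, 0, by simp, ?_⟩
    rw [ur_zero, one_mul]; exact Subgroup.one_mem _
  inv_mem' := by
    rintro a ⟨ha, k, hk, h⟩
    refine ⟨ha.inv, σ k, ur_inv_cond H u0 k hk, ?_⟩
    rw [← ur_inv H u0 k hk]
    have : a⁻¹ * (ur H u0 k hk)⁻¹ = ur H u0 k hk * (a * ur H u0 k hk)⁻¹ * (ur H u0 k hk)⁻¹ := by group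
    rw [this]
    exact Tgrp_conj H (ur_isom _ _ _ _) (Subgroup.inv_mem _ h)

/-- **Generation of the special unitary group by transvections** (dimension at least 7). -/
theorem mem_Tgrp_of_sisom [Finite F] [FiniteDimensional F V] (H : HForm σ B) (hdim : 6 < finrank F V)
    (g : V ≃ₗ[F] V) (hg : UIsom B g) (hdet : LinearMap.det (g : V →ₗ[F] V) = 1) : g ∈ Tgrp H := by
  obtain ⟨u0, -, hu0⟩ := exists_nonisotropic_perp H ⊥ (by simp; omega)
  have hmem : g ∈ TD H u0 := by
    refine mem_of_isom H _ ?_ g hg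
    intro u k hk
    by_cases hu : B u u = 0
    · refine ⟨ur_isom _ _ _ _, 0, by simp, ?_⟩
      rw [ur_zero, mul_one]
      exact ur_mem_Tgrp H _ _ _ hu
    · obtain ⟨c, hc⟩ := H.exists_norm (B u0 u0 / B u u) (by rw [map_div₀, H.norm_fixed, H.norm_fixed])
      have hc0 : c ≠ 0 := by
        rintro rfl
        rw [zero_mul] at hc
        exact (div_ne_zero hu0 hu) hc.symm
      have hn : B (c • u) (c • u) = B u0 u0 := by rw [H.norm_smul, hc, div_mul_cancel₀ _ hu]
      have hs := H.sigma_ne_zero hc0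
      have h' : k / (c * σ c) + σ (k / (c * σ c)) + k / (c * σ c) * σ (k / (c * σ c)) *
          B (c • u) (c • u) = 0 := by
        rw [H.norm_smul, map_div₀, map_mul, H.invol]
        field_simp
        linear_combination hk
      obtain ⟨t, ht, hti, htu⟩ := exists_T_move H hdim (Tgrp H) (fun v k hk hv => ur_mem_Tgrp H v k hk hv)
        hn.symm hu0
      have h0 : k / (c * σ c) + σ (k / (c * σ c)) + k / (c * σ c) * σ (k / (c * σ c)) * B u0 u0 = 0 := by
        rw [← hn]; exact h'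
      have e : ur H u k hk = t * ur H u0 (k / (c * σ c)) h0 * t⁻¹ := by
        rw [ur_smul H u c k hc0 hk h', conj_ur H hti]
        congr 1
        exact htu.symm
      refine ⟨ur_isom _ _ _ _, _, ur_inv_cond H u0 _ h0, ?_⟩
      rw [← ur_inv H u0 _ h0, e]
      have : t * ur H u0 (k / (c * σ c)) h0 * t⁻¹ * (ur H u0 (k / (c * σ c)) h0)⁻¹ =
          t * (ur H u0 (k / (c * σ c)) h0 * t⁻¹ * (ur H u0 (k / (c * σ c)) h0)⁻¹) := by group
      rw [this]
      exact Subgroup.mul_mem _ ht (Tgrp_conj H (ur_isom _ _ _ _) (Subgroup.inv_mem _ ht))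
  obtain ⟨-, k, hk, h⟩ := hmem
  have h1 := Tgrp_det H h
  rw [det_mul, hdet, one_mul, ur_det] at h1
  have hk0 : k = 0 := by
    have : k * B u0 u0 = 0 := by linear_combination h1
    exact (mul_eq_zero.1 this).resolve_right hu0
  subst hk0
  rwa [ur_zero, mul_one] at h

theorem mem_of_sisom [Finite F] [FiniteDimensional F V] (H : HForm σ B) (hdim : 6 < finrank F V)
    (R : Subgroup (V ≃ₗ[F] V)) (hR : ∀ v k hk, B v v = 0 → ur H v k hk ∈ R)
    (g : V ≃ₗ[F] V) (hg : UIsom B g) (hdet : LinearMap.det (g : V →ₗ[F] V) = 1) : g ∈ R := by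
  have hle : Tgrp H ≤ R := by
    unfold Tgrp
    rw [Subgroup.closure_le]
    rintro _ ⟨v, k, hk, hv, rfl⟩
    exact hR v k hk hv
  exact hle (mem_Tgrp_of_sisom H hdim g hg hdet)

end Cfsg.Agent.Lib.Helper94.U
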