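import Mathlib
import Cfsg.Agent.Lib.Helper94.HermSU

set_option autoImplicit false
set_option linter.unusedSimpArgs false

namespace Cfsg.Agent.Lib.Helper94.U

open Module
open Cfsg.Agent.Lib.Helper94

variable {F V : Type*} [Field F] [AddCommGroup V] [Module F V]
variable {σ : F →+* F} {B : V →ₛₗ[σ] V →ₗ[F] F}

/-- `a`, `b` span a totally isotropic subspace -/
structure TI (B : V →ₛₗ[σ] V →ₗ[F] F) (a b : V) : Prop where
  aa : B a a = 0
  bb : B b b = 0
  ab : B a b = 0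
  ba : B b a = 0

lemma TI.map {a b : V} (h : TI B a b) {g : V ≃ₗ[F] V} (hg : UIsom B g) : TI B (g a) (g b) :=
  ⟨by rw [hg, h.aa], by rw [hg, h.bb], by rw [hg, h.ab], by rw [hg, h.ba]⟩

lemma TI.neg_right {a b : V} (h : TI B a b) : TI B a (-b) :=
  ⟨h.aa, by simp [h.bb], by simp [h.ab], by simp [h.ba]⟩

lemma TI.smul_right {a b : V} (h : TI B a b) (c : F) : TI B a (c • b) :=
  ⟨h.aa, by simp [h.bb], by simp [h.ab], by simp [h.ba]⟩

lemma TI.smul_left {a b : V} (h : TI B a b) (c : F) : TI B (c • a) b :=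
  ⟨by simp [h.aa], h.bb, by simp [h.ab], by simp [h.ba]⟩

/-- the Siegel element `x ↦ x + B b x • a - B a x • b` -/
noncomputable def sr (B : V →ₛₗ[σ] V →ₗ[F] F) (a b : V) (h : TI B a b) : V ≃ₗ[F] V :=
  tr (B b) a h.ba * tr (-(B a)) b (by simp [h.ab])

lemma sr_apply {a b : V} (h : TI B a b) (x : V) : sr B a b h x = x + B b x • a - B a x • b := by
  unfold sr
  rw [LinearEquiv.mul_apply, tr_apply, tr_apply]
  simp only [LinearMap.neg_apply, neg_smul, map_add, map_neg, map_smul, h.bb, smul_zero, neg_zero, add_zero]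
  abel

lemma sr_isom (H : HForm σ B) {a b : V} (h : TI B a b) : UIsom B (sr B a b h) := by
  intro x y
  simp only [sr_apply, map_add, map_sub, map_smulₛₗ, LinearMap.add_apply, LinearMap.sub_apply,
    LinearMap.smul_apply, smul_eq_mul, h.aa, h.bb, h.ab, h.ba, H.symm, RingHom.id_apply]
  ring

lemma sr_det {a b : V} (h : TI B a b) : LinearMap.det ((sr B a b h : V ≃ₗ[F] V) : V →ₗ[F] V) = 1 := by
  unfold sr
  rw [det_mul, tr_det, tr_det, one_mul]

lemma conj_sr {g : V ≃ₗ[F] V} (hg : UIsom B g) {a b : V} (h : TI B a b) :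
    g * sr B a b h * g⁻¹ = sr B (g a) (g b) (h.map hg) := by
  ext x
  simp only [LinearEquiv.mul_apply, sr_apply, map_add, map_sub, map_smul, apply_inv_self', hg.inv_right]

lemma sr_inv {a b : V} (h : TI B a b) : (sr B a b h)⁻¹ = sr B a (-b) h.neg_right := by
  rw [inv_eq_iff_mul_eq_one]
  ext x
  simp only [LinearEquiv.mul_apply, sr_apply, map_add, map_sub, map_smul, map_neg, LinearMap.neg_apply,
    smul_eq_mul, h.aa, h.bb, h.ab, h.ba, LinearEquiv.coe_one, id_eq]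
  module

lemma ur_congr (H : HForm σ B) (c : V) {k k' : F} (hkk : k = k') (hk) (hk') :
    ur H c k hk = ur H c k' hk' := by
  subst hkk; rfl

lemma sr_comm_cond (H : HForm σ B) {c : V} (hc : B c c = 0) (y y' : V) :
    (B y' y - B y y') + σ (B y' y - B y y') + (B y' y - B y y') * σ (B y' y - B y y') * B c c = 0 := by
  rw [hc, map_sub, H.symm, H.symm]; ring

/-- the commutator of two Siegel elements with a common vector is a transvection -/
lemma sr_comm (H : HForm σ B) {c y y' : V} (h : TI B c y) (h' : TI B c y') :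
    sr B c y h * sr B c y' h' * (sr B c y h)⁻¹ * (sr B c y' h')⁻¹ =
      ur H c (B y' y - B y y') (sr_comm_cond H h.aa y y') := by
  rw [sr_inv, sr_inv]
  ext x
  simp only [LinearEquiv.mul_apply, sr_apply, ur_apply, map_add, map_sub, map_smul, map_neg,
    LinearMap.neg_apply, smul_eq_mul, h.aa, h.bb, h.ab, h.ba, h'.bb, h'.ab, h'.ba]
  module

/-- isotropic vectors all of whose transvections lie in `G` -/
def tvX (H : HForm σ B) (G : Subgroup (V ≃ₗ[F] V)) : Set V :=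
  {v | B v v = 0 ∧ ∀ k hk, ur H v k hk ∈ G}

lemma tvX_smul (H : HForm σ B) {G : Subgroup (V ≃ₗ[F] V)} {v : V} (hv : v ∈ tvX H G) (c : F) :
    c • v ∈ tvX H G := by
  refine ⟨by rw [H.norm_smul, hv.1, mul_zero], fun k hk => ?_⟩
  have hk0 : k + σ k = 0 := by
    rw [H.norm_smul, hv.1] at hk
    simpa using hk
  have hk' : k * (c * σ c) + σ (k * (c * σ c)) + k * (c * σ c) * σ (k * (c * σ c)) * B v v = 0 := by
    rw [hv.1, map_mul, map_mul, H.invol]
    linear_combination (c * σ c) * hk0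
  have : ur H (c • v) k hk = ur H v (k * (c * σ c)) hk' := by
    ext x
    simp only [ur_apply, map_smulₛₗ, LinearMap.smul_apply, smul_eq_mul, smul_smul]
    congr 2
    ring
  rw [this]; exact hv.2 _ _

lemma tvX_map (H : HForm σ B) {G : Subgroup (V ≃ₗ[F] V)} {v : V} (hv : v ∈ tvX H G) {g : V ≃ₗ[F] V}
    (hg : g ∈ G) (hgI : UIsom B g) : g v ∈ tvX H G := by
  refine ⟨by rw [hgI, hv.1], fun k hk => ?_⟩
  have hk' : k + σ k + k * σ k * B v v = 0 := by rw [← hgI v v]; exact hk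
  have := conj_ur H hgI v k hk'
  rw [← this]
  exact G.mul_mem (G.mul_mem hg (hv.2 _ _)) (G.inv_mem hg)

/-- closure under hyperbolic lines -/
lemma tvX_line (H : HForm σ B) {G : Subgroup (V ≃ₗ[F] V)} {v1 v2 : V} (h1 : v1 ∈ tvX H G)
    (h2 : v2 ∈ tvX H G) (hne : B v1 v2 ≠ 0) (m : F) (hm : B (v2 + m • v1) (v2 + m • v1) = 0) :
    v2 + m • v1 ∈ tvX H G := by
  have hs : σ (B v1 v2) ≠ 0 := H.sigma_ne_zero hne
  have hk : m / B v1 v2 + σ (m / B v1 v2) + m / B v1 v2 * σ (m / B v1 v2) * B v1 v1 = 0 := by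
    rw [H.norm_add, H.norm_smul, h1.1, h2.1, map_smul, smul_eq_mul, map_mul, H.symm] at hm
    rw [h1.1, map_div₀]
    have h21 : B v2 v1 = σ (B v1 v2) := (H.symm _ _).symm
    rw [h21] at hm
    field_simp
    linear_combination hm
  have := tvX_map H h2 (h1.2 _ hk) (ur_isom _ _ _ _)
  rwa [ur_apply, div_mul_cancel₀ _ hne] at this

lemma map_eq_of_forall_mem'' [FiniteDimensional F V] (g : V ≃ₗ[F] V) (W W' : Submodule F V)
    (hfr : finrank F W = finrank F W') (h : ∀ w ∈ W, g w ∈ W') : W.map (g : V →ₗ[F] V) = W' := by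
  have hle : W.map (g : V →ₗ[F] V) ≤ W' := by
    rintro _ ⟨w, hw, rfl⟩
    exact h w hw
  exact Submodule.eq_of_le_of_finrank_eq hle ((LinearEquiv.finrank_map_eq g W).trans hfr)

/-- a pair of complementary totally isotropic subspaces -/
structure LagPair (B : V →ₛₗ[σ] V →ₗ[F] F) (W₁ W₂ : Submodule F V) : Prop where
  iso₁ : ∀ u ∈ W₁, ∀ v ∈ W₁, B u v = 0
  iso₂ : ∀ u ∈ W₂, ∀ v ∈ W₂, B u v = 0
  compl : IsCompl W₁ W₂

lemma exists_perp3 [FiniteDimensional F V] (B : V →ₛₗ[σ] V →ₗ[F] F) (W : Submodule F V)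
    (hW : 3 < finrank F W) (u : Fin 3 → V) : ∃ c ∈ W, c ≠ 0 ∧ ∀ i, B (u i) c = 0 := by
  let f : W →ₗ[F] (Fin 3 → F) := LinearMap.pi (fun i => (B (u i)).comp W.subtype)
  have hk : f.ker ≠ ⊥ := LinearMap.ker_ne_bot_of_finrank_lt (by simpa using hW)
  obtain ⟨c, hc, hc0⟩ := Submodule.exists_mem_ne_zero_of_ne_bot hk
  refine ⟨c, c.2, by simpa using hc0, fun i => ?_⟩
  have := congrFun (LinearMap.mem_ker.1 hc) i
  simpa [f] using this

namespace LagPair

variable {W₁ W₂ : Submodule F V}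

lemma symm (h : LagPair B W₁ W₂) : LagPair B W₂ W₁ := ⟨h.iso₂, h.iso₁, h.compl.symm⟩

lemma exists_add (h : LagPair B W₁ W₂) (x : V) : ∃ x₁ ∈ W₁, ∃ x₂ ∈ W₂, x₁ + x₂ = x := by
  have : x ∈ W₁ ⊔ W₂ := by rw [h.compl.sup_eq_top]; trivial
  exact Submodule.mem_sup.1 this

lemma inter (h : LagPair B W₁ W₂) {x : V} (h1 : x ∈ W₁) (h2 : x ∈ W₂) : x = 0 := by
  have := h.compl.disjoint
  rw [Submodule.disjoint_def] at this
  exact this x h1 h2

lemma mem_of_perp (h : LagPair B W₁ W₂) (H : HForm σ B) {x : V}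
    (hx : ∀ w ∈ W₂, B w x = 0) : x ∈ W₂ := by
  obtain ⟨x₁, h1, x₂, h2, rfl⟩ := h.exists_add x
  have : x₁ = 0 := by
    apply H.nondeg
    intro y
    obtain ⟨y₁, hy1, y₂, hy2, rfl⟩ := h.exists_add y
    rw [map_add, h.iso₁ _ h1 _ hy1, zero_add]
    have := hx y₂ hy2
    rw [map_add, h.iso₂ _ hy2 _ h2, add_zero] at this
    exact H.eq_zero_comm.1 this
  rw [this, zero_add]; exact h2

lemma exists_in [Finite F] [FiniteDimensional F V] (h : LagPair B W₁ W₂) (H : HForm σ B)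
    (U : Submodule F V) {x : V} (hx : x ∉ W₂ ⊔ U) :
    ∃ z ∈ W₂, (∀ u ∈ U, B u z = 0) ∧ B x z ≠ 0 := by
  obtain ⟨z, hz, hxz⟩ := exists_perp_ne H (W₂ ⊔ U) hx
  exact ⟨z, h.mem_of_perp H (fun w hw => hz w (Submodule.mem_sup_left hw)),
    fun u hu => hz u (Submodule.mem_sup_right hu), hxz⟩

lemma ti (h : LagPair B W₁ W₂) (H : HForm σ B) {a b : V} (ha : a ∈ W₁) (hb : b ∈ W₂) (hab : B a b = 0) :
    TI B a b := ⟨h.iso₁ a ha a ha, h.iso₂ b hb b hb, hab, H.eq_zero_comm.1 hab⟩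

theorem sub_tvX [Finite F] [FiniteDimensional F V] (h : LagPair B W₁ W₂) (H : HForm σ B)
    (hm : 3 < finrank F W₁)
    (G : Subgroup (V ≃ₗ[F] V)) (hP : ∀ a ∈ W₁, ∀ b ∈ W₂, ∀ hab : TI B a b, sr B a b hab ∈ G)
    (φ0 : V ≃ₗ[F] V) (hφ0 : φ0 ∈ G) (hI : UIsom B φ0)
    (a₀ : V) (ha₀ : a₀ ∈ W₁) (ha₀' : φ0 a₀ ∉ W₂) (b₀ : V) (hb₀ : b₀ ∈ W₂) (hb₀' : φ0 b₀ ∉ W₂) :
    ∀ w ∈ W₁, w ∈ tvX H G := by
  -- step 0: find a, b
  obtain ⟨a, ha, b, hb, hab, ha', hb'⟩ :
      ∃ a ∈ W₁, ∃ b ∈ W₂, B a b = 0 ∧ φ0 a ∉ W₂ ∧ φ0 b ∉ W₂ := by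
    by_cases hex : ∃ a ∈ W₁, B a b₀ = 0 ∧ φ0 a ∉ W₂
    · obtain ⟨a, ha, hab, ha'⟩ := hex
      exact ⟨a, ha, b₀, hb₀, hab, ha', hb₀'⟩
    · push Not at hex
      obtain ⟨a₂, ha₂, ha₂0, ha₂b⟩ := exists_perp3 B W₁ hm (fun _ => b₀)
      have ha₂L := hex a₂ ha₂ (H.eq_zero_comm.1 (ha₂b 0))
      have hnot : a₂ ∉ W₂ ⊔ Submodule.span F {a₀} := by
        intro hmem
        obtain ⟨w, hw, y, hy, hwy⟩ := Submodule.mem_sup.1 hmem
        obtain ⟨l, rfl⟩ := Submodule.mem_span_singleton.1 hy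
        have hw0 : w = 0 := h.inter
          (by rw [eq_sub_of_add_eq hwy]; exact W₁.sub_mem ha₂ (W₁.smul_mem _ ha₀)) hw
        rw [hw0, zero_add] at hwy
        by_cases hl : l = 0
        · rw [hl, zero_smul] at hwy; exact ha₂0 hwy.symm
        · apply ha₀'
          have : a₀ = l⁻¹ • a₂ := by rw [← hwy, smul_smul, inv_mul_cancel₀ hl, one_smul]
          rw [this, map_smul]; exact W₂.smul_mem _ ha₂L
      obtain ⟨b₂, hb₂, hb₂a, hb₂n⟩ := h.exists_in H _ hnot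
      refine ⟨a₀, ha₀, b₂, hb₂, hb₂a a₀ (Submodule.mem_span_singleton_self _), ha₀', ?_⟩
      intro hcon
      apply hb₂n
      rw [← hI, h.iso₂ _ ha₂L _ hcon]
  -- step 1: d
  have hne : ∀ x, x ∉ W₂ → ∃ z ∈ W₂, B x z ≠ 0 := by
    intro x hx
    by_contra hcon
    push Not at hcon
    exact hx (h.mem_of_perp H (fun w hw => H.eq_zero_comm.1 (hcon w hw)))
  obtain ⟨d, hd, hda, hdb⟩ := exists_both_ne_zero W₂ (B (φ0 a)) (B (φ0 b)) (hne _ ha') (hne _ hb')
  obtain ⟨c, hc, hc0, hcu⟩ := exists_perp3 B W₁ hm ![φ0 a, φ0 b, d]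
  have hca : B (φ0 a) c = 0 := hcu 0
  have hcb : B (φ0 b) c = 0 := hcu 1
  have hdc : B d c = 0 := hcu 2
  have hcd : B c d = 0 := H.eq_zero_comm.1 hdc
  have hcc : B c c = 0 := h.iso₁ c hc c hc
  have hdd : B d d = 0 := h.iso₂ d hd d hd
  have hcX : c ∈ tvX H G := by
    refine ⟨hcc, fun k hk => ?_⟩
    have hk0 : k + σ k = 0 := by rw [hcc] at hk; simpa using hk
    obtain ⟨μ, hμ⟩ := H.exists_trace 1 (map_one σ)
    set p := B (φ0 a) d with hp
    set r := B (φ0 b) d with hr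
    have hsp : σ p ≠ 0 := H.sigma_ne_zero hda
    set l : F := -(k * μ) / (r * σ p) with hl
    have hT : TI B (l • a) b := (h.ti H ha hb hab).smul_left l
    have hS' : sr B (φ0 (l • a)) (φ0 b) (hT.map hI) ∈ G := by
      rw [← conj_sr hI hT]
      exact G.mul_mem (G.mul_mem hφ0 (hP _ (W₁.smul_mem _ ha) _ hb hT)) (G.inv_mem hφ0)
    set S' := sr B (φ0 (l • a)) (φ0 b) (hT.map hI) with hS'def
    have hS'I : UIsom B S' := sr_isom H _
    have hTcd : TI B c d := h.ti H hc hd hcd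
    have hS'c : S' c = c := by
      rw [hS'def, sr_apply, hcb, map_smul, map_smulₛₗ, LinearMap.smul_apply, hca]
      simp
    have hT2 : TI B c (S' d) := by
      have := hTcd.map hS'I
      rwa [hS'c] at this
    have hG2 : sr B c (S' d) hT2 ∈ G := by
      have e : sr B c (S' d) hT2 = S' * sr B c d hTcd * S'⁻¹ := by
        rw [conj_sr hS'I hTcd]
        congr 1
        exact hS'c.symm
      rw [e]
      exact G.mul_mem (G.mul_mem hS' (hP c hc d hd hTcd)) (G.inv_mem hS')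
    have hG1 : sr B c (μ • d) (hTcd.smul_right μ) ∈ G := hP c hc _ (W₂.smul_mem _ hd) _
    have key := sr_comm H (hTcd.smul_right μ) hT2
    have hS'd : S' d = d + r • (l • φ0 a) - (σ l * p) • φ0 b := by
      rw [hS'def, sr_apply, map_smul, map_smulₛₗ, LinearMap.smul_apply, smul_eq_mul]
    have hval : B (S' d) (μ • d) - B (μ • d) (S' d) = k := by
      have hda' : B d (φ0 a) = σ p := by rw [hp, H.symm]
      have hdb' : B d (φ0 b) = σ r := by rw [hr, H.symm]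
      rw [hS'd]
      simp only [map_add, map_sub, map_smulₛₗ, map_smul, LinearMap.add_apply, LinearMap.sub_apply,
        LinearMap.smul_apply, smul_eq_mul, hdd, map_mul, H.invol, RingHom.id_apply, ← hp, ← hr, hda', hdb']
      have hl1 : l * (r * σ p) = -(k * μ) := by rw [hl, div_mul_cancel₀ _ (mul_ne_zero hdb hsp)]
      have hl2 : σ l * (σ r * p) = -(σ k * σ μ) := by
        have := congrArg σ hl1
        simpa only [map_mul, map_neg, H.invol] using this
      have hsk : σ k = -k := by linear_combination hk0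
      rw [hsk] at hl2
      linear_combination (-μ - σ μ) * hl1 + (μ + σ μ) * hl2 + (k * μ + k * σ μ + k) * hμ - k * hμ * 0 +
        0 * hk0
    rw [ur_congr H c hval.symm hk (sr_comm_cond H hcc _ _), ← key]
    exact G.mul_mem (G.mul_mem (G.mul_mem hG1 hG2) (G.inv_mem hG1)) (G.inv_mem hG2)
  -- step 3
  intro w hw
  by_cases hwc : w ∈ Submodule.span F {c}
  · obtain ⟨r, rfl⟩ := Submodule.mem_span_singleton.1 hwc
    exact tvX_smul H hcX r
  · have hnot : c ∉ W₂ ⊔ Submodule.span F {w - c} := by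
      intro hmem
      obtain ⟨w₂, hw₂, y, hy, hwy⟩ := Submodule.mem_sup.1 hmem
      obtain ⟨l, rfl⟩ := Submodule.mem_span_singleton.1 hy
      have hw0 : w₂ = 0 := h.inter
        (by rw [eq_sub_of_add_eq hwy]; exact W₁.sub_mem hc (W₁.smul_mem _ (W₁.sub_mem hw hc))) hw₂
      rw [hw0, zero_add] at hwy
      by_cases hl : l = 0
      · rw [hl, zero_smul] at hwy; exact hc0 hwy.symm
      · apply hwc
        rw [Submodule.mem_span_singleton]
        refine ⟨(1 + l) / l, ?_⟩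
        have : l • w = (1 + l) • c := by
          have h3 : l • w - l • c = c := by rw [← smul_sub]; exact hwy
          rw [add_smul, one_smul]
          rw [sub_eq_iff_eq_add] at h3
          exact h3
        rw [div_eq_inv_mul, mul_smul, ← this, smul_smul, inv_mul_cancel₀ hl, one_smul]
    obtain ⟨b₁, hb₁, hb₁a, hb₁n⟩ := h.exists_in H _ hnot
    have h0 : B (w - c) ((B c b₁)⁻¹ • b₁) = 0 := by
      rw [map_smul, hb₁a _ (Submodule.mem_span_singleton_self _), smul_zero]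
    have hT := h.ti H (W₁.sub_mem hw hc) (W₂.smul_mem (B c b₁)⁻¹ hb₁) h0
    have := tvX_map H hcX (hP (w - c) (W₁.sub_mem hw hc) _ (W₂.smul_mem _ hb₁) hT) (sr_isom H _)
    rw [sr_apply, h.iso₁ _ (W₁.sub_mem hw hc) c hc, zero_smul, sub_zero, map_smulₛₗ,
      LinearMap.smul_apply, smul_eq_mul, map_inv₀, H.symm, inv_mul_cancel₀
        (fun h' => hb₁n (H.eq_zero_comm.1 h')), one_smul] at this
    simpa using this

end LagPair

end Cfsg.Agent.Lib.Helper94.U
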