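import Mathlib
import Cfsg.Agent.Lib.Helper94.HermLag

set_option autoImplicit false
set_option linter.unusedSimpArgs false

namespace Cfsg.Agent.Lib.Helper94.U

open Module
open Cfsg.Agent.Lib.Helper94

variable {F V : Type*} [Field F] [AddCommGroup V] [Module F V]
variable {σ : F →+* F} {B : V →ₛₗ[σ] V →ₗ[F] F}

/-- make a vector isotropic by adding a multiple of an isotropic non-orthogonal vector -/
lemma exists_isotropic_add (H : HForm σ B) {z u : V} (hu : B u u = 0) (hne : B z u ≠ 0) :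
    ∃ c : F, B (z + c • u) (z + c • u) = 0 := by
  obtain ⟨e, he⟩ := H.exists_trace (-(B z z)) (by rw [map_neg, H.norm_fixed])
  refine ⟨e / B z u, ?_⟩
  rw [H.norm_add, H.norm_smul, hu, map_smul, smul_eq_mul, div_mul_cancel₀ _ hne, he]
  ring

section Par

variable (H : HForm σ B) (W : Submodule F V) (hW : ∀ u ∈ W, ∀ v ∈ W, B u v = 0)
  (G : Subgroup (V ≃ₗ[F] V))
  (hG : ∀ φ : V ≃ₗ[F] V, UIsom B φ → LinearMap.det (φ : V →ₗ[F] V) = 1 → (∀ w ∈ W, φ w ∈ W) → φ ∈ G)

include hG in
lemma par_perp_sub [FiniteDimensional F V] {x : V} (hx : B x x = 0) (hxW : x ∈ perp B W) :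
    x ∈ tvX H G := by
  refine ⟨hx, fun k hk => hG _ (ur_isom _ _ _ _) (by rw [ur_det, hx]; simp) (fun w hw => ?_)⟩
  rw [ur_apply, (mem_perp' H).1 hxW w hw]
  simpa using hw

include hW hG in
lemma par_shift1 [FiniteDimensional F V] {x y : V} (hx : x ∈ tvX H G) (hy : B y y = 0)
    (hz : y - x ∈ perp B W) (hxW : x ∉ perp B W) (hne : B (y - x) x ≠ 0) : y ∈ tvX H G := by
  have hmove := move_apply H (hx.1.trans hy.symm) hne
  have hzW : ∀ w ∈ W, B (y - x) w = 0 := (mem_perp' H).1 hz
  by_cases hzz : B (y - x) (y - x) = 0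
  · have := tvX_map H hx ((par_perp_sub H W G hG hzz hz).2 _ (move_cond H (hx.1.trans hy.symm) hne))
      (ur_isom _ _ _ _)
    rwa [hmove] at this
  · have hex : ∃ w ∈ W, B w x ≠ 0 := by
      by_contra hcon
      push Not at hcon
      exact hxW hcon
    obtain ⟨w, hw, hwx⟩ := hex
    have hwy : B w y ≠ 0 := by
      have : B w y = B w x + B w (y - x) := by rw [← map_add]; congr 1; abel
      rw [this, hz w hw, add_zero]; exact hwx
    have hyw : B y w ≠ 0 := fun h => hwy (H.eq_zero_comm.1 h)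
    set z := y - x with hzdef
    set u := z - (B y z / B y w) • w with hu
    have huW : ∀ v ∈ W, B u v = 0 := by
      intro v hv
      rw [hu, map_sub, LinearMap.sub_apply, hzW v hv, map_smulₛₗ, LinearMap.smul_apply, hW w hw v hv]
      simp
    have huy : B u y = 0 := by
      apply H.eq_zero_comm.1
      rw [hu, map_sub, map_smul, smul_eq_mul, div_mul_cancel₀ _ hyw, sub_self]
    have huu : B u u ≠ 0 := by
      have : B u u = B z z := by
        have e1 : B u u = B u z - (B y z / B y w) * B u w := by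
          conv_lhs => rw [hu]
          rw [map_sub, map_smul, smul_eq_mul]
        rw [e1, huW w hw, mul_zero, sub_zero, hu, map_sub B, LinearMap.sub_apply, map_smulₛₗ,
          LinearMap.smul_apply, hz w hw]
        simp
      rw [this]; exact hzz
    obtain ⟨r, hr, hrf, hdet⟩ := exists_det_fix H u huu _ (ur_isom H z _ (move_cond H (hx.1.trans hy.symm) hne))
    have hmem := hG _ (hr.mul (ur_isom H z _ (move_cond H (hx.1.trans hy.symm) hne))) hdet (by
      intro v hv
      rw [LinearEquiv.mul_apply, ur_apply, hzW v hv, mul_zero, zero_smul, add_zero, hrf v (huW v hv)]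
      exact hv)
    have := tvX_map H hx hmem (hr.mul (ur_isom _ _ _ _))
    rwa [LinearEquiv.mul_apply, hmove, hrf y huy] at this

include hW hG in
lemma par_shift [FiniteDimensional F V] {x y : V} (hx : x ∈ tvX H G) (hy : B y y = 0)
    (hz : y - x ∈ perp B W) (hxW : x ∉ perp B W) : y ∈ tvX H G := by
  by_cases hne : B (y - x) x ≠ 0
  · exact par_shift1 H W hW G hG hx hy hz hxW hne
  · push Not at hne
    have hex : ∃ w ∈ W, B w x ≠ 0 := by
      by_contra hcon
      push Not at hcon
      exact hxW hcon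
    obtain ⟨w, hw, hwx⟩ := hex
    have hxw : B x w ≠ 0 := fun h => hwx (H.eq_zero_comm.1 h)
    obtain ⟨ε, hε0, hε⟩ := H.exists_skew
    set c := ε / B x w with hc
    have hc0 : c ≠ 0 := div_ne_zero hε0 hxw
    have hsc0 : σ c ≠ 0 := H.sigma_ne_zero hc0
    have hWp : W ≤ perp B W := fun v hv u hu => hW u hu v hv
    have hx'0 : B (x + c • w) (x + c • w) = 0 := by
      rw [H.norm_add, H.norm_smul, hx.1, hW w hw w hw, map_smul, smul_eq_mul, hc,
        div_mul_cancel₀ _ hxw, hε]
      ring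
    have hx' : x + c • w ∈ tvX H G := by
      refine par_shift1 H W hW G hG hx hx'0 ?_ hxW ?_
      · rw [add_sub_cancel_left]; exact hWp (W.smul_mem _ hw)
      · rw [add_sub_cancel_left, map_smulₛₗ, LinearMap.smul_apply, smul_eq_mul]
        exact mul_ne_zero hsc0 hwx
    refine par_shift1 H W hW G hG hx' hy ?_ ?_ ?_
    · have : y - (x + c • w) = (y - x) - c • w := by abel
      rw [this]
      exact Submodule.sub_mem _ hz (hWp (W.smul_mem _ hw))
    · intro h
      have := h w hw
      rw [map_add, map_smul, hW w hw w hw, smul_zero, add_zero] at this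
      exact hwx this
    · have e : y - (x + c • w) = (y - x) - c • w := by abel
      have hzw : B (y - x) w = 0 := (mem_perp' H).1 hz w hw
      rw [e, map_sub, LinearMap.sub_apply, map_add, map_add, hne, map_smul, hzw, map_smulₛₗ,
        LinearMap.smul_apply, LinearMap.smul_apply, map_smul, hW w hw w hw]
      simp only [smul_eq_mul, mul_zero, add_zero, zero_sub, neg_ne_zero]
      exact mul_ne_zero hsc0 hwx

include hW hG in
lemma par_all [FiniteDimensional F V] {x y : V} (hx : x ∈ tvX H G) (hxW : x ∉ perp B W)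
    (hy : B y y = 0) (hyW : y ∉ perp B W) : y ∈ tvX H G := by
  have hWp : W ≤ perp B W := fun v hv u hu => hW u hu v hv
  have hex : ∀ x : V, x ∉ perp B W → ∃ w ∈ W, B x w ≠ 0 := by
    intro x hxW
    by_contra hcon
    push Not at hcon
    exact hxW ((mem_perp' H).2 hcon)
  obtain ⟨a, ha, hxa, hya⟩ := exists_both_ne_zero W (B x) (B y) (hex x hxW) (hex y hyW)
  have hax : B a x ≠ 0 := fun h => hxa (H.eq_zero_comm.1 h)
  have hay : B a y ≠ 0 := fun h => hya (H.eq_zero_comm.1 h)
  set x1 := (B a y / B a x) • x with hx1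
  have hx1X : x1 ∈ tvX H G := tvX_smul H hx _
  have hax1 : B a x1 = B a y := by rw [hx1, map_smul, smul_eq_mul, div_mul_cancel₀ _ hax]
  have hx1W : x1 ∉ perp B W := fun h => hay (by rw [← hax1]; exact h a ha)
  by_cases h : y - x1 ∈ perp B W
  · exact par_shift H W hW G hG hx1X hy h hx1W
  · have h' : x1 - y ∉ perp B W := by
      intro h2; apply h
      have := Submodule.neg_mem _ h2
      rwa [neg_sub] at this
    obtain ⟨w, hw, hbw⟩ := hex _ h'
    obtain ⟨c, hc⟩ := exists_isotropic_add H (hW w hw w hw) hbw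
    set b := x1 - y + c • w with hb
    have hab : B a b = 0 := by
      rw [hb, map_add, map_sub, hax1, sub_self, map_smul, hW a ha w hw]; simp
    have hTI : TI B a b := ⟨hW a ha a ha, hc, hab, H.eq_zero_comm.1 hab⟩
    have hTI' := hTI.smul_right (B a y)⁻¹
    have hmem := hG _ (sr_isom H hTI') (sr_det hTI') (by
      intro v hv
      rw [sr_apply, hW a ha v hv, zero_smul, sub_zero]
      exact W.add_mem hv (W.smul_mem _ ha))
    have hx2 := tvX_map H hx1X hmem (sr_isom H hTI')
    have e : y - sr B a ((B a y)⁻¹ • b) hTI' x1 = c • w - B ((B a y)⁻¹ • b) x1 • a := by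
      rw [sr_apply, hax1, smul_smul, mul_inv_cancel₀ hay, one_smul, hb]
      abel
    refine par_shift H W hW G hG hx2 hy ?_ ?_
    · rw [e]
      exact hWp (W.sub_mem (W.smul_mem _ hw) (W.smul_mem _ ha))
    · intro h2
      have h3 := h2 a ha
      have e2 : sr B a ((B a y)⁻¹ • b) hTI' x1 = y - (c • w - B ((B a y)⁻¹ • b) x1 • a) := by
        rw [← e]; abel
      rw [e2, map_sub, map_sub, map_smul, map_smul, hW a ha w hw, hW a ha a ha] at h3
      simp at h3
      exact hay h3

include hW hG in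
lemma par_exists [Finite F] [FiniteDimensional F V] (g0 : V ≃ₗ[F] V) (hg0 : g0 ∈ G) (hI : UIsom B g0)
    (hns : ¬ ∀ w ∈ W, g0 w ∈ W) : ∃ x ∈ tvX H G, x ∉ perp B W := by
  have hWp : W ≤ perp B W := fun v hv u hu => hW u hu v hv
  by_cases hA : ∃ w ∈ W, g0 w ∉ perp B W
  · obtain ⟨w, hw, hgw⟩ := hA
    exact ⟨g0 w, tvX_map H (par_perp_sub H W G hG (hW w hw w hw) (hWp hw)) hg0 hI, hgw⟩
  · push Not at hA
    have hex : ∃ w ∈ W, g0⁻¹ w ∉ W := by
      by_contra hcon
      push Not at hcon
      apply hns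
      intro w hw
      have := (mem_iff_of_forall_mem g0⁻¹ W hcon (g0 w)).2 (by rw [inv_apply_self']; exact hw)
      exact this
    obtain ⟨w, hw, hu⟩ := hex
    set u := g0⁻¹ w with hudef
    have huW : u ∈ perp B W := by
      intro w' hw'
      rw [hudef, hI.inv_right]
      exact (mem_perp' H).1 (hA w' hw') w hw
    have huu : B u u = 0 := by rw [hudef, hI.inv, hW w hw w hw]
    obtain ⟨z, hz, hne⟩ := exists_perp_ne H W hu
    have hzu : B z u ≠ 0 := fun h => hne (H.eq_zero_comm.1 h)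
    obtain ⟨c, hc⟩ := exists_isotropic_add H huu hzu
    have hyW : z + c • u ∈ perp B W := Submodule.add_mem _ hz (Submodule.smul_mem _ _ huW)
    refine ⟨g0 (z + c • u), tvX_map H (par_perp_sub H W G hG hc hyW) hg0 hI, ?_⟩
    intro h
    have h1 := (mem_perp' H).1 h w hw
    have h2 : w = g0 u := by rw [hudef, apply_inv_self']
    rw [h2, hI, map_add, LinearMap.add_apply, map_smulₛₗ, LinearMap.smul_apply, huu, smul_zero,
      add_zero] at h1
    exact hzu h1

include H hW hG in
theorem par_core [Finite F] [FiniteDimensional F V] (hdim : 6 < finrank F V)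
    (g0 : V ≃ₗ[F] V) (hg0 : g0 ∈ G) (hI : UIsom B g0) (hns : ¬ ∀ w ∈ W, g0 w ∈ W)
    (φ : V ≃ₗ[F] V) (hφ : UIsom B φ) (hdet : LinearMap.det (φ : V →ₗ[F] V) = 1) : φ ∈ G := by
  obtain ⟨x, hx, hxW⟩ := par_exists H W hW G hG g0 hg0 hI hns
  refine mem_of_sisom H hdim G (fun v k hk hv => ?_) φ hφ hdet
  by_cases hvW : v ∈ perp B W
  · exact (par_perp_sub H W G hG hv hvW).2 k hk
  · exact (par_all H W hW G hG hx hxW hv hvW).2 k hk

include H hW in
lemma par_exists_not_stab [FiniteDimensional F V] (hW0 : W ≠ ⊥) :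
    ∃ φ : V ≃ₗ[F] V, UIsom B φ ∧ LinearMap.det (φ : V →ₗ[F] V) = 1 ∧ ¬ ∀ w ∈ W, φ w ∈ W := by
  obtain ⟨w, hw, hw0⟩ := Submodule.exists_mem_ne_zero_of_ne_bot hW0
  obtain ⟨z, hz⟩ := H.exists_ne' hw0
  obtain ⟨c, hc⟩ := exists_isotropic_add H (hW w hw w hw) hz
  obtain ⟨ε, hε0, hε⟩ := H.exists_skew
  set y := z + c • w with hy
  have hyw : B y w ≠ 0 := by
    rw [hy, map_add, LinearMap.add_apply, map_smulₛₗ, LinearMap.smul_apply, hW w hw w hw, smul_zero,
      add_zero]
    exact hz
  have hk : ε + σ ε + ε * σ ε * B y y = 0 := by rw [hc, hε]; ring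
  refine ⟨ur H y ε hk, ur_isom _ _ _ _, by rw [ur_det, hc]; simp, fun h => ?_⟩
  have h1 := h w hw
  rw [ur_apply] at h1
  have h2 : (ε * B y w) • y ∈ W := by
    have := W.sub_mem h1 hw
    rwa [add_sub_cancel_left] at this
  have h3 : y ∈ W := by
    have := W.smul_mem (ε * B y w)⁻¹ h2
    rwa [smul_smul, inv_mul_cancel₀ (mul_ne_zero hε0 hyw), one_smul] at this
  exact hyw (hW y h3 w hw)

end Par

end Cfsg.Agent.Lib.Helper94.U
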