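import Mathlib
import Cfsg.Agent.Lib.Helper94.HermPar

set_option autoImplicit false
set_option linter.unusedSimpArgs false

namespace Cfsg.Agent.Lib.Helper94.U

open Module
open Cfsg.Agent.Lib.Helper94

variable {F V : Type*} [Field F] [AddCommGroup V] [Module F V]
variable {σ : F →+* F} {B : V →ₛₗ[σ] V →ₗ[F] F}

/-- non-degenerate subspaces -/
def ND (B : V →ₛₗ[σ] V →ₗ[F] F) (W : Submodule F V) : Prop := ∀ w ∈ W, (∀ z ∈ W, B z w = 0) → w = 0

lemma ne_zero_of_norm_ne {x : V} (h : B x x ≠ 0) : x ≠ 0 := by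
  rintro rfl; simp at h

namespace ND

variable {W : Submodule F V}

lemma inter (h : ND B W) {x : V} (h1 : x ∈ W) (h2 : x ∈ perp B W) : x = 0 := h x h1 h2

lemma exists_ne (h : ND B W) {w : V} (hw : w ∈ W) (h0 : w ≠ 0) : ∃ z ∈ W, B z w ≠ 0 := by
  by_contra hcon
  push Not at hcon
  exact h0 (h w hw hcon)

lemma perp [Finite F] [FiniteDimensional F V] (H : HForm σ B) (h : ND B W) : ND B (perp B W) := by
  intro u hu hz
  have h1 : u ∈ U.perp B (U.perp B W) := hz
  rw [perp_perp H] at h1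
  exact h.inter h1 hu

lemma split [Finite F] [FiniteDimensional F V] (H : HForm σ B) (h : ND B W) (x : V) :
    ∃ a ∈ W, ∃ b ∈ U.perp B W, x = a + b := by
  have hdisj : W ⊓ U.perp B W = ⊥ := by
    rw [eq_bot_iff]
    rintro y ⟨h1, h2⟩
    exact (Submodule.mem_bot F).2 (h.inter h1 h2)
  have hsup : W ⊔ U.perp B W = ⊤ := by
    apply Submodule.eq_top_of_finrank_eq
    have h1 := Submodule.finrank_sup_add_finrank_inf_eq W (U.perp B W)
    rw [hdisj, finrank_bot] at h1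
    have h2 := finrank_perp H W
    omega
  have hx : x ∈ W ⊔ U.perp B W := hsup ▸ Submodule.mem_top
  obtain ⟨a, ha, b, hb, rfl⟩ := Submodule.mem_sup.1 hx
  exact ⟨a, ha, b, hb, rfl⟩

lemma exists_nonisotropic [Finite F] [FiniteDimensional F V] (H : HForm σ B) (h : ND B W)
    (S0 : Submodule F V) (hd : finrank F W + 2 * finrank F S0 < finrank F V) :
    ∃ t ∈ U.perp B (W ⊔ S0), B t t ≠ 0 := by
  by_contra hcon
  push Not at hcon
  have hle : U.perp B (W ⊔ S0) ≤ W ⊔ S0 := by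
    intro x hx
    rw [← perp_perp H (W ⊔ S0)]
    intro y hy
    exact H.eq_zero_of_forall_isotropic _ hcon hy hx
  have hTW : U.perp B (W ⊔ S0) ⊓ W = ⊥ := by
    rw [eq_bot_iff]
    rintro x ⟨hx1, hx2⟩
    exact (Submodule.mem_bot F).2 (h.inter hx2 (perp_anti le_sup_left hx1))
  have h1 := Submodule.finrank_sup_add_finrank_inf_eq (U.perp B (W ⊔ S0)) W
  rw [hTW, finrank_bot, add_zero] at h1
  have h2 : finrank F ↥(U.perp B (W ⊔ S0) ⊔ W) ≤ finrank F ↥(W ⊔ S0) :=
    Submodule.finrank_mono (sup_le hle le_sup_left)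
  have h3 := Submodule.finrank_add_le_finrank_add_finrank W S0
  have h4 := finrank_perp H (W ⊔ S0)
  omega

lemma exists_norm [Finite F] [FiniteDimensional F V] (H : HForm σ B) (h : ND B W)
    (S0 : Submodule F V) (hd : finrank F W + 2 * finrank F S0 < finrank F V) (r : F) (hr : σ r = r) :
    ∃ t ∈ U.perp B (W ⊔ S0), B t t = r := by
  obtain ⟨u, hu, hne⟩ := h.exists_nonisotropic H S0 hd
  obtain ⟨c, hc⟩ := H.exists_norm (r / B u u) (by rw [map_div₀, hr, H.norm_fixed])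
  exact ⟨c • u, Submodule.smul_mem _ _ hu, by rw [H.norm_smul, hc, div_mul_cancel₀ _ hne]⟩

lemma exists_isotropic_two [Finite F] [FiniteDimensional F V] (H : HForm σ B) (h : ND B W)
    (hd : finrank F W + 6 < finrank F V) {a1 a2 : V} (h1 : a1 ∉ W) (h2 : a2 ∉ W) :
    ∃ y ∈ U.perp B W, B y y = 0 ∧ B a1 y ≠ 0 ∧ B a2 y ≠ 0 := by
  obtain ⟨z, hz, hz1, hz2⟩ := exists_both_ne_zero (U.perp B W) (B a1) (B a2)
    (exists_perp_ne H W h1) (exists_perp_ne H W h2)
  have hfr := finrank_span_three_le (F := F) a1 a2 z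
  obtain ⟨t, ht, htn⟩ := h.exists_norm H
    (Submodule.span F {a1} ⊔ Submodule.span F {a2} ⊔ Submodule.span F {z}) (by omega) (-(B z z))
    (by rw [map_neg, H.norm_fixed])
  rw [mem_perp_sup, mem_perp_sup, mem_perp_sup, mem_perp_span_singleton, mem_perp_span_singleton,
    mem_perp_span_singleton] at ht
  obtain ⟨htW, ⟨ht1, ht2⟩, htz⟩ := ht
  refine ⟨z + t, Submodule.add_mem _ hz htW, ?_, ?_, ?_⟩
  · rw [H.norm_add, htn, htz]; simp
  · rw [map_add, ht1, add_zero]; exact hz1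
  · rw [map_add, ht2, add_zero]; exact hz2

lemma exists_partner (H : HForm σ B) (h : ND B W) {a : V} (ha : a ∈ W) (h0 : a ≠ 0) (haa : B a a = 0)
    (β : F) : ∃ a' ∈ W, B a' a' = 0 ∧ B a' a = β := by
  obtain ⟨z, hz, hza⟩ := h.exists_ne ha h0
  obtain ⟨c, hc⟩ := exists_isotropic_add H haa hza
  refine ⟨σ (β / B z a) • (z + c • a), W.smul_mem _ (W.add_mem hz (W.smul_mem _ ha)), ?_, ?_⟩
  · rw [H.norm_smul, hc, mul_zero]
  · rw [map_smulₛₗ, LinearMap.smul_apply, H.invol, map_add, LinearMap.add_apply, map_smulₛₗ,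
      LinearMap.smul_apply, haa, smul_zero, add_zero, smul_eq_mul, div_mul_cancel₀ _ hza]

end ND

lemma move_in1 (H : HForm σ B) (S : Submodule F V) {a a' : V} (ha : a ∈ S) (ha' : a' ∈ S)
    (hn : B a a = B a' a') (hne : B (a' - a) a ≠ 0) :
    ∃ g : V ≃ₗ[F] V, UIsom B g ∧ g a = a' ∧ (∀ x ∈ perp B S, g x = x) ∧ (∀ x ∈ S, g x ∈ S) := by
  refine ⟨ur H (a' - a) _ (move_cond H hn hne), ur_isom _ _ _ _, move_apply H hn hne, ?_, ?_⟩
  · intro x hx
    rw [ur_apply, hx _ (S.sub_mem ha' ha), mul_zero, zero_smul, add_zero]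
  · intro x hx
    rw [ur_apply]
    exact S.add_mem hx (S.smul_mem _ (S.sub_mem ha' ha))

lemma move_in (H : HForm σ B) (S : Submodule F V) (hS : ND B S) {a a' : V} (ha : a ∈ S) (ha' : a' ∈ S)
    (h0 : a ≠ 0) (h0' : a' ≠ 0) (hn : B a a = B a' a') :
    ∃ g : V ≃ₗ[F] V, UIsom B g ∧ g a = a' ∧ (∀ x ∈ perp B S, g x = x) ∧ (∀ x ∈ S, g x ∈ S) := by
  by_cases hne : B (a' - a) a ≠ 0
  · exact move_in1 H S ha ha' hn hne
  push Not at hne
  have haa' : B a' a = B a a := by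
    rw [map_sub, LinearMap.sub_apply, sub_eq_zero] at hne; exact hne
  have key : ∃ b ∈ S, B b b = B a a ∧ B (b - a) a ≠ 0 ∧ B (a' - b) b ≠ 0 := by
    by_cases hν : B a a = 0
    · have e1 : ∃ z ∈ S, B a z ≠ 0 := by
        obtain ⟨z, hz, hza⟩ := hS.exists_ne ha h0
        exact ⟨z, hz, fun h => hza (H.eq_zero_comm.1 h)⟩
      have e2 : ∃ z ∈ S, B a' z ≠ 0 := by
        obtain ⟨z, hz, hza⟩ := hS.exists_ne ha' h0'
        exact ⟨z, hz, fun h => hza (H.eq_zero_comm.1 h)⟩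
      obtain ⟨z, hz, hz1, hz2⟩ := exists_both_ne_zero S (B a) (B a') e1 e2
      have hza : B z a ≠ 0 := fun h => hz1 (H.eq_zero_comm.1 h)
      obtain ⟨c, hc⟩ := exists_isotropic_add H hν hza
      refine ⟨z + c • a, S.add_mem hz (S.smul_mem _ ha), by rw [hc, hν], ?_, ?_⟩
      · rw [map_sub, LinearMap.sub_apply, hν, sub_zero, map_add, LinearMap.add_apply, map_smulₛₗ,
          LinearMap.smul_apply, hν, smul_zero, add_zero]
        exact hza
      · rw [map_sub, LinearMap.sub_apply, hc, sub_zero, map_add, map_smul, haa', hν, smul_zero, add_zero]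
        exact hz2
    · obtain ⟨l, hl1, hl⟩ := H.exists_norm_one
      have hl1' : l - 1 ≠ 0 := sub_ne_zero.2 hl1
      refine ⟨l • a, S.smul_mem _ ha, by rw [H.norm_smul, hl, one_mul], ?_, ?_⟩
      · have : B (l • a - a) a = σ (l - 1) * B a a := by
          rw [map_sub, LinearMap.sub_apply, map_smulₛₗ, LinearMap.smul_apply, smul_eq_mul, map_sub,
            map_one]
          ring
        rw [this]
        exact mul_ne_zero (H.sigma_ne_zero hl1') hν
      · have : B (a' - l • a) (l • a) = (l - 1) * B a a := by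
          rw [map_sub, LinearMap.sub_apply, H.norm_smul, hl, map_smul, haa', smul_eq_mul]
          ring
        rw [this]
        exact mul_ne_zero hl1' hν
  obtain ⟨b, hb, hbn, hb1, hb2⟩ := key
  obtain ⟨g1, h1I, h1a, h1f, h1s⟩ := move_in1 H S ha hb hbn.symm hb1
  obtain ⟨g2, h2I, h2a, h2f, h2s⟩ := move_in1 H S hb ha' (hbn.trans hn) hb2
  refine ⟨g2 * g1, h2I.mul h1I, by rw [LinearEquiv.mul_apply, h1a, h2a], ?_, ?_⟩
  · intro x hx
    rw [LinearEquiv.mul_apply, h1f x hx, h2f x hx]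
  · intro x hx
    rw [LinearEquiv.mul_apply]
    exact h2s _ (h1s x hx)

end Cfsg.Agent.Lib.Helper94.U
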