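import Mathlib
import Cfsg.Agent.Lib.Helper94.HermND

set_option autoImplicit false
set_option linter.unusedSimpArgs false

namespace Cfsg.Agent.Lib.Helper94.U

open Module
open Cfsg.Agent.Lib.Helper94

variable {F V : Type*} [Field F] [AddCommGroup V] [Module F V]
variable {σ : F →+* F} {B : V →ₛₗ[σ] V →ₗ[F] F}

lemma norm_add_perp (H : HForm σ B) {W : Submodule F V} {a b : V} (ha : a ∈ W) (hb : b ∈ perp B W) :
    B (a + b) (a + b) = B a a + B b b := by
  rw [H.norm_add, hb a ha]; simp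

section NDcore

variable [Finite F] [FiniteDimensional F V] (H : HForm σ B) (W : Submodule F V) (hW : ND B W)
  (hd : finrank F W + 6 < finrank F V)
  (G : Subgroup (V ≃ₗ[F] V))
  (hG : ∀ φ : V ≃ₗ[F] V, UIsom B φ → LinearMap.det (φ : V →ₗ[F] V) = 1 → (∀ w ∈ W, φ w ∈ W) → φ ∈ G)

omit [Finite F] in
include hG in
lemma nd_pure_W {x : V} (hx : B x x = 0) (hxW : x ∈ W) : x ∈ tvX H G := by
  refine ⟨hx, fun k hk => hG _ (ur_isom _ _ _ _) (by rw [ur_det, hx]; simp) (fun w hw => ?_)⟩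
  rw [ur_apply]
  exact W.add_mem hw (W.smul_mem _ hxW)

include hW hd hG in
lemma nd_orbit {w u w' u' : V} (hw : w ∈ W) (hu : u ∈ perp B W) (hw' : w' ∈ W) (hu' : u' ∈ perp B W)
    (hw0 : w ≠ 0) (hu0 : u ≠ 0) (hw0' : w' ≠ 0) (hu0' : u' ≠ 0) (hnw : B w w = B w' w')
    (hnu : B u u = B u' u') (hx : w + u ∈ tvX H G) : w' + u' ∈ tvX H G := by
  obtain ⟨g1, h1I, h1a, h1f, h1s⟩ := move_in H W hW hw hw' hw0 hw0' hnw
  obtain ⟨g2, h2I, h2a, h2f, h2s⟩ := move_in H (perp B W) (hW.perp H) hu hu' hu0 hu0' hnu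
  have hfr := finrank_span_singleton_le (F := F) u'
  obtain ⟨t, ht, htt⟩ := hW.exists_nonisotropic H (Submodule.span F {u'}) (by omega)
  rw [mem_perp_sup, mem_perp_span_singleton] at ht
  obtain ⟨r, hr, hrf, hdet⟩ := exists_det_fix H t htt (g1 * g2) (h1I.mul h2I)
  have htW : ∀ v ∈ W, B t v = 0 := (mem_perp' H).1 ht.1
  have hmem := hG (r * (g1 * g2)) (hr.mul (h1I.mul h2I)) hdet (fun v hv => by
    rw [LinearEquiv.mul_apply, LinearEquiv.mul_apply, h2f v (le_perp_perp H W hv),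
      hrf _ (htW _ (h1s v hv))]
    exact h1s v hv)
  have := tvX_map H hx hmem (hr.mul (h1I.mul h2I))
  rwa [LinearEquiv.mul_apply, LinearEquiv.mul_apply, map_add g2, h2f w (le_perp_perp H W hw), h2a,
    map_add g1, h1a, h1f u' hu', hrf _ (by
      rw [map_add, htW w' hw', H.eq_zero_comm.1 ht.2, add_zero])] at this

include hW hd hG in
lemma nd_ne {w u w' u' : V} (hw : w ∈ W) (hu : u ∈ perp B W) (hw' : w' ∈ W) (hu' : u' ∈ perp B W)
    (hν : B w w ≠ 0) (hν' : B w' w' ≠ 0) (hx : w + u ∈ tvX H G) (hy : B (w' + u') (w' + u') = 0) :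
    w' + u' ∈ tvX H G := by
  have h1 := hx.1
  rw [norm_add_perp H hw hu] at h1
  rw [norm_add_perp H hw' hu'] at hy
  have hu1 : B u u = - B w w := by linear_combination h1
  have hu2 : B u' u' = - B w' w' := by linear_combination hy
  obtain ⟨c, hc⟩ := H.exists_norm (B w' w' / B w w) (by rw [map_div₀, H.norm_fixed, H.norm_fixed])
  have hcx := tvX_smul H hx c
  rw [smul_add] at hcx
  have n1 : B (c • w) (c • w) = B w' w' := by rw [H.norm_smul, hc, div_mul_cancel₀ _ hν]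
  have n2 : B (c • u) (c • u) = B u' u' := by
    rw [H.norm_smul, hc, hu1, hu2]; field_simp
  refine nd_orbit H W hW hd G hG (W.smul_mem c hw) (Submodule.smul_mem _ c hu) hw' hu'
    (ne_zero_of_norm_ne (B := B) (by rw [n1]; exact hν')) (ne_zero_of_norm_ne (B := B) (by
      rw [n2, hu2]; exact neg_ne_zero.2 hν')) (ne_zero_of_norm_ne hν')
    (ne_zero_of_norm_ne (B := B) (by rw [hu2]; exact neg_ne_zero.2 hν')) n1 n2 hcx

include hW hd hG in
lemma nd_zero_to_ne {w u : V} (hw : w ∈ W) (hu : u ∈ perp B W) (hw0 : w ≠ 0) (hu0 : u ≠ 0)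
    (hww : B w w = 0) (huu : B u u = 0) (hx : w + u ∈ tvX H G) :
    ∃ w' ∈ W, ∃ u' ∈ perp B W, B w' w' ≠ 0 ∧ w' + u' ∈ tvX H G := by
  obtain ⟨m, hm⟩ := H.exists_trace 1 (map_one σ)
  obtain ⟨ε, hε0, hε⟩ := H.exists_skew
  have hm0 : m ≠ 0 := by
    rintro rfl; simp at hm
  have hβ : ε / m - 1 ≠ 0 := by
    intro h
    have : ε = m := by
      field_simp at h
      linear_combination h
    rw [this, hm] at hε
    exact one_ne_zero hε
  obtain ⟨w', hw', hww', hw'w⟩ := hW.exists_partner H hw hw0 hww 1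
  obtain ⟨u', hu', huu', hu'u⟩ := (hW.perp H).exists_partner H hu hu0 huu (ε / m - 1)
  have hw0' : w' ≠ 0 := by
    rintro rfl; simp at hw'w
  have hu0' : u' ≠ 0 := by
    rintro rfl
    simp at hu'u
    exact hβ hu'u.symm
  have hy := nd_orbit H W hW hd G hG hw hu hw' hu' hw0 hu0 hw0' hu0' (hww.trans hww'.symm)
    (huu.trans huu'.symm) hx
  have c1 : B w' u = 0 := hu w' hw'
  have c2 : B u' w = 0 := (mem_perp' H).1 hu' w hw
  have hyx : B (w' + u') (w + u) = ε / m := by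
    simp only [map_add, LinearMap.add_apply, hw'w, hu'u, c1, c2]; ring
  have hxy : B (w + u) (w' + u') ≠ 0 := by
    rw [← H.symm, hyx]
    exact H.sigma_ne_zero (div_ne_zero hε0 hm0)
  have hnorm : B (w' + u' + m • (w + u)) (w' + u' + m • (w + u)) = 0 := by
    rw [H.norm_add, hy.1, H.norm_smul, hx.1, map_smul, hyx, smul_eq_mul, mul_div_cancel₀ _ hm0, hε]
    ring
  have := tvX_line H hx hy hxy m hnorm
  refine ⟨w' + m • w, W.add_mem hw' (W.smul_mem _ hw), u' + m • u,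
    Submodule.add_mem _ hu' (Submodule.smul_mem _ _ hu), ?_, ?_⟩
  · rw [H.norm_add, hww', H.norm_smul, hww, map_smul, hw'w, smul_eq_mul, mul_one, hm]
    simp
  · have e : w' + m • w + (u' + m • u) = w' + u' + m • (w + u) := by
      rw [smul_add]; abel
    rw [e]; exact this

include hW hd hG in
lemma nd_zero {w u : V} (hw : w ∈ W) (hu : u ∈ perp B W) (hw0 : w ≠ 0)
    (hww : B w w = 0) (huu : B u u = 0)
    (hall : ∀ w' ∈ W, ∀ u' ∈ perp B W, B w' w' ≠ 0 → B (w' + u') (w' + u') = 0 → w' + u' ∈ tvX H G) :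
    w + u ∈ tvX H G := by
  obtain ⟨e, he⟩ := H.exists_trace 1 (map_one σ)
  obtain ⟨ε, hε0, hε⟩ := H.exists_skew
  have hsε : σ ε ≠ 0 := H.sigma_ne_zero hε0
  obtain ⟨ws, hws, hwss, hwsw⟩ := hW.exists_partner H hw hw0 hww 1
  set w1 := ε • ws + (e / σ ε) • w with hw1
  have hw1W : w1 ∈ W := W.add_mem (W.smul_mem _ hws) (W.smul_mem _ hw)
  have hw1w : B w1 w = σ ε := by
    rw [hw1, map_add, LinearMap.add_apply, map_smulₛₗ, map_smulₛₗ, LinearMap.smul_apply,
      LinearMap.smul_apply, hwsw, hww]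
    simp
  have hww1 : B w w1 = ε := by rw [← H.symm, hw1w, H.invol]
  have hw1n : B w1 w1 = 1 := by
    have e3 : B (ε • ws) ((e / σ ε) • w) = e := by
      rw [map_smul, map_smulₛₗ, LinearMap.smul_apply, hwsw]
      simp only [smul_eq_mul, mul_one]
      rw [div_mul_cancel₀ _ hsε]
    rw [hw1, H.norm_add, H.norm_smul, H.norm_smul, hwss, hww, e3, he]
    ring
  have hfr := finrank_span_singleton_le (F := F) u
  obtain ⟨u1, hu1, hu1n⟩ := hW.exists_norm H (Submodule.span F {u}) (by omega) (-1)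
    (by rw [map_neg, map_one])
  rw [mem_perp_sup, mem_perp_span_singleton] at hu1
  obtain ⟨hu1W, huu1⟩ := hu1
  have hv1 : w1 + u1 ∈ tvX H G := hall w1 hw1W u1 hu1W (by rw [hw1n]; exact one_ne_zero) (by
    rw [norm_add_perp H hw1W hu1W, hw1n, hu1n]; ring)
  have n1 : B (w + w1) (w + w1) = 1 := by
    rw [H.norm_add, hww, hw1n, hww1, hε]; ring
  have n2 : B (u + u1) (u + u1) = -1 := by
    rw [H.norm_add, huu, hu1n, huu1]; simp
  have hv2 : (w + w1) + (u + u1) ∈ tvX H G := hall _ (W.add_mem hw hw1W) _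
    (Submodule.add_mem _ hu hu1W) (by rw [n1]; exact one_ne_zero) (by
      rw [norm_add_perp H (W.add_mem hw hw1W) (Submodule.add_mem _ hu hu1W), n1, n2]; ring)
  have e1 : (w + w1) + (u + u1) + (-1 : F) • (w1 + u1) = w + u := by
    rw [neg_one_smul]; abel
  have e2 : (w + w1) + (u + u1) = (w1 + u1) + (w + u) := by abel
  have hne : B (w1 + u1) ((w + w1) + (u + u1)) ≠ 0 := by
    rw [e2, map_add, hv1.1, zero_add]
    have c1 : B w1 u = 0 := hu w1 hw1W
    have c2 : B u1 w = 0 := (mem_perp' H).1 hu1W w hw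
    have c3 : B u1 u = 0 := H.eq_zero_comm.1 huu1
    simp only [map_add, LinearMap.add_apply, c1, c2, c3, hw1w, add_zero]
    exact hsε
  have := tvX_line H hv1 hv2 hne (-1) (by rw [e1, norm_add_perp H hw hu, hww, huu, add_zero])
  rwa [e1] at this

include hW hd hG in
lemma nd_exists_mixed (hd2 : 2 * finrank F W < finrank F V) (g0 : V ≃ₗ[F] V) (hg0 : g0 ∈ G)
    (hI : UIsom B g0) (hns : ¬ ∀ w ∈ W, g0 w ∈ W) :
    ∃ w ∈ W, ∃ u ∈ perp B W, w ≠ 0 ∧ u ≠ 0 ∧ w + u ∈ tvX H G := by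
  have hex : ∃ w ∈ W, g0⁻¹ w ∉ W := by
    by_contra hcon
    push Not at hcon
    apply hns
    intro w hw
    exact (mem_iff_of_forall_mem g0⁻¹ W hcon (g0 w)).2 (by rw [inv_apply_self']; exact hw)
  obtain ⟨w1, hw1, ha1⟩ := hex
  have hex2 : ∃ u ∈ perp B W, g0⁻¹ u ∉ W := by
    by_contra hcon
    push Not at hcon
    have hle : (perp B W).map ((g0⁻¹ : V ≃ₗ[F] V) : V →ₗ[F] V) ≤ W := by
      rintro _ ⟨u, hu, rfl⟩
      exact hcon u hu
    have h1 := Submodule.finrank_mono hle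
    rw [LinearEquiv.finrank_map_eq] at h1
    have h2 := finrank_perp H W
    omega
  obtain ⟨u2, hu2, ha2⟩ := hex2
  obtain ⟨y, hy, hyy, hy1, hy2⟩ := hW.exists_isotropic_two H hd ha1 ha2
  have hX := tvX_map H (par_perp_sub H W G hG hyy hy) hg0 hI
  obtain ⟨w, hw, u, hu, hwu⟩ := hW.split H (g0 y)
  rw [hI.inv_left] at hy1 hy2
  refine ⟨w, hw, u, hu, ?_, ?_, hwu ▸ hX⟩
  · rintro rfl
    rw [zero_add] at hwu
    rw [hwu] at hy1
    exact hy1 (hu w1 hw1)
  · rintro rfl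
    rw [add_zero] at hwu
    rw [hwu] at hy2
    exact hy2 ((mem_perp' H).1 hu2 w hw)

include H hW hd hG in
theorem nd_core (hd2 : 2 * finrank F W < finrank F V) (g0 : V ≃ₗ[F] V) (hg0 : g0 ∈ G)
    (hI : UIsom B g0) (hns : ¬ ∀ w ∈ W, g0 w ∈ W)
    (φ : V ≃ₗ[F] V) (hφ : UIsom B φ) (hdet : LinearMap.det (φ : V →ₗ[F] V) = 1) : φ ∈ G := by
  obtain ⟨w0, hw0, u0, hu0, hw00, hu00, hx0⟩ := nd_exists_mixed H W hW hd G hG hd2 g0 hg0 hI hns
  have hex : ∃ w' ∈ W, ∃ u' ∈ perp B W, B w' w' ≠ 0 ∧ w' + u' ∈ tvX H G := by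
    by_cases h : B w0 w0 = 0
    · have h1 := hx0.1
      rw [norm_add_perp H hw0 hu0, h, zero_add] at h1
      exact nd_zero_to_ne H W hW hd G hG hw0 hu0 hw00 hu00 h h1 hx0
    · exact ⟨w0, hw0, u0, hu0, h, hx0⟩
  obtain ⟨w1, hw1, u1, hu1, hν, hx1⟩ := hex
  have hall : ∀ w' ∈ W, ∀ u' ∈ perp B W, B w' w' ≠ 0 → B (w' + u') (w' + u') = 0 →
      w' + u' ∈ tvX H G := fun w' hw' u' hu' hν' hy => nd_ne H W hW hd G hG hw1 hu1 hw' hu' hν hν' hx1 hy
  refine mem_of_sisom H (by omega) G (fun v k hk hv => ?_) φ hφ hdet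
  obtain ⟨w, hw, u, hu, rfl⟩ := hW.split H v
  by_cases hw0 : w = 0
  · subst hw0
    rw [zero_add] at hv
    have := par_perp_sub H W G hG hv hu
    exact (by simpa using this : (0 : V) + u ∈ tvX H G).2 k hk
  by_cases hww : B w w = 0
  · have h1 := hv
    rw [norm_add_perp H hw hu, hww, zero_add] at h1
    exact (nd_zero H W hW hd G hG hw hu hw0 hww h1 hall).2 k hk
  · exact (hall w hw u hu hww hv).2 k hk

include H hW hd in
lemma nd_exists_not_stab (hW0 : W ≠ ⊥) :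
    ∃ φ : V ≃ₗ[F] V, UIsom B φ ∧ LinearMap.det (φ : V →ₗ[F] V) = 1 ∧ ¬ ∀ w ∈ W, φ w ∈ W := by
  have hex : ∃ w ∈ W, B w w ≠ 0 := by
    by_contra hcon
    push Not at hcon
    obtain ⟨w, hw, hw0⟩ := Submodule.exists_mem_ne_zero_of_ne_bot hW0
    exact hw0 (hW w hw (fun z hz => H.eq_zero_of_forall_isotropic W hcon hz hw))
  obtain ⟨w, hw, hww⟩ := hex
  obtain ⟨u, hu, hun⟩ := hW.exists_norm H ⊥ (by rw [finrank_bot]; omega) (-(B w w))
    (by rw [map_neg, H.norm_fixed])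
  rw [mem_perp_sup] at hu
  have huW := hu.1
  obtain ⟨ε, hε0, hε⟩ := H.exists_skew
  have hxx : B (w + u) (w + u) = 0 := by rw [norm_add_perp H hw huW, hun]; ring
  have hk : ε + σ ε + ε * σ ε * B (w + u) (w + u) = 0 := by rw [hxx, hε]; ring
  have hxw : B (w + u) w ≠ 0 := by
    rw [map_add, LinearMap.add_apply, (mem_perp' H).1 huW w hw, add_zero]; exact hww
  refine ⟨ur H (w + u) ε hk, ur_isom _ _ _ _, by rw [ur_det, hxx]; simp, fun h => ?_⟩
  have h1 := h w hw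
  rw [ur_apply] at h1
  have h2 : (ε * B (w + u) w) • (w + u) ∈ W := by
    have := W.sub_mem h1 hw
    rwa [add_sub_cancel_left] at this
  have h3 : w + u ∈ W := by
    have := W.smul_mem (ε * B (w + u) w)⁻¹ h2
    rwa [smul_smul, inv_mul_cancel₀ (mul_ne_zero hε0 hxw), one_smul] at this
  have h4 : u ∈ W := by
    have := W.sub_mem h3 hw
    rwa [add_sub_cancel_left] at this
  have h5 := hW.inter h4 huW
  rw [h5] at hun
  simp at hun
  exact hww hun

end NDcore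

end Cfsg.Agent.Lib.Helper94.U
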