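import Mathlib
import Cfsg.Prelude.Def_GeometricClasses
import Cfsg.Prelude.Def_LieClassical
import Cfsg.Agent.Lib.Helper13.Herm
import Cfsg.Agent.Lib.Helper94.Transfer
import Cfsg.Agent.Lib.Helper94.FormB
import Cfsg.Agent.Lib.Helper94.SympWrap
import Cfsg.Agent.Lib.Helper94.HermSU

set_option autoImplicit false

namespace Cfsg.Agent.Lib.Helper94.U

open Module Matrix
open Cfsg.Agent.Lib.Helper94
open Cfsg.Agent.Lib.Helper13 (frobQ frobQ_apply frobQ_ne_id pow_q_pow_q hermForm_add_left hermForm_smul_left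
  hermForm_smul_right hermForm_add_right hermForm_swap hermForm_single_left)

variable {F : Type*} [Field F] [Fintype F] {n q : ℕ}

/-- the standard Hermitian form as a sesquilinear map (arguments swapped) -/
def stdB (n : ℕ) (hF : Fintype.card F = q ^ 2) :
    (Fin n → F) →ₛₗ[frobQ hF] (Fin n → F) →ₗ[F] F :=
  LinearMap.mk₂'ₛₗ (frobQ hF) (RingHom.id F) (fun x y => Cfsg.hermForm n F q y x)
    (fun m₁ m₂ y => hermForm_add_right hF y m₁ m₂)
    (fun c m y => hermForm_smul_right c y m)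
    (fun m y₁ y₂ => hermForm_add_left y₁ y₂ m)
    (fun c m y => hermForm_smul_left c y m)

@[simp] lemma stdB_apply (hF : Fintype.card F = q ^ 2) (u v : Fin n → F) :
    stdB n hF u v = Cfsg.hermForm n F q v u := rfl

lemma stdB_hform (hF : Fintype.card F = q ^ 2) : HForm (frobQ hF) (stdB n hF) where
  ne_id := frobQ_ne_id hF
  invol := fun a => pow_q_pow_q hF a
  symm := fun x y => hermForm_swap hF y x
  nondeg := by
    intro x hx
    funext i
    have := hx (Pi.single i 1)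
    rw [stdB_apply, hermForm_single_left] at this
    exact pow_eq_zero_iff (by
      have := Cfsg.Agent.Lib.Helper13.two_le_of_card_sq hF; omega) |>.1 this

lemma mem_GU_iff (hF : Fintype.card F = q ^ 2) (g : Matrix.GeneralLinearGroup (Fin n) F) :
    g ∈ Cfsg.GU n F q ↔ UIsom (stdB n hF) (glEquiv _ F g) := by
  unfold UIsom Cfsg.GU Cfsg.preserving
  simp only [stdB_apply, glEquiv_apply]
  constructor
  · intro h x y; exact h y x
  · intro h x y; exact h y x

lemma finrank_std : finrank F (Fin n → F) = n := by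
  rw [Module.finrank_fintype_fun_eq_card, Fintype.card_fin]

theorem su_maximal_of_core (hF : Fintype.card F = q ^ 2)
    (S : Subgroup (Matrix.GeneralLinearGroup (Fin n) F))
    (stab : ((Fin n → F) ≃ₗ[F] (Fin n → F)) → Prop)
    (hS : ∀ g, g ∈ S ↔ stab (glEquiv _ F g))
    (hne : ∃ φ : (Fin n → F) ≃ₗ[F] (Fin n → F), UIsom (stdB n hF) φ ∧
      LinearMap.det (φ : (Fin n → F) →ₗ[F] (Fin n → F)) = 1 ∧ ¬ stab φ)
    (hcore : ∀ G : Subgroup ((Fin n → F) ≃ₗ[F] (Fin n → F)),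
      (∀ φ : (Fin n → F) ≃ₗ[F] (Fin n → F), UIsom (stdB n hF) φ →
        LinearMap.det (φ : (Fin n → F) →ₗ[F] (Fin n → F)) = 1 → stab φ → φ ∈ G) →
      ∀ φ0 ∈ G, UIsom (stdB n hF) φ0 → LinearMap.det (φ0 : (Fin n → F) →ₗ[F] (Fin n → F)) = 1 →
      ¬ stab φ0 →
      ∀ φ : (Fin n → F) ≃ₗ[F] (Fin n → F), UIsom (stdB n hF) φ →
        LinearMap.det (φ : (Fin n → F) →ₗ[F] (Fin n → F)) = 1 → φ ∈ G) :
    Cfsg.Geo.IsMaximalIn (Cfsg.GU n F q ⊓ Cfsg.Geo.specialLinear (Fin n) F)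
      (S ⊓ (Cfsg.GU n F q ⊓ Cfsg.Geo.specialLinear (Fin n) F)) := by
  have hK : ∀ g, g ∈ Cfsg.GU n F q ⊓ Cfsg.Geo.specialLinear (Fin n) F ↔
      UIsom (stdB n hF) (glEquiv _ F g) ∧
        LinearMap.det ((glEquiv _ F g : (Fin n → F) ≃ₗ[F] (Fin n → F)) : (Fin n → F) →ₗ[F] (Fin n → F)) = 1 := by
    intro g
    rw [Subgroup.mem_inf, mem_GU_iff hF, mem_specialLinear_iff, glEquiv_det]
  refine isMaximalIn_of_core _ _ inf_le_right ?_ ?_
  · obtain ⟨φ, hφI, hφd, hφS⟩ := hne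
    refine ⟨(glEquiv _ F).symm φ, ?_, ?_⟩
    · rw [hK, MulEquiv.apply_symm_apply]; exact ⟨hφI, hφd⟩
    · intro h
      have := (hS _).1 h.1
      rw [MulEquiv.apply_symm_apply] at this
      exact hφS this
  · intro M hHM hMK g0 hg0 hg0H k hk
    have key := hcore (M.map (glEquiv _ F).toMonoidHom) ?_ (glEquiv _ F g0) ⟨g0, hg0, rfl⟩
      ((hK g0).1 (hMK hg0)).1 ((hK g0).1 (hMK hg0)).2 ?_ (glEquiv _ F k) ((hK k).1 hk).1 ((hK k).1 hk).2
    · obtain ⟨k', hk', hkk⟩ := key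
      have : k' = k := (glEquiv _ F).injective hkk
      exact this ▸ hk'
    · intro φ hφI hφd hφS
      refine ⟨(glEquiv _ F).symm φ, hHM (Subgroup.mem_inf.2 ⟨?_, ?_⟩), ?_⟩
      · rw [hS, MulEquiv.apply_symm_apply]; exact hφS
      · rw [hK, MulEquiv.apply_symm_apply]; exact ⟨hφI, hφd⟩
      · exact MulEquiv.apply_symm_apply _ _
    · intro h
      exact hg0H ⟨(hS _).2 h, hMK hg0⟩

end Cfsg.Agent.Lib.Helper94.U
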