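import Mathlib
import Cfsg.Agent.Lib.Helper94.HermND2
import Cfsg.Agent.Lib.Helper94.HermStd
import Cfsg.Agent.Lib.Helper94.SympDecomp

set_option autoImplicit false
set_option linter.unusedSimpArgs false

namespace Cfsg.Agent.Lib.Helper94.U

open Module
open Cfsg.Agent.Lib.Helper94

variable {F V : Type*} [Field F] [AddCommGroup V] [Module F V]
variable {σ : F →+* F} {B : V →ₛₗ[σ] V →ₗ[F] F}

/-- the setwise stabiliser of a set of vectors -/
def setStab (S : Set V) : Subgroup (V ≃ₗ[F] V) where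
  carrier := {g | ∀ v, v ∈ S ↔ g v ∈ S}
  mul_mem' := by
    intro a b ha hb v
    rw [LinearEquiv.mul_apply]
    exact (hb v).trans (ha _)
  one_mem' := by intro v; rfl
  inv_mem' := by
    intro a ha v
    have := ha (a⁻¹ v)
    rw [apply_inv_self'] at this
    exact this.symm

/-- the arithmetic of the field with four elements -/
structure F4Like (σ : F →+* F) : Prop where
  two : ∀ x : F, x + x = 0
  norm : ∀ x : F, x ≠ 0 → x * σ x = 1
  fix : ∀ x : F, σ x = x → x = 0 ∨ x = 1

lemma plane_basis [FiniteDimensional F V] (H : HForm σ B) (h4 : F4Like σ) (W : Submodule F V)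
    (hW : ND B W) (hfr : finrank F W = 2) :
    ∃ a ∈ W, ∃ b ∈ W, B a a = 1 ∧ B b b = 1 ∧ B a b = 0 ∧ ∀ v ∈ W, v = B a v • a + B b v • b := by
  have hW0 : W ≠ ⊥ := by
    rintro rfl
    simp at hfr
  have hex : ∃ w ∈ W, B w w ≠ 0 := by
    by_contra hcon
    push Not at hcon
    obtain ⟨w, hw, hw0⟩ := Submodule.exists_mem_ne_zero_of_ne_bot hW0
    exact hw0 (hW w hw (fun z hz => H.eq_zero_of_forall_isotropic W hcon hz hw))
  obtain ⟨a, ha, haa⟩ := hex
  have haa1 : B a a = 1 := (h4.fix _ (H.norm_fixed a)).resolve_left haa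
  -- a vector outside the span of `a`
  have hex2 : ∃ v ∈ W, v ∉ Submodule.span F {a} := by
    by_contra hcon
    push Not at hcon
    have hle : W ≤ Submodule.span F {a} := hcon
    have h1 := Submodule.finrank_mono hle
    have h2 := finrank_span_singleton_le (F := F) a
    omega
  obtain ⟨v, hv, hva⟩ := hex2
  set b := v - B a v • a with hb
  have hbW : b ∈ W := W.sub_mem hv (W.smul_mem _ ha)
  have hab : B a b = 0 := by
    rw [hb, map_sub, map_smul, haa1]; simp
  have hb0 : b ≠ 0 := by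
    intro h
    apply hva
    rw [hb, sub_eq_zero] at h
    rw [h]
    exact Submodule.smul_mem _ _ (Submodule.mem_span_singleton_self a)
  have hba : B b a = 0 := H.eq_zero_comm.1 hab
  -- orthogonal to `a`, `b` inside `W` forces zero, once we know three independent vectors cannot exist
  have key : ∀ w ∈ W, B a w = 0 → B b w = 0 → B b b ≠ 0 → w = 0 := by
    intro w hw h1 h2 hbb
    by_contra hw0
    have hli : LinearIndependent F ![(⟨a, ha⟩ : W), ⟨b, hbW⟩, ⟨w, hw⟩] := by
      rw [Fintype.linearIndependent_iff]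
      intro g hg
      have hsum : g 0 • a + g 1 • b + g 2 • w = 0 := by
        have := congrArg (Subtype.val) hg
        simpa [Fin.sum_univ_three] using this
      have e0 : g 0 = 0 := by
        have := congrArg (B a) hsum
        simpa [map_add, map_smul, haa1, hab, h1] using this
      have e1 : g 1 = 0 := by
        have := congrArg (B b) hsum
        simpa [map_add, map_smul, hba, h2, hbb] using this
      have e2 : g 2 = 0 := by
        rw [e0, e1] at hsum
        simpa [hw0] using hsum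
      intro i
      fin_cases i
      · exact e0
      · exact e1
      · exact e2
    have := hli.fintype_card_le_finrank
    rw [hfr] at this
    simp at this
  have hbb : B b b ≠ 0 := by
    intro hbb
    -- then `b` is orthogonal to all of `W`
    apply hb0
    apply hW b hbW
    intro z hz
    -- z = x a + y b modulo a vector orthogonal... use dimension: a, b span W
    have hli : LinearIndependent F ![(⟨a, ha⟩ : W), ⟨b, hbW⟩] := by
      rw [Fintype.linearIndependent_iff]
      intro g hg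
      have hsum : g 0 • a + g 1 • b = 0 := by
        have := congrArg (Subtype.val) hg
        simpa [Fin.sum_univ_two] using this
      have e0 : g 0 = 0 := by
        have := congrArg (B a) hsum
        simpa [map_add, map_smul, haa1, hab] using this
      have e1 : g 1 = 0 := by
        rw [e0] at hsum
        simpa [hb0] using hsum
      intro i
      fin_cases i
      · exact e0
      · exact e1
    have hspan : ⊤ ≤ Submodule.span F (Set.range ![(⟨a, ha⟩ : W), ⟨b, hbW⟩]) := by
      rw [hli.span_eq_top_of_card_eq_finrank' (by rw [hfr]; simp)]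
    have hz' : (⟨z, hz⟩ : W) ∈ Submodule.span F (Set.range ![(⟨a, ha⟩ : W), ⟨b, hbW⟩]) :=
      hspan Submodule.mem_top
    rw [Submodule.mem_span_range_iff_exists_fun] at hz'
    obtain ⟨c, hc⟩ := hz'
    have hzc : z = c 0 • a + c 1 • b := by
      have := congrArg (Subtype.val) hc
      simpa [Fin.sum_univ_two] using this.symm
    rw [hzc, map_add, LinearMap.add_apply, map_smulₛₗ, map_smulₛₗ, LinearMap.smul_apply,
      LinearMap.smul_apply, hab, hbb]
    simp
  have hbb1 : B b b = 1 := (h4.fix _ (H.norm_fixed b)).resolve_left hbb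
  refine ⟨a, ha, b, hbW, haa1, hbb1, hab, fun w hw => ?_⟩
  have := key (w - (B a w • a + B b w • b)) (W.sub_mem hw (W.add_mem (W.smul_mem _ ha) (W.smul_mem _ hbW)))
    (by rw [map_sub, map_add, map_smul, map_smul, haa1, hab]; simp)
    (by rw [map_sub, map_add, map_smul, map_smul, hba, hbb1]; simp) hbb
  exact sub_eq_zero.1 this

lemma plane_noniso (H : HForm σ B) (h4 : F4Like σ) {a b v : V} (haa : B a a = 1) (hbb : B b b = 1)
    (hab : B a b = 0) (hv : v = B a v • a + B b v • b) (hvv : B v v ≠ 0) : B a v = 0 ∨ B b v = 0 := by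
  by_contra hcon
  push Not at hcon
  apply hvv
  have hba : B b a = 0 := H.eq_zero_comm.1 hab
  set x := B a v
  set y := B b v
  have : B v v = x * σ x + y * σ y := by
    conv_lhs => rw [hv]
    simp only [map_add, map_smulₛₗ, LinearMap.add_apply, LinearMap.smul_apply, map_smul, smul_eq_mul,
      haa, hbb, hab, hba, RingHom.id_apply]
    ring
  rw [this, h4.norm x hcon.1, h4.norm y hcon.2, h4.two]

section main

variable {t : ℕ} (D : Fin t → Submodule F V)

/-- the non-isotropic vectors of the members of `D` -/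
def frameSet (B : V →ₛₗ[σ] V →ₗ[F] F) (D : Fin t → Submodule F V) : Set V :=
  {v | (∃ i, v ∈ D i) ∧ B v v ≠ 0}

lemma decStab_mem_setStab {φ : V ≃ₗ[F] V} (hφ : UIsom B φ) (hs : DecStab D φ) :
    φ ∈ setStab (F := F) (frameSet B D) := by
  obtain ⟨s, hs⟩ := hs
  intro v
  constructor
  · rintro ⟨⟨i, hi⟩, hv⟩
    refine ⟨⟨s i, ?_⟩, by rw [hφ]; exact hv⟩
    rw [← hs i]
    exact Submodule.mem_map_of_mem hi
  · rintro ⟨⟨j, hj⟩, hv⟩
    refine ⟨⟨s.symm j, ?_⟩, by rw [hφ] at hv; exact hv⟩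
    have : φ v ∈ (D (s.symm j)).map (φ : V →ₗ[F] V) := by
      rw [hs, Equiv.apply_symm_apply]; exact hj
    obtain ⟨w, hw, hwv⟩ := this
    have : w = v := φ.injective hwv
    exact this ▸ hw

variable (H : HForm σ B) (h4 : F4Like σ) (horth : ∀ i j, i ≠ j → ∀ u ∈ D i, ∀ v ∈ D j, B u v = 0)
  (hnd : ∀ i, ND B (D i)) (hfr : ∀ i, finrank F (D i) = 2)

lemma one_cond (h4 : F4Like σ) {c : V} (hc : B c c = 0) : (1 : F) + σ 1 + 1 * σ 1 * B c c = 0 := by
  rw [hc, map_one, h4.two]; simp

include H h4 horth hnd hfr in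
lemma exists_swap_frame [FiniteDimensional F V] (i1 i2 : Fin t) (h12 : i1 ≠ i2) :
    ∃ φ : V ≃ₗ[F] V, UIsom B φ ∧ LinearMap.det (φ : V →ₗ[F] V) = 1 ∧
      φ ∈ setStab (F := F) (frameSet B D) ∧ ¬ DecStab D φ := by
  obtain ⟨a1, ha1, b1, hb1, haa1, hbb1, hab1, hsp1⟩ := plane_basis H h4 (D i1) (hnd i1) (hfr i1)
  obtain ⟨a2, ha2, b2, hb2, haa2, hbb2, hab2, hsp2⟩ := plane_basis H h4 (D i2) (hnd i2) (hfr i2)
  have o12 : B a1 a2 = 0 := horth i1 i2 h12 a1 ha1 a2 ha2
  have o21 : B a2 a1 = 0 := H.eq_zero_comm.1 o12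
  have hcc : B (a1 + a2) (a1 + a2) = 0 := by
    rw [H.norm_add, haa1, haa2, o12, h4.two]; simp
  set φ := ur H (a1 + a2) 1 (one_cond h4 hcc) with hφ
  have happ : ∀ x, φ x = x + (B a1 x + B a2 x) • (a1 + a2) := by
    intro x
    rw [hφ, ur_apply, one_mul, map_add, LinearMap.add_apply]
  have hI : UIsom B φ := ur_isom _ _ _ _
  have two_smul' : ∀ x : V, x + x = 0 := by
    intro x
    rw [← two_smul F x]
    have : (2 : F) = 0 := by rw [← one_add_one_eq_two]; exact h4.two 1
    rw [this, zero_smul]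
  have hinv : ∀ x, φ (φ x) = x := by
    intro x
    rw [happ (φ x), happ x]
    simp only [map_add, map_smul, smul_eq_mul, haa1, haa2, o12, o21, add_zero, zero_add, mul_one]
    have e : B a1 x + (B a1 x + B a2 x) + (B a2 x + (B a1 x + B a2 x)) = B a1 x + B a2 x := by
      linear_combination h4.two (B a1 x) + h4.two (B a2 x)
    rw [e, add_assoc, two_smul', add_zero]
  have hfwd : ∀ v ∈ frameSet B D, φ v ∈ frameSet B D := by
    rintro v ⟨⟨i, hi⟩, hv⟩
    refine ⟨?_, by rw [hI]; exact hv⟩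
    by_cases hi1 : i = i1
    · subst hi1
      have e2 : B a2 v = 0 := horth i2 i h12.symm a2 ha2 v hi
      rcases plane_noniso H h4 haa1 hbb1 hab1 (hsp1 v hi) hv with h | h
      · exact ⟨i, by rw [happ, h, e2]; simpa using hi⟩
      · refine ⟨i2, ?_⟩
        rw [happ, e2, add_zero]
        have hv' := hsp1 v hi
        rw [h, zero_smul, add_zero] at hv'
        have : v + B a1 v • (a1 + a2) = B a1 v • a2 := by
          conv_lhs => rw [hv']
          simp only [map_smul, smul_eq_mul, haa1, mul_one, smul_add]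
          rw [← add_assoc, two_smul', zero_add]
        rw [this]
        exact (D i2).smul_mem _ ha2
    · by_cases hi2 : i = i2
      · subst hi2
        have e1 : B a1 v = 0 := horth i1 i h12 a1 ha1 v hi
        rcases plane_noniso H h4 haa2 hbb2 hab2 (hsp2 v hi) hv with h | h
        · exact ⟨i, by rw [happ, h, e1]; simpa using hi⟩
        · refine ⟨i1, ?_⟩
          rw [happ, e1, zero_add]
          have hv' := hsp2 v hi
          rw [h, zero_smul, add_zero] at hv'
          have : v + B a2 v • (a1 + a2) = B a2 v • a1 := by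
            conv_lhs => rw [hv']
            simp only [map_smul, smul_eq_mul, haa2, mul_one, smul_add]
            rw [add_comm (B a2 v • a1), ← add_assoc, two_smul', zero_add]
          rw [this]
          exact (D i1).smul_mem _ ha1
      · refine ⟨i, ?_⟩
        rw [happ, horth i1 i (Ne.symm hi1) a1 ha1 v hi, horth i2 i (Ne.symm hi2) a2 ha2 v hi]
        simpa using hi
  refine ⟨φ, hI, by rw [hφ, ur_det, hcc]; simp, ?_, ?_⟩
  · intro v
    exact ⟨hfwd v, fun h => by have := hfwd _ h; rwa [hinv] at this⟩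
  · rintro ⟨s, hs⟩
    have h1 : φ a1 = a2 := by
      rw [happ, haa1, o21, add_zero, one_smul, ← add_assoc, two_smul', zero_add]
    have h2 : φ b1 = b1 := by
      rw [happ, hab1, horth i2 i1 h12.symm a2 ha2 b1 hb1]; simp
    have m1 : a2 ∈ D (s i1) := by
      rw [← hs i1, ← h1]; exact Submodule.mem_map_of_mem ha1
    have m2 : b1 ∈ D (s i1) := by
      rw [← hs i1, ← h2]; exact Submodule.mem_map_of_mem hb1
    by_cases hsi : s i1 = i2
    · rw [hsi] at m2
      have := horth i1 i2 h12 b1 hb1 b1 m2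
      rw [hbb1] at this
      exact one_ne_zero this
    · have := horth i2 (s i1) (Ne.symm hsi) a2 ha2 a2 m1
      rw [haa2] at this
      exact one_ne_zero this

include H h4 horth hnd hfr in
lemma exists_not_frame [FiniteDimensional F V] (i1 i2 : Fin t) (h12 : i1 ≠ i2) :
    ∃ φ : V ≃ₗ[F] V, UIsom B φ ∧ LinearMap.det (φ : V →ₗ[F] V) = 1 ∧
      φ ∉ setStab (F := F) (frameSet B D) := by
  obtain ⟨a1, ha1, b1, hb1, haa1, hbb1, hab1, hsp1⟩ := plane_basis H h4 (D i1) (hnd i1) (hfr i1)
  obtain ⟨a2, ha2, b2, hb2, haa2, hbb2, hab2, hsp2⟩ := plane_basis H h4 (D i2) (hnd i2) (hfr i2)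
  have hba1 : B b1 a1 = 0 := H.eq_zero_comm.1 hab1
  have hba2 : B b2 a2 = 0 := H.eq_zero_comm.1 hab2
  have o := horth i1 i2 h12
  have o' := horth i2 i1 h12.symm
  have hcc : B (a1 + b1 + (a2 + b2)) (a1 + b1 + (a2 + b2)) = 0 := by
    simp only [map_add, LinearMap.add_apply, haa1, hbb1, hab1, hba1, haa2, hbb2, hab2, hba2,
      o a1 ha1 a2 ha2, o a1 ha1 b2 hb2, o b1 hb1 a2 ha2, o b1 hb1 b2 hb2,
      o' a2 ha2 a1 ha1, o' a2 ha2 b1 hb1, o' b2 hb2 a1 ha1, o' b2 hb2 b1 hb1]
    linear_combination 2 * h4.two 1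
  set φ := ur H (a1 + b1 + (a2 + b2)) 1 (one_cond h4 hcc) with hφ
  have two_smul' : ∀ x : V, x + x = 0 := by
    intro x
    rw [← two_smul F x]
    have : (2 : F) = 0 := by rw [← one_add_one_eq_two]; exact h4.two 1
    rw [this, zero_smul]
  refine ⟨φ, ur_isom _ _ _ _, by rw [hφ, ur_det, hcc]; simp, fun h => ?_⟩
  have h1 : φ a1 = b1 + (a2 + b2) := by
    rw [hφ, ur_apply]
    simp only [map_add, LinearMap.add_apply, haa1, hba1, o' a2 ha2 a1 ha1, o' b2 hb2 a1 ha1, add_zero,
      mul_one, one_smul]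
    rw [add_assoc a1, ← add_assoc a1 a1, two_smul', zero_add]
  have hmem : a1 ∈ frameSet B D := ⟨⟨i1, ha1⟩, by rw [haa1]; exact one_ne_zero⟩
  obtain ⟨⟨j, hj⟩, -⟩ := (h a1).1 hmem
  rw [h1] at hj
  by_cases hj1 : j = i1
  · subst hj1
    have := o' a2 ha2 _ hj
    rw [map_add, map_add, o' a2 ha2 b1 hb1, haa2, hab2] at this
    simp at this
  · have := horth i1 j (Ne.symm hj1) b1 hb1 _ hj
    rw [map_add, map_add, hbb1, o b1 hb1 a2 ha2, o b1 hb1 b2 hb2] at this
    simp at this

end main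

section wrap

open Matrix
open Cfsg.Agent.Lib.Helper13 (frobQ frobQ_apply)

variable {F : Type*} [Field F] [Fintype F] {n q : ℕ}

theorem su_between (hF : Fintype.card F = q ^ 2)
    (S : Subgroup (Matrix.GeneralLinearGroup (Fin n) F))
    (stab : ((Fin n → F) ≃ₗ[F] (Fin n → F)) → Prop)
    (hS : ∀ g, g ∈ S ↔ stab (glEquiv _ F g))
    (M : Subgroup ((Fin n → F) ≃ₗ[F] (Fin n → F)))
    (h1 : ∀ φ : (Fin n → F) ≃ₗ[F] (Fin n → F), UIsom (stdB n hF) φ →
      LinearMap.det (φ : (Fin n → F) →ₗ[F] (Fin n → F)) = 1 → stab φ → φ ∈ M)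
    (h2 : ∃ φ : (Fin n → F) ≃ₗ[F] (Fin n → F), UIsom (stdB n hF) φ ∧
      LinearMap.det (φ : (Fin n → F) →ₗ[F] (Fin n → F)) = 1 ∧ φ ∈ M ∧ ¬ stab φ)
    (h3 : ∃ φ : (Fin n → F) ≃ₗ[F] (Fin n → F), UIsom (stdB n hF) φ ∧
      LinearMap.det (φ : (Fin n → F) →ₗ[F] (Fin n → F)) = 1 ∧ φ ∉ M) :
    ∃ K : Subgroup (Matrix.GeneralLinearGroup (Fin n) F),
      S ⊓ (Cfsg.GU n F q ⊓ Cfsg.Geo.specialLinear (Fin n) F) < K ∧
      K < (Cfsg.GU n F q ⊓ Cfsg.Geo.specialLinear (Fin n) F) := by
  have hK : ∀ g, g ∈ Cfsg.GU n F q ⊓ Cfsg.Geo.specialLinear (Fin n) F ↔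
      UIsom (stdB n hF) (glEquiv _ F g) ∧
        LinearMap.det ((glEquiv _ F g : (Fin n → F) ≃ₗ[F] (Fin n → F)) : (Fin n → F) →ₗ[F] (Fin n → F)) = 1 := by
    intro g
    rw [Subgroup.mem_inf, mem_GU_iff hF, mem_specialLinear_iff, glEquiv_det]
  refine ⟨M.comap (glEquiv _ F).toMonoidHom ⊓ (Cfsg.GU n F q ⊓ Cfsg.Geo.specialLinear (Fin n) F), ?_, ?_⟩
  · refine lt_of_le_of_ne ?_ ?_
    · intro g hg
      refine ⟨?_, hg.2⟩
      exact h1 _ ((hK g).1 hg.2).1 ((hK g).1 hg.2).2 ((hS g).1 hg.1)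
    · intro heq
      obtain ⟨φ, hI, hd, hM, hns⟩ := h2
      have hmem : (glEquiv _ F).symm φ ∈ M.comap (glEquiv _ F).toMonoidHom ⊓
          (Cfsg.GU n F q ⊓ Cfsg.Geo.specialLinear (Fin n) F) := by
        refine Subgroup.mem_inf.2 ⟨?_, ?_⟩
        · change glEquiv _ F ((glEquiv _ F).symm φ) ∈ M
          rw [MulEquiv.apply_symm_apply]; exact hM
        · rw [hK, MulEquiv.apply_symm_apply]; exact ⟨hI, hd⟩
      rw [← heq] at hmem
      have := (hS _).1 hmem.1
      rw [MulEquiv.apply_symm_apply] at this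
      exact hns this
  · refine lt_of_le_of_ne inf_le_right ?_
    intro heq
    obtain ⟨φ, hI, hd, hM⟩ := h3
    have hmem : (glEquiv _ F).symm φ ∈ Cfsg.GU n F q ⊓ Cfsg.Geo.specialLinear (Fin n) F := by
      rw [hK, MulEquiv.apply_symm_apply]; exact ⟨hI, hd⟩
    rw [← heq] at hmem
    have : glEquiv _ F ((glEquiv _ F).symm φ) ∈ M := hmem.1
    rw [MulEquiv.apply_symm_apply] at this
    exact hM this

lemma f4Like (hF : Fintype.card F = 2 ^ 2) : F4Like (frobQ hF) where
  two := by
    intro x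
    have hc : CharP F 2 := by
      obtain ⟨p, hp⟩ := CharP.exists F
      have hpp : p.Prime := CharP.char_is_prime F p
      have hdvd : p ∣ Fintype.card F := by
        obtain ⟨k, _, hk⟩ := FiniteField.card F p
        rw [hk]; exact dvd_pow_self p k.ne_zero
      rw [hF] at hdvd
      have : p = 2 := (Nat.prime_dvd_prime_iff_eq hpp Nat.prime_two).1 (hpp.dvd_of_dvd_pow hdvd)
      exact this ▸ hp
    exact CharTwo.add_self_eq_zero x
  norm := by
    intro x hx
    rw [frobQ_apply]
    have := FiniteField.pow_card_sub_one_eq_one x hx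
    rw [hF] at this
    calc x * x ^ 2 = x ^ (2 ^ 2 - 1) := by norm_num; ring
      _ = 1 := this
  fix := by
    intro x hx
    rw [frobQ_apply] at hx
    have : x * (x - 1) = 0 := by linear_combination hx
    rcases mul_eq_zero.1 this with h | h
    · exact Or.inl h
    · exact Or.inr (sub_eq_zero.1 h)

end wrap

end Cfsg.Agent.Lib.Helper94.U
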