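import Mathlib
import Cfsg.Prelude.Def_GeometricClasses
import Cfsg.Agent.Lib.Helper94.Transfer
import Cfsg.Agent.Lib.Helper94.FormB
import Cfsg.Agent.Lib.Helper94.HermF4

set_option autoImplicit false
set_option linter.unusedSimpArgs false
set_option linter.unusedSectionVars false

/-! # Tensor decompositions: pure tensors, block components -/

namespace Cfsg.Agent.Lib.Helper94.Tens

open Matrix Module
open scoped Kronecker
open Cfsg.Agent.Lib.Helper94 Cfsg.Agent.Lib.Helper94.U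

section concrete

variable {ι : Type} [Fintype ι] [DecidableEq ι] {F : Type*} [Field F] {n₁ n₂ : ℕ}

/-- coordinates of a pure tensor -/
def pc (a : Fin n₁ → F) (b : Fin n₂ → F) : Fin n₁ × Fin n₂ → F := fun p => a p.1 * b p.2

/-- the coordinate isomorphism attached to `e` and `P` -/
noncomputable def TT (e : ι ≃ Fin n₁ × Fin n₂) (P : Matrix.GeneralLinearGroup ι F) :
    (Fin n₁ × Fin n₂ → F) ≃ₗ[F] (ι → F) :=
  (LinearEquiv.funCongrLeft F F e).trans (glEquiv ι F P)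

lemma TT_apply (e : ι ≃ Fin n₁ × Fin n₂) (P : Matrix.GeneralLinearGroup ι F) (x : Fin n₁ × Fin n₂ → F) :
    TT e P x = (P : Matrix ι ι F) *ᵥ (x ∘ e) := by
  unfold TT
  rw [LinearEquiv.trans_apply, glEquiv_apply]
  rfl

/-- the pure tensor map -/
noncomputable def pt (e : ι ≃ Fin n₁ × Fin n₂) (P : Matrix.GeneralLinearGroup ι F) :
    (Fin n₁ → F) →ₗ[F] (Fin n₂ → F) →ₗ[F] (ι → F) :=
  LinearMap.mk₂ F (fun a b => TT e P (pc a b))
    (by intro a a' b; rw [← map_add]; congr 1; funext p; simp [pc, add_mul])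
    (by intro c a b; rw [← map_smul]; congr 1; funext p; simp [pc, mul_assoc])
    (by intro a b b'; rw [← map_add]; congr 1; funext p; simp [pc, mul_add])
    (by intro c a b; rw [← map_smul]; congr 1; funext p; simp [pc, mul_left_comm])

lemma pt_apply (e : ι ≃ Fin n₁ × Fin n₂) (P : Matrix.GeneralLinearGroup ι F) (a : Fin n₁ → F)
    (b : Fin n₂ → F) : pt e P a b = (P : Matrix ι ι F) *ᵥ (pc a b ∘ e) := by
  rw [← TT_apply]; rfl

lemma pt_eq_TT (e : ι ≃ Fin n₁ × Fin n₂) (P : Matrix.GeneralLinearGroup ι F) (a : Fin n₁ → F)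
    (b : Fin n₂ → F) : pt e P a b = TT e P (pc a b) := rfl

lemma kron_mulVec_pc (A : Matrix (Fin n₁) (Fin n₁) F) (B : Matrix (Fin n₂) (Fin n₂) F)
    (a : Fin n₁ → F) (b : Fin n₂ → F) : (A ⊗ₖ B) *ᵥ pc a b = pc (A *ᵥ a) (B *ᵥ b) := by
  funext p
  obtain ⟨i, j⟩ := p
  simp only [Matrix.mulVec, dotProduct, pc, Matrix.kroneckerMap_apply, Fintype.sum_prod_type]
  rw [Finset.sum_mul_sum]
  refine Finset.sum_congr rfl fun i' _ => Finset.sum_congr rfl fun j' _ => ?_
  ring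

/-- elements of the tensor product subgroup map pure tensors to pure tensors, factorwise -/
lemma exists_of_mem (e : ι ≃ Fin n₁ × Fin n₂) (P g : Matrix.GeneralLinearGroup ι F)
    (hg : g ∈ Cfsg.Geo.tensorProductSubgroup n₁ n₂ e P) :
    ∃ (A : Matrix.GeneralLinearGroup (Fin n₁) F) (B : Matrix.GeneralLinearGroup (Fin n₂) F),
      ∀ a b, (g : Matrix ι ι F) *ᵥ pt e P a b =
        pt e P ((A : Matrix (Fin n₁) (Fin n₁) F) *ᵥ a) ((B : Matrix (Fin n₂) (Fin n₂) F) *ᵥ b) := by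
  obtain ⟨h, ⟨k, ⟨A, B, hk⟩, rfl⟩, rfl⟩ := hg
  refine ⟨A, B, fun a b => ?_⟩
  rw [pt_apply, pt_apply]
  have h1 : (((MulAut.conj P).toMonoidHom ((Cfsg.Geo.glReindex e.symm).toMonoidHom k) :
      Matrix.GeneralLinearGroup ι F) : Matrix ι ι F) =
      (P : Matrix ι ι F) * (k : Matrix _ _ F).submatrix e e * ((P⁻¹ : Matrix.GeneralLinearGroup ι F) : Matrix ι ι F) := by
    rfl
  rw [h1, Matrix.mulVec_mulVec, Matrix.mul_assoc, ← Units.val_mul, inv_mul_cancel, Units.val_one,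
    Matrix.mul_one, ← Matrix.mulVec_mulVec, Matrix.submatrix_mulVec_equiv, hk]
  congr 1
  have : (pc a b ∘ ⇑e) ∘ ⇑e.symm = pc a b := by
    funext p; simp
  rw [this, kron_mulVec_pc]

/-- in terms of linear automorphisms -/
lemma exists_of_symm_mem (e : ι ≃ Fin n₁ × Fin n₂) (P : Matrix.GeneralLinearGroup ι F)
    (φ : (ι → F) ≃ₗ[F] (ι → F)) (hg : (glEquiv ι F).symm φ ∈ Cfsg.Geo.tensorProductSubgroup n₁ n₂ e P) :
    ∃ (A : (Fin n₁ → F) ≃ₗ[F] (Fin n₁ → F)) (B : (Fin n₂ → F) ≃ₗ[F] (Fin n₂ → F)),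
      ∀ a b, φ (pt e P a b) = pt e P (A a) (B b) := by
  obtain ⟨A, B, h⟩ := exists_of_mem e P _ hg
  refine ⟨glEquiv _ F A, glEquiv _ F B, fun a b => ?_⟩
  rw [glEquiv_apply, glEquiv_apply, ← h, ← glEquiv_apply, MulEquiv.apply_symm_apply]

lemma sum_pt_eq_zero (e : ι ≃ Fin n₁ × Fin n₂) (P : Matrix.GeneralLinearGroup ι F) {κ : Type*} [Fintype κ]
    (a : κ → (Fin n₁ → F)) (ha : LinearIndependent F a) (y : κ → (Fin n₂ → F))
    (h : ∑ i, pt e P (a i) (y i) = 0) : ∀ i, y i = 0 := by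
  simp only [pt_eq_TT] at h
  rw [← map_sum, LinearEquiv.map_eq_zero_iff] at h
  intro i
  funext q
  have h1 : ∑ i, (y i q) • a i = 0 := by
    funext p
    have := congrFun h (p, q)
    simp only [Finset.sum_apply, pc, Pi.zero_apply] at this
    simp only [Finset.sum_apply, Pi.smul_apply, smul_eq_mul, Pi.zero_apply]
    rw [← this]
    exact Finset.sum_congr rfl fun i _ => mul_comm _ _
  exact Fintype.linearIndependent_iff.1 ha _ h1 i

lemma sum_pt_flip_eq_zero (e : ι ≃ Fin n₁ × Fin n₂) (P : Matrix.GeneralLinearGroup ι F) {κ : Type*} [Fintype κ]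
    (a : κ → (Fin n₂ → F)) (ha : LinearIndependent F a) (y : κ → (Fin n₁ → F))
    (h : ∑ i, pt e P (y i) (a i) = 0) : ∀ i, y i = 0 := by
  simp only [pt_eq_TT] at h
  rw [← map_sum, LinearEquiv.map_eq_zero_iff] at h
  intro i
  funext q
  have h1 : ∑ i, (y i q) • a i = 0 := by
    funext p
    have := congrFun h (q, p)
    simp only [Finset.sum_apply, pc, Pi.zero_apply] at this
    simp only [Finset.sum_apply, Pi.smul_apply, smul_eq_mul, Pi.zero_apply]
    rw [← this]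
  exact Fintype.linearIndependent_iff.1 ha _ h1 i

lemma formOfGram_kron (σ : F → F) (hσ : ∀ x y, σ (x * y) = σ x * σ y)
    (G₁ : Matrix (Fin n₁) (Fin n₁) F) (G₂ : Matrix (Fin n₂) (Fin n₂) F)
    (a a' : Fin n₁ → F) (b b' : Fin n₂ → F) :
    Cfsg.Geo.formOfGram σ (G₁ ⊗ₖ G₂) (pc a b) (pc a' b') =
      Cfsg.Geo.formOfGram σ G₁ a a' * Cfsg.Geo.formOfGram σ G₂ b b' := by
  unfold Cfsg.Geo.formOfGram
  simp only [pc, Matrix.kroneckerMap_apply, Fintype.sum_prod_type, hσ]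
  rw [Finset.sum_mul_sum]
  refine Finset.sum_congr rfl fun i _ => Finset.sum_congr rfl fun j _ => ?_
  rw [Finset.sum_mul_sum]
  refine Finset.sum_congr rfl fun i' _ => Finset.sum_congr rfl fun j' _ => ?_
  ring

lemma formOfGram_gram {κ : Type} [Fintype κ] [DecidableEq κ] (f : (κ → F) → (κ → F) → F)
    (hf : Cfsg.Geo.IsBilinearForm f) (x y : κ → F) :
    Cfsg.Geo.formOfGram id (Cfsg.Geo.gramMatrix f) x y = f x y := by
  unfold Cfsg.Geo.formOfGram Cfsg.Geo.gramMatrix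
  have hx : x = ∑ i, x i • (Pi.single i (1 : F) : κ → F) := by
    funext j; simp [Finset.sum_apply, Pi.single_apply]
  have hy : y = ∑ i, y i • (Pi.single i (1 : F) : κ → F) := by
    funext j; simp [Finset.sum_apply, Pi.single_apply]
  rw [← formB_apply f hf x y]
  conv_rhs => rw [hx, hy]
  simp only [map_sum, LinearMap.sum_apply, map_smul, LinearMap.smul_apply, formB_apply, smul_eq_mul, id]
  rw [Finset.sum_comm]
  refine Finset.sum_congr rfl fun i _ => ?_
  rw [Finset.mul_sum]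
  refine Finset.sum_congr rfl fun j _ => ?_
  ring

/-- bilinear tensor form structures on pure tensors -/
lemma form_pt (f : (ι → F) → (ι → F) → F) (f₁ : (Fin n₁ → F) → (Fin n₁ → F) → F)
    (f₂ : (Fin n₂ → F) → (Fin n₂ → F) → F) (hf₁ : Cfsg.Geo.IsBilinearForm f₁)
    (hf₂ : Cfsg.Geo.IsBilinearForm f₂) (e : ι ≃ Fin n₁ × Fin n₂) (P : Matrix.GeneralLinearGroup ι F)
    (hT : Cfsg.Geo.IsTensorFormStructure id f f₁ f₂ e P) :
    ∃ c : F, c ≠ 0 ∧ ∀ a b a' b', f (pt e P a b) (pt e P a' b') = c * (f₁ a a' * f₂ b b') := by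
  obtain ⟨c, hc, h⟩ := hT
  refine ⟨c, hc, fun a b a' b' => ?_⟩
  rw [pt_apply, pt_apply, h, formOfGram_kron id (fun _ _ => rfl), formOfGram_gram f₁ hf₁,
    formOfGram_gram f₂ hf₂]

end concrete

section abstract

variable {F V V₁ V₂ κ : Type*} [Field F] [AddCommGroup V] [Module F V] [AddCommGroup V₁] [Module F V₁]
  [AddCommGroup V₂] [Module F V₂] [Fintype κ] [DecidableEq κ]
  (T : V₁ →ₗ[F] V₂ →ₗ[F] V) (a : Basis κ F V₁)

/-- assembling a vector from its block components -/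
noncomputable def Th : (κ → V₂) →ₗ[F] V := ∑ i, (T (a i)) ∘ₗ (LinearMap.proj i)

lemma Th_apply (y : κ → V₂) : Th T a y = ∑ i, T (a i) (y i) := by
  simp [Th, LinearMap.sum_apply]

lemma Th_single (i : κ) (y : V₂) : Th T a (Pi.single i y) = T (a i) y := by
  rw [Th_apply, Finset.sum_eq_single i]
  · simp
  · intro j _ hj
    rw [Pi.single_eq_of_ne hj, map_zero]
  · intro h; exact absurd (Finset.mem_univ i) h

lemma T_eq_Th (x : V₁) (y : V₂) : T x y = Th T a (fun m => a.repr x m • y) := by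
  rw [Th_apply]
  conv_lhs => rw [← a.sum_repr x]
  simp only [map_sum, LinearMap.sum_apply, map_smul, LinearMap.smul_apply]

/-- the union of the blocks -/
def blocks : Set V := {v | ∃ i y, v = T (a i) y}

variable {T a}

lemma two_comp_not_mem (hU : Function.Injective (Th T a)) {i j : κ} (hij : i ≠ j) {y₁ y₂ : V₂}
    (h1 : y₁ ≠ 0) (h2 : y₂ ≠ 0) : T (a i) y₁ + T (a j) y₂ ∉ blocks T a := by
  rintro ⟨l, z, h⟩
  rw [← Th_single, ← Th_single, ← Th_single, ← map_add] at h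
  have h' := hU h
  by_cases hl : l = i
  · subst hl
    have := congrFun h' j
    simp [Pi.single_apply, hij, Ne.symm hij] at this
    exact h2 this
  · have := congrFun h' i
    simp [Pi.single_apply, hij, Ne.symm hij, hl, Ne.symm hl] at this
    exact h1 this

lemma pure_parallel (hU : Function.Injective (Th T a)) {i j : κ} (hij : i ≠ j) {y₁ y₂ y' : V₂} {x' : V₁}
    (h : T x' y' = T (a i) y₁ + T (a j) y₂) : ∃ ξ ξ' : F, y₁ = ξ • y' ∧ y₂ = ξ' • y' := by
  rw [T_eq_Th T a, ← Th_single, ← Th_single, ← map_add] at h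
  have h' := hU h
  refine ⟨a.repr x' i, a.repr x' j, ?_, ?_⟩
  · have := congrFun h' i
    simp [Pi.single_apply, hij, Ne.symm hij] at this
    exact this.symm
  · have := congrFun h' j
    simp [Pi.single_apply, hij, Ne.symm hij] at this
    exact this.symm

lemma maps_blocks {φ : V ≃ₗ[F] V} {A : V₁ ≃ₗ[F] V₁} {B : V₂ ≃ₗ[F] V₂}
    (h : ∀ x y, φ (T x y) = T (A x) (B y)) (hA : ∀ i, ∃ j, ∃ c : F, A (a i) = c • a j) :
    ∀ v ∈ blocks T a, φ v ∈ blocks T a := by
  rintro v ⟨i, y, rfl⟩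
  obtain ⟨j, c, hj⟩ := hA i
  refine ⟨j, c • B y, ?_⟩
  rw [h, hj, map_smul, LinearMap.smul_apply, map_smul]

lemma mem_setStab_of_maps {S : Set V} {φ : V ≃ₗ[F] V} (h : ∀ v ∈ S, φ v ∈ S) (h' : ∀ v ∈ S, φ⁻¹ v ∈ S) :
    φ ∈ setStab (F := F) S := by
  intro v
  refine ⟨h v, fun hv => ?_⟩
  have := h' _ hv
  rwa [inv_apply_self'] at this

end abstract

end Cfsg.Agent.Lib.Helper94.Tens
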