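import Mathlib
import Cfsg.Agent.Lib.Helper94.Tens

set_option autoImplicit false
set_option linter.unusedSimpArgs false
set_option linter.unusedSectionVars false

/-! # The orthogonal frame of a three-dimensional space over the field with three elements -/

namespace Cfsg.Agent.Lib.Helper94.Tens

open Matrix Module
open LinearMap (BilinForm)

section general

variable {F : Type*} [Field F] {X Y : Type*}

/-- a factor of an isometry of a product form is a similitude -/
lemma simil_of_isom (g₁ : Y → Y → F) (g₂ : X → X → F) (A : Y → Y) (B : X → X)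
    (h : ∀ y y' x x', g₁ (A y) (A y') * g₂ (B x) (B x') = g₁ y y' * g₂ x x')
    (h1 : ∃ y y', g₁ y y' ≠ 0) (h2 : ∃ x x', g₂ x x' ≠ 0) :
    ∃ μ : F, μ ≠ 0 ∧ ∀ x x', g₂ (B x) (B x') = μ * g₂ x x' := by
  obtain ⟨y, y', hy⟩ := h1
  obtain ⟨x₀, x₀', hx⟩ := h2
  have hβ : g₁ (A y) (A y') ≠ 0 := by
    intro h0
    have := h y y' x₀ x₀'
    rw [h0, zero_mul] at this
    exact mul_ne_zero hy hx this.symm
  refine ⟨g₁ y y' / g₁ (A y) (A y'), div_ne_zero hy hβ, fun x x' => ?_⟩
  have := h y y' x x'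
  field_simp
  linear_combination this

variable {V₂ : Type*} [AddCommGroup V₂] [Module F V₂]

lemma minor_eq {y₁ y₂ y' : V₂} {ξ ξ' : F} (h1 : y₁ = ξ • y') (h2 : y₂ = ξ' • y') (l₁ l₂ : V₂ →ₗ[F] F) :
    l₁ y₁ * l₂ y₂ = l₁ y₂ * l₂ y₁ := by
  rw [h1, h2]
  simp only [map_smul, smul_eq_mul]
  ring

end general

section f3

variable {F V : Type*} [Field F] [AddCommGroup V] [Module F V]

lemma fix_norm (h30 : (3 : F) = 0) (s : BilinForm F V) (hs : ∀ x y, s x y = s y x) (x y z : V) (δ : F)
    (hδ : δ ≠ 0)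
    (hxy : s x y = 0) (hxz : s x z = 0) (hyz : s y z = 0) (hx : s x x = δ) (hy : s y y = δ)
    (hz : s z z = -δ) :
    ∃ (w : Fin 3 → V) (ε : F), ε ≠ 0 ∧ (∀ i, s (w i) (w i) = ε) ∧ (∀ i j, i ≠ j → s (w i) (w j) = 0) := by
  have hyx := (hs y x).trans hxy
  have hzx := (hs z x).trans hxz
  have hzy := (hs z y).trans hyz
  refine ⟨![x + y, x - y, z], -δ, neg_ne_zero.2 hδ, ?_, ?_⟩
  · intro i
    fin_cases i
    · simp [hxy, hyx, hx, hy]
      linear_combination δ * h30
    · simp [hxy, hyx, hx, hy]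
      linear_combination δ * h30
    · simpa using hz
  · intro i j hij
    fin_cases i <;> fin_cases j <;> first | exact absurd rfl hij | simp [hxy, hyx, hx, hy, hxz, hyz, hzx, hzy]

variable (h3 : ∀ x : F, x = 0 ∨ x = 1 ∨ x = -1) (h30 : (3 : F) = 0)

include h3 h30 in
lemma exists_equal_norm [FiniteDimensional F V] (s : BilinForm F V) (hsym : ∀ x y, s x y = s y x)
    (hN : s.Nondegenerate)
    (hfr : finrank F V = 3) :
    ∃ (w : Fin 3 → V) (ε : F), ε ≠ 0 ∧ (∀ i, s (w i) (w i) = ε) ∧ (∀ i j, i ≠ j → s (w i) (w j) = 0) := by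
  have h2 : (2 : F) ≠ 0 := by
    intro h
    exact one_ne_zero (show (1 : F) = 0 by linear_combination h30 - h)
  let _ : Invertible (2 : F) := invertibleOfNonzero h2
  obtain ⟨v, hv⟩ : ∃ v : Basis (Fin 3) F V, s.IsOrthoᵢ v := by
    have := LinearMap.BilinForm.exists_orthogonal_basis (B := s) ⟨fun x y => hsym x y⟩
    rwa [hfr] at this
  have hv' : ∀ i j, i ≠ j → s (v i) (v j) = 0 := hv
  have hn : ∀ i, s (v i) (v i) ≠ 0 :=
    LinearMap.BilinForm.iIsOrtho.not_isOrtho_basis_self_of_nondegenerate hv hN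
  have hpm : ∀ x y : F, x ≠ 0 → y ≠ 0 → x ≠ y → y = -x := by
    intro x y hx hy hxy
    rcases h3 x with rfl | rfl | rfl <;> rcases h3 y with rfl | rfl | rfl <;> simp_all
  by_cases h01 : s (v 0) (v 0) = s (v 1) (v 1)
  · by_cases h12 : s (v 1) (v 1) = s (v 2) (v 2)
    · refine ⟨v, s (v 0) (v 0), hn 0, ?_, hv'⟩
      intro i
      fin_cases i
      · rfl
      · exact h01.symm
      · exact (h01.trans h12).symm
    · exact fix_norm h30 s hsym (v 0) (v 1) (v 2) _ (hn 0) (hv' _ _ (by decide)) (hv' _ _ (by decide))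
        (hv' _ _ (by decide)) rfl h01.symm (hpm _ _ (hn 0) (hn 2) (by rw [h01]; exact h12))
  · by_cases h02 : s (v 0) (v 0) = s (v 2) (v 2)
    · exact fix_norm h30 s hsym (v 0) (v 2) (v 1) _ (hn 0) (hv' _ _ (by decide)) (hv' _ _ (by decide))
        (hv' _ _ (by decide)) rfl h02.symm (hpm _ _ (hn 0) (hn 1) h01)
    · have e1 := hpm _ _ (hn 0) (hn 1) h01
      have e2 := hpm _ _ (hn 0) (hn 2) h02
      exact fix_norm h30 s hsym (v 1) (v 2) (v 0) _ (hn 1) (hv' _ _ (by decide)) (hv' _ _ (by decide))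
        (hv' _ _ (by decide)) rfl (by rw [e2, e1]) (by rw [e1, neg_neg])

lemma form_coord (s : BilinForm F V) (w : Basis (Fin 3) F V) (ε : F) (hn : ∀ i, s (w i) (w i) = ε)
    (ho : ∀ i j, i ≠ j → s (w i) (w j) = 0) (x y : V) :
    s x y = ε * ∑ l, w.repr x l * w.repr y l := by
  conv_lhs => rw [← w.sum_repr x, ← w.sum_repr y]
  simp only [map_sum, LinearMap.sum_apply, map_smul, LinearMap.smul_apply, smul_eq_mul]
  rw [Finset.mul_sum]
  refine Finset.sum_congr rfl fun l _ => ?_
  rw [Finset.sum_eq_single l]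
  · rw [hn]; ring
  · intro j _ hj
    rw [ho j l hj]; ring
  · intro h; exact absurd (Finset.mem_univ l) h

include h3 h30 in
lemma simil_frame (s : BilinForm F V) (w : Basis (Fin 3) F V) (ε : F) (hε : ε ≠ 0)
    (hn : ∀ i, s (w i) (w i) = ε) (ho : ∀ i j, i ≠ j → s (w i) (w j) = 0) (A : V ≃ₗ[F] V) (μ : F)
    (hμ : μ ≠ 0) (hA : ∀ x y, s (A x) (A y) = μ * s x y) : ∀ i, ∃ j, ∃ c : F, A (w i) = c • w j := by
  set M : Matrix (Fin 3) (Fin 3) F := LinearMap.toMatrix w w (A : V →ₗ[F] V) with hMdef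
  have hM : Mᵀ * M = μ • (1 : Matrix (Fin 3) (Fin 3) F) := by
    ext i j
    rw [Matrix.mul_apply]
    simp only [Matrix.transpose_apply, hMdef, LinearMap.toMatrix_apply, Matrix.smul_apply,
      Matrix.one_apply, LinearEquiv.coe_coe, smul_eq_mul]
    have h1 := form_coord s w ε hn ho (A (w i)) (A (w j))
    rw [hA] at h1
    by_cases hij : i = j
    · subst hij
      rw [hn] at h1
      rw [if_pos rfl, mul_one]
      exact mul_left_cancel₀ hε (by rw [← h1]; ring)
    · rw [ho i j hij, mul_zero] at h1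
      rw [if_neg hij, mul_zero]
      exact (mul_eq_zero.1 h1.symm).resolve_left hε
  have hdet : M.det * M.det = μ ^ 3 := by
    have := congrArg Matrix.det hM
    rw [Matrix.det_mul, Matrix.det_transpose, Matrix.det_smul, Matrix.det_one] at this
    simpa using this
  have h1n : (1 : F) ≠ -1 := by
    intro h
    exact one_ne_zero (show (1 : F) = 0 by linear_combination h30 - h)
  have hμ1 : μ = 1 := by
    rcases h3 μ with rfl | rfl | rfl
    · exact absurd rfl hμ
    · rfl
    · exfalso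
      rcases h3 M.det with h | h | h <;> rw [h] at hdet <;> norm_num at hdet
      · exact h1n hdet
      · exact h1n hdet
  subst hμ1
  intro i
  have hsq : ∑ l, M l i * M l i = 1 := by
    have := congrFun (congrFun hM i) i
    rw [Matrix.mul_apply] at this
    simpa using this
  have hrep : A (w i) = ∑ l, M l i • w l := by
    conv_lhs => rw [← w.sum_repr (A (w i))]
    refine Finset.sum_congr rfl fun l _ => ?_
    rw [hMdef, LinearMap.toMatrix_apply]
    rfl
  rw [Fin.sum_univ_three] at hsq hrep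
  rcases h3 (M 0 i) with h0 | h0 | h0 <;> rcases h3 (M 1 i) with h1 | h1 | h1 <;>
    rcases h3 (M 2 i) with h2 | h2 | h2 <;> rw [h0, h1, h2] at hsq hrep <;>
    first
    | (exfalso; norm_num at hsq; done)
    | (exfalso; exact one_ne_zero (show (1 : F) = 0 by linear_combination hsq))
    | (exfalso; exact one_ne_zero (show (1 : F) = 0 by linear_combination h30 - hsq))
    | (refine ⟨0, M 0 i, ?_⟩; rw [hrep, h0]; simp; done)
    | (refine ⟨1, M 1 i, ?_⟩; rw [hrep, h1]; simp; done)
    | (refine ⟨2, M 2 i, ?_⟩; rw [hrep, h2]; simp; done)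

end f3

end Cfsg.Agent.Lib.Helper94.Tens

namespace Cfsg.Agent.Lib.Helper94.Tens

section card3

variable {F : Type*} [Field F] [Fintype F]

lemma card3_three (hq : Fintype.card F = 3) : (3 : F) = 0 := by
  have := Nat.cast_card_eq_zero F
  rw [hq] at this
  exact_mod_cast this

lemma card3_cases (hq : Fintype.card F = 3) : ∀ x : F, x = 0 ∨ x = 1 ∨ x = -1 := by
  classical
  have h30 := card3_three hq
  have h2 : (2 : F) ≠ 0 := by
    intro h
    exact one_ne_zero (show (1 : F) = 0 by linear_combination h30 - h)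
  intro x
  by_contra hcon
  push Not at hcon
  have h1n : (1 : F) ≠ -1 := by
    intro h
    exact h2 (by linear_combination h)
  have h0n : (0 : F) ≠ -1 := by
    intro h
    exact one_ne_zero (show (1 : F) = 0 by linear_combination h)
  have h4 : ({0, 1, -1, x} : Finset F).card = 4 := by
    rw [Finset.card_insert_of_notMem (by simp [zero_ne_one, h0n, Ne.symm hcon.1]),
      Finset.card_insert_of_notMem (by simp [h1n, Ne.symm hcon.2.1]),
      Finset.card_insert_of_notMem (by simp [Ne.symm hcon.2.2]), Finset.card_singleton]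
  have := Finset.card_le_univ ({0, 1, -1, x} : Finset F)
  rw [h4, hq] at this
  omega

end card3

section stinv

variable {F V : Type*} [Field F] [AddCommGroup V] [Module F V]

lemma st_inv (B : LinearMap.BilinForm F V) (hA : B.IsAlt) (v : V) (c : F) :
    (st B hA v c)⁻¹ = st B hA v (-c) := by
  apply inv_eq_of_mul_eq_one_right
  ext x
  rw [LinearEquiv.mul_apply, st_apply, st_apply]
  simp only [map_add, map_smul, LinearMap.add_apply, LinearMap.smul_apply, hA v, smul_eq_mul, mul_zero,
    add_zero, LinearEquiv.coe_one, id]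
  rw [add_assoc, ← add_smul]
  simp

end stinv

end Cfsg.Agent.Lib.Helper94.Tens
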