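import Mathlib
import Cfsg.Agent.Lib.Helper13.OrthWrap
import Cfsg.Agent.Lib.Helper94.HermF4
import Cfsg.Agent.Lib.Helper94.SympDecompWrap
import Cfsg.Agent.Lib.Helper94.SLDec

set_option autoImplicit false
set_option linter.unusedSimpArgs false
set_option linter.unusedSectionVars false

/-! # Orthogonal decompositions refined by a frame: the stabiliser is not maximal in `Ω` -/

namespace Cfsg.Agent.Lib.Helper94.OF

open QuadraticMap Module
open scoped commutatorElement
open Cfsg.Agent.Lib.Helper44 Cfsg.Agent.Lib.Helper13.O Cfsg.Agent.Lib.Helper94 Cfsg.Agent.Lib.Helper94.U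

variable {F V : Type*} [Field F] [AddCommGroup V] [Module F V]

lemma comm_mem_Om {Q : QuadraticForm F V} {g h : V ≃ₗ[F] V} (hg : g ∈ OQ Q) (hh : h ∈ OQ Q) :
    g * h * g⁻¹ * h⁻¹ ∈ Om Q := by
  refine ⟨⁅(⟨g, hg⟩ : ↥(OQ Q)), ⟨h, hh⟩⁆, ?_, ?_⟩
  · exact Subgroup.commutator_mem_commutator (Subgroup.mem_top _) (Subgroup.mem_top _)
  · rfl

section frame

variable (Q : QuadraticForm F V) {t : ℕ} (D : Fin t → Submodule F V) (ε : F)

/-- the vectors of norm `ε` in the blocks -/
def frameSet : Set V := {v | ∃ i, v ∈ D i ∧ Q v = ε}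

lemma decStab_mem_setStab {φ : V ≃ₗ[F] V} (hφ : φ ∈ OQ Q) (hs : DecStab D φ) :
    φ ∈ setStab (F := F) (frameSet Q D ε) := by
  obtain ⟨s, hs⟩ := hs
  intro v
  constructor
  · rintro ⟨i, hv, hQ⟩
    refine ⟨s i, ?_, by rw [mem_OQ.1 hφ]; exact hQ⟩
    rw [← hs i]
    exact Submodule.mem_map_of_mem hv
  · rintro ⟨j, hv, hQ⟩
    refine ⟨s.symm j, ?_, by rw [← mem_OQ.1 hφ v]; exact hQ⟩
    have := hs (s.symm j)
    rw [Equiv.apply_symm_apply] at this
    rw [← this] at hv
    obtain ⟨w, hw, hwv⟩ := hv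
    have : w = v := φ.injective hwv
    exact this ▸ hw

variable (h2 : (2 : F) ≠ 0) (hε : ε ≠ 0)
  (horth : ∀ i j, i ≠ j → ∀ u ∈ D i, ∀ v ∈ D j, polar Q u v = 0)
  (hnd : ∀ i, ∀ w ∈ D i, (∀ z ∈ D i, polar Q z w = 0) → w = 0)
  (FP : ∀ i, ∀ v ∈ D i, ∀ w ∈ D i, Q v = ε → Q w = ε → w = v ∨ w = -v ∨ polar Q v w = 0)

include h2 hε horth in
lemma swap_facts {i j : Fin t} (hij : i ≠ j) {a c : V} (ha : a ∈ D i) (hc : c ∈ D j) (hQa : Q a = ε)
    (hQc : Q c = ε) : refl Q (a - c) a = c ∧ refl Q (a - c) c = a := by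
  have hac : polar Q a c = 0 := horth i j hij a ha c hc
  have hQ : Q (a - c) = 2 * ε := by
    have := Q_add_smul Q a c (-1)
    simp only [neg_smul, one_smul, ← sub_eq_add_neg] at this
    rw [this, hQa, hQc, hac]; ring
  have h2ε : 2 * ε ≠ 0 := mul_ne_zero h2 hε
  constructor
  · rw [refl_apply, hQ, polar_sub_left, polar_self, hQa, polar_comm Q c a, hac]
    have : (2 * ε)⁻¹ * (2 • ε - 0) = 1 := by
      rw [nsmul_eq_mul]; push_cast; field_simp; ring
    rw [this]; module
  · rw [refl_apply, hQ, polar_sub_left, polar_self, hQc, hac]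
    have : (2 * ε)⁻¹ * (0 - 2 • ε) = -1 := by
      rw [nsmul_eq_mul]; push_cast; field_simp; ring
    rw [this]; module

include h2 hε horth FP in
lemma swap_mem_setStab {i j : Fin t} (hij : i ≠ j) {a c : V} (ha : a ∈ D i) (hc : c ∈ D j)
    (hQa : Q a = ε) (hQc : Q c = ε) : refl Q (a - c) ∈ setStab (F := F) (frameSet Q D ε) := by
  obtain ⟨e1, e2⟩ := swap_facts Q D ε h2 hε horth hij ha hc hQa hQc
  have key : ∀ v, v ∈ frameSet Q D ε → refl Q (a - c) v ∈ frameSet Q D ε := by
    rintro v ⟨l, hv, hQv⟩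
    by_cases hli : l = i
    · subst hli
      have hcv : polar Q c v = 0 := by rw [polar_comm]; exact horth l j hij v hv c hc
      rcases FP l a ha v hv hQa hQv with h | h | h
      · rw [h, e1]; exact ⟨j, hc, hQc⟩
      · rw [h, map_neg, e1]; exact ⟨j, (D j).neg_mem hc, by rw [QuadraticMap.map_neg]; exact hQc⟩
      · rw [refl_apply_of_polar_eq_zero Q (by rw [polar_sub_left, h, hcv, sub_zero])]
        exact ⟨l, hv, hQv⟩
    · by_cases hlj : l = j
      · subst hlj
        have hav : polar Q a v = 0 := horth i l hij a ha v hv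
        rcases FP l c hc v hv hQc hQv with h | h | h
        · rw [h, e2]; exact ⟨i, ha, hQa⟩
        · rw [h, map_neg, e2]; exact ⟨i, (D i).neg_mem ha, by rw [QuadraticMap.map_neg]; exact hQa⟩
        · rw [refl_apply_of_polar_eq_zero Q (by rw [polar_sub_left, h, hav, sub_zero])]
          exact ⟨l, hv, hQv⟩
      · have hav : polar Q a v = 0 := horth i l (Ne.symm hli) a ha v hv
        have hcv : polar Q c v = 0 := horth j l (Ne.symm hlj) c hc v hv
        rw [refl_apply_of_polar_eq_zero Q (by rw [polar_sub_left, hav, hcv, sub_zero])]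
        exact ⟨l, hv, hQv⟩
  intro v
  refine ⟨key v, fun h => ?_⟩
  have := key _ h
  have e : refl Q (a - c) (refl Q (a - c) v) = v := by
    have := congrArg (fun f : V ≃ₗ[F] V => f v) (refl_mul_self Q (a - c))
    simpa [LinearEquiv.mul_apply] using this
  rwa [e] at this

include h2 hε horth hnd FP in
lemma exists_frame_not_decStab {i j l : Fin t} (hij : i ≠ j) (hil : i ≠ l) (hjl : j ≠ l)
    {a c e a' : V} (ha : a ∈ D i) (hc : c ∈ D j) (he : e ∈ D l) (hQa : Q a = ε) (hQc : Q c = ε)
    (hQe : Q e = ε) (ha' : a' ∈ D i) (ha'0 : a' ≠ 0) (haa' : polar Q a a' = 0) :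
    ∃ φ ∈ Om Q, φ ∈ setStab (F := F) (frameSet Q D ε) ∧ ¬ DecStab D φ := by
  obtain ⟨e1, e2⟩ := swap_facts Q D ε h2 hε horth hij ha hc hQa hQc
  obtain ⟨e3, e4⟩ := swap_facts Q D ε h2 hε horth hil ha he hQa hQe
  have m1 := swap_mem_setStab Q D ε h2 hε horth FP hij ha hc hQa hQc
  have m2 := swap_mem_setStab Q D ε h2 hε horth FP hil ha he hQa hQe
  refine ⟨refl Q (a - c) * refl Q (a - e) * (refl Q (a - c))⁻¹ * (refl Q (a - e))⁻¹,
    comm_mem_Om (refl_mem Q _) (refl_mem Q _), ?_, ?_⟩
  · exact Subgroup.mul_mem _ (Subgroup.mul_mem _ (Subgroup.mul_mem _ m1 m2) (Subgroup.inv_mem _ m1))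
      (Subgroup.inv_mem _ m2)
  · rintro ⟨σ, hσ⟩
    rw [refl_inv, refl_inv] at hσ
    have hce : polar Q c e = 0 := horth j l hjl c hc e he
    have hae : polar Q a e = 0 := horth i l hil a ha e he
    have f1 : refl Q (a - c) e = e :=
      refl_apply_of_polar_eq_zero Q (by rw [polar_sub_left, hae, hce, sub_zero])
    have fa : (refl Q (a - c) * refl Q (a - e) * refl Q (a - c) * refl Q (a - e)) a = c := by
      simp only [LinearEquiv.mul_apply, e3, f1, e4, e1]
    have hca' : polar Q c a' = 0 := by rw [polar_comm]; exact horth i j hij a' ha' c hc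
    have hea' : polar Q e a' = 0 := by rw [polar_comm]; exact horth i l hil a' ha' e he
    have f2 : refl Q (a - c) a' = a' :=
      refl_apply_of_polar_eq_zero Q (by rw [polar_sub_left, haa', hca', sub_zero])
    have f3 : refl Q (a - e) a' = a' :=
      refl_apply_of_polar_eq_zero Q (by rw [polar_sub_left, haa', hea', sub_zero])
    have fa' : (refl Q (a - c) * refl Q (a - e) * refl Q (a - c) * refl Q (a - e)) a' = a' := by
      simp only [LinearEquiv.mul_apply, f2, f3]
    have hc' : c ∈ D (σ i) := by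
      rw [← hσ]
      exact ⟨a, ha, fa⟩
    have ha'' : a' ∈ D (σ i) := by
      rw [← hσ]
      exact ⟨a', ha', fa'⟩
    have hσi : σ i = j := by
      by_contra hne
      have := horth (σ i) j hne c hc' c hc
      rw [polar_self, hQc, nsmul_eq_mul] at this
      push_cast at this
      exact (mul_ne_zero h2 hε) this
    rw [hσi] at ha''
    apply ha'0
    apply hnd i a' ha'
    intro z hz
    exact horth i j hij z hz a' ha''

include h2 hε horth in
lemma exists_not_frame {i1 i2 i3 i4 i5 : Fin t} (h15 : i1 ≠ i5) (h25 : i2 ≠ i5) (h35 : i3 ≠ i5)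
    (h45 : i4 ≠ i5) (h12 : i1 ≠ i2) (h13 : i1 ≠ i3) (h14 : i1 ≠ i4) (h23 : i2 ≠ i3) (h24 : i2 ≠ i4)
    (h34 : i3 ≠ i4)
    {a b c d e : V} (ha : a ∈ D i1) (hb : b ∈ D i2) (hc : c ∈ D i3) (hd : d ∈ D i4) (he : e ∈ D i5)
    (hQa : Q a = ε) (hQb : Q b = ε) (hQc : Q c = ε) (hQd : Q d = ε) (hQe : Q e = ε) :
    ∃ φ ∈ Om Q, φ ∉ setStab (F := F) (frameSet Q D ε) := by
  obtain ⟨e1, e2⟩ := swap_facts Q D ε h2 hε horth h15 ha he hQa hQe
  refine ⟨refl Q (a - e) * refl Q (a + b + c + d) * (refl Q (a - e))⁻¹ * (refl Q (a + b + c + d))⁻¹,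
    comm_mem_Om (refl_mem Q _) (refl_mem Q _), fun hmem => ?_⟩
  rw [refl_inv, refl_inv] at hmem
  have pab := horth _ _ h12 a ha b hb
  have pac := horth _ _ h13 a ha c hc
  have pad := horth _ _ h14 a ha d hd
  have pae := horth _ _ h15 a ha e he
  have pbc := horth _ _ h23 b hb c hc
  have pbd := horth _ _ h24 b hb d hd
  have pbe := horth _ _ h25 b hb e he
  have pcd := horth _ _ h34 c hc d hd
  have pce := horth _ _ h35 c hc e he
  have pde := horth _ _ h45 d hd e he
  have hQx : Q (a + b + c + d) = 4 * ε := by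
    rw [QuadraticMap.map_add (⇑Q), QuadraticMap.map_add (⇑Q), QuadraticMap.map_add (⇑Q)]
    simp only [polar_add_left, pab, pac, pad, pbc, pbd, pcd, hQa, hQb, hQc, hQd]
    ring
  have h4ε : 4 * ε ≠ 0 := by
    have : (4 : F) = 2 * 2 := by norm_num
    rw [this]
    exact mul_ne_zero (mul_ne_zero h2 h2) hε
  have f1 : refl Q (a + b + c + d) e = e :=
    refl_apply_of_polar_eq_zero Q (by simp only [polar_add_left, pae, pbe, pce, pde, add_zero])
  have f2 : refl Q (a + b + c + d) a = a - (2 : F)⁻¹ • (a + b + c + d) := by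
    rw [refl_apply, hQx]
    simp only [polar_add_left, polar_self, hQa, polar_comm Q b a, polar_comm Q c a, polar_comm Q d a,
      pab, pac, pad, add_zero]
    congr 2
    have h4 : (4 : F) ≠ 0 := by
      have : (4 : F) = 2 * 2 := by norm_num
      rw [this]
      exact mul_ne_zero h2 h2
    rw [nsmul_eq_mul]; push_cast; field_simp; norm_num
  have fb : refl Q (a - e) b = b :=
    refl_apply_of_polar_eq_zero Q (by rw [polar_sub_left, pab, polar_comm Q e b, pbe, sub_zero])
  have fc : refl Q (a - e) c = c :=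
    refl_apply_of_polar_eq_zero Q (by rw [polar_sub_left, pac, polar_comm Q e c, pce, sub_zero])
  have fd : refl Q (a - e) d = d :=
    refl_apply_of_polar_eq_zero Q (by rw [polar_sub_left, pad, polar_comm Q e d, pde, sub_zero])
  have key : (refl Q (a - e) * refl Q (a + b + c + d) * refl Q (a - e) * refl Q (a + b + c + d)) e
      = e - (2 : F)⁻¹ • (e + b + c + d) := by
    simp only [LinearEquiv.mul_apply, f1, e2, f2, map_sub, map_smul, map_add, e1, fb, fc, fd]
  have hin : e ∈ frameSet Q D ε := ⟨i5, he, hQe⟩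
  obtain ⟨l, hl, -⟩ := (hmem e).1 hin
  rw [key] at hl
  have g1 : polar Q (e - (2 : F)⁻¹ • (e + b + c + d)) e = ε := by
    simp only [polar_sub_left, polar_smul_left, polar_add_left, polar_self, hQe, pbe, pce, pde,
      add_zero, smul_eq_mul, nsmul_eq_mul]
    push_cast
    rw [inv_mul_cancel_left₀ h2]; ring
  have g2 : polar Q (e - (2 : F)⁻¹ • (e + b + c + d)) b = -ε := by
    simp only [polar_sub_left, polar_smul_left, polar_add_left, polar_self, hQb, polar_comm Q e b, pbe,
      polar_comm Q c b, pbc, polar_comm Q d b, pbd, add_zero, zero_add, smul_eq_mul, nsmul_eq_mul]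
    push_cast
    rw [inv_mul_cancel_left₀ h2]; ring
  have l5 : l = i5 := by
    by_contra hne
    rw [horth l i5 hne _ hl e he] at g1
    exact hε g1.symm
  have l2 : l = i2 := by
    by_contra hne
    rw [horth l i2 hne _ hl b hb] at g2
    exact hε (by linear_combination g2)
  exact h25 (l2.symm.trans l5)

end frame

section aniso

variable (Q : QuadraticForm F V) (W : Submodule F V)

/-- the orthogonal complement of `v` in `W` is anisotropic -/
def Aniso (v : V) : Prop := ∀ z ∈ W, polar Q v z = 0 → Q z = 0 → z = 0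

variable {Q W}

lemma Aniso.of_norm_eq (h2 : (2 : F) ≠ 0) {a v : V} (ha : a ∈ W) (hv : v ∈ W) (hQ : Q v = Q a)
    (hne : Q a ≠ 0) (h : Aniso Q W a) : Aniso Q W v := by
  have hstab : ∀ u ∈ W, ∀ x ∈ W, refl Q u x ∈ W := by
    intro u hu x hx
    rw [refl_apply]
    exact W.sub_mem hx (W.smul_mem _ hu)
  have hinj : ∀ u z, refl Q u z = 0 → z = 0 := by
    intro u z hz
    exact (refl Q u).injective (by rw [hz, map_zero])
  by_cases h1 : Q (v - a) = 0
  · have h3 : Q (v - -a) ≠ 0 := by
      intro h4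
      have e1 := Q_add_smul Q v a (-1)
      have e2 := Q_add_smul Q v a 1
      simp only [neg_smul, one_smul, ← sub_eq_add_neg] at e1 e2
      rw [sub_neg_eq_add] at h4
      rw [h1] at e1
      rw [h4] at e2
      have : 2 * (2 * Q a) = 0 := by rw [hQ] at e1 e2; linear_combination -e1 - e2
      exact (mul_ne_zero h2 (mul_ne_zero h2 hne)) this
    have hr : refl Q (v - -a) v = -a := refl_sub_apply (by rw [QuadraticMap.map_neg, hQ]) h3
    intro z hz hvz hQz
    apply hinj (v - -a)
    apply h _ (hstab _ (W.sub_mem hv (W.neg_mem ha)) z hz)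
    · have := OQ_polar (refl_mem Q (v - -a)) v z
      rw [hr, hvz, polar_neg_left] at this
      exact neg_eq_zero.1 this
    · rw [mem_OQ.1 (refl_mem Q _)]; exact hQz
  · have hr : refl Q (v - a) v = a := refl_sub_apply hQ h1
    intro z hz hvz hQz
    apply hinj (v - a)
    apply h _ (hstab _ (W.sub_mem hv ha) z hz)
    · have := OQ_polar (refl_mem Q (v - a)) v z
      rw [hr, hvz] at this
      exact this
    · rw [mem_OQ.1 (refl_mem Q _)]; exact hQz

lemma exists_nonsingular (hnd : ∀ w ∈ W, (∀ z ∈ W, polar Q z w = 0) → w = 0) (hW : W ≠ ⊥) :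
    ∃ y ∈ W, Q y ≠ 0 := by
  obtain ⟨w, hw, hw0⟩ := Submodule.exists_mem_ne_zero_of_ne_bot hW
  have : ∃ z ∈ W, polar Q z w ≠ 0 := by
    by_contra hcon
    push Not at hcon
    exact hw0 (hnd w hw hcon)
  obtain ⟨z, hz, hzw⟩ := this
  by_cases h1 : Q z = 0
  · by_cases h2 : Q w = 0
    · refine ⟨z + w, W.add_mem hz hw, ?_⟩
      rw [QuadraticMap.map_add (⇑Q), h1, h2]
      simpa using hzw
    · exact ⟨w, hw, h2⟩
  · exact ⟨z, hz, h1⟩

lemma exists_perp_ne_zero [FiniteDimensional F V] (h2 : (2 : F) ≠ 0) (hfr : 2 ≤ finrank F W) {a : V}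
    (ha : a ∈ W) (hQa : Q a ≠ 0) : ∃ a' ∈ W, a' ≠ 0 ∧ polar Q a a' = 0 := by
  obtain ⟨x, hx, hxa⟩ : ∃ x ∈ W, x ∉ Submodule.span F {a} := by
    by_contra hcon
    push Not at hcon
    have h1 := Submodule.finrank_mono (show W ≤ Submodule.span F {a} from hcon)
    have h3 := finrank_span_le_card (R := F) ({a} : Set V)
    simp at h3
    omega
  have h2a : 2 * Q a ≠ 0 := mul_ne_zero h2 hQa
  refine ⟨x - (polar Q a x / (2 * Q a)) • a, W.sub_mem hx (W.smul_mem _ ha), ?_, ?_⟩
  · intro h0
    apply hxa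
    rw [Submodule.mem_span_singleton]
    exact ⟨_, (sub_eq_zero.1 h0).symm⟩
  · rw [polar_sub_right, polar_smul_right, polar_self, nsmul_eq_mul, smul_eq_mul]
    push_cast
    field_simp
    ring

/-- in a non-degenerate plane every non-singular vector has anisotropic complement -/
lemma aniso_of_plane [FiniteDimensional F V] (h2 : (2 : F) ≠ 0)
    (hnd : ∀ w ∈ W, (∀ z ∈ W, polar Q z w = 0) → w = 0) (hfr : finrank F W = 2) {v : V} (hv : v ∈ W)
    (hQv : Q v ≠ 0) : Aniso Q W v := by
  intro z hz hvz hQz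
  apply hnd z hz
  intro x hx
  by_contra hp
  have hli : LinearIndependent F ![(⟨v, hv⟩ : W), ⟨z, hz⟩, ⟨x, hx⟩] := by
    rw [Fintype.linearIndependent_iff]
    intro g hg
    have hsum : g 0 • v + g 1 • z + g 2 • x = 0 := by
      have := congrArg (Subtype.val) hg
      simpa [Fin.sum_univ_three] using this
    have e2 : g 2 = 0 := by
      have := congrArg (fun y => polar Q y z) hsum
      simp only [polar_add_left, polar_smul_left, hvz, polar_self, hQz, smul_eq_mul, mul_zero,
        smul_zero, zero_add, polar_zero_left] at this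
      exact (mul_eq_zero.1 this).resolve_right hp
    have e0 : g 0 = 0 := by
      have := congrArg (fun y => polar Q y v) hsum
      simp only [polar_add_left, polar_smul_left, polar_comm Q z v, hvz, polar_self, e2, smul_eq_mul,
        mul_zero, zero_mul, add_zero, polar_zero_left, nsmul_eq_mul] at this
      push_cast at this
      exact (mul_eq_zero.1 this).resolve_right (mul_ne_zero h2 hQv)
    have hz0 : z ≠ 0 := by
      rintro rfl
      simp at hp
    have e1 : g 1 = 0 := by
      rw [e0, e2, zero_smul, zero_smul, zero_add, add_zero] at hsum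
      exact (smul_eq_zero.1 hsum).resolve_right hz0
    intro i
    fin_cases i
    · exact e0
    · exact e1
    · exact e2
  have := hli.fintype_card_le_finrank
  rw [hfr] at this
  simp at this

end aniso

section f3

variable {Q : QuadraticForm F V} {W : Submodule F V}
variable (h3 : ∀ x : F, x = 0 ∨ x = 1 ∨ x = -1) (h30 : (3 : F) = 0)

include h3 in
lemma f3_sq {x : F} (hx : x ≠ 0) : x * x = 1 := by
  rcases h3 x with h | h | h
  · exact absurd h hx
  · rw [h]; ring
  · rw [h]; ring

include h3 h30 in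
lemma f3_sum_sq {x y : F} (h : x * x + y * y = 0) : x = 0 ∧ y = 0 := by
  have h10 : (1 : F) ≠ 0 := one_ne_zero
  by_cases hx : x = 0
  · by_cases hy : y = 0
    · exact ⟨hx, hy⟩
    · rw [hx, f3_sq h3 hy] at h
      exact absurd (by linear_combination h) h10
  · by_cases hy : y = 0
    · rw [hy, f3_sq h3 hx] at h
      exact absurd (by linear_combination h) h10
    · rw [f3_sq h3 hx, f3_sq h3 hy] at h
      exact absurd (by linear_combination h30 - h) h10

include h3 h30 in
/-- over the field with three elements, two vectors of the same norm with anisotropic complements are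
equal, opposite or orthogonal -/
lemma fp_of_aniso {v w : V} (hv : v ∈ W) (hw : w ∈ W) (hne : Q v ≠ 0) (hQ : Q w = Q v)
    (h : Aniso Q W v) : w = v ∨ w = -v ∨ polar Q v w = 0 := by
  by_cases hβ : polar Q v w = 0
  · exact Or.inr (Or.inr hβ)
  have e1 := f3_sq h3 hne
  have e2 := f3_sq h3 hβ
  set s : F := Q v * polar Q v w with hs
  have hz : v + s • w = 0 := by
    apply h _ (W.add_mem hv (W.smul_mem _ hw))
    · rw [polar_add_right, polar_smul_right, polar_self, nsmul_eq_mul, smul_eq_mul, hs]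
      push_cast
      linear_combination (Q v) * e2 + (Q v) * h30
    · rw [Q_add_smul, hQ, hs]
      linear_combination (Q v * polar Q v w * polar Q v w) * e1 + (2 * Q v) * e2 + (Q v) * h30
  have hs0 : s ≠ 0 := mul_ne_zero hne hβ
  rcases h3 s with h | h | h
  · exact absurd h hs0
  · right; left
    rw [h, one_smul] at hz
    exact (neg_eq_of_add_eq_zero_right hz).symm
  · left
    rw [h, neg_smul, one_smul] at hz
    exact (sub_eq_zero.1 (by rw [sub_eq_add_neg]; exact hz)).symm

include h3 h30 in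
/-- a non-degenerate space of dimension three over the field with three elements has a non-singular
vector with anisotropic complement -/
lemma exists_aniso_three [FiniteDimensional F V]
    (hnd : ∀ w ∈ W, (∀ z ∈ W, polar Q z w = 0) → w = 0) (hfr : finrank F W = 3) :
    ∃ a ∈ W, Q a ≠ 0 ∧ Aniso Q W a := by
  have h2 : (2 : F) ≠ 0 := by
    intro h
    exact one_ne_zero (show (1 : F) = 0 by linear_combination h30 - h)
  have hW : W ≠ ⊥ := by
    rintro rfl
    simp at hfr
  obtain ⟨y, hy, hQy⟩ := exists_nonsingular hnd hW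
  by_cases hA : Aniso Q W y
  · exact ⟨y, hy, hQy, hA⟩
  unfold Aniso at hA
  push Not at hA
  obtain ⟨z, hz, hyz, hQz, hz0⟩ := hA
  set δ := Q y with hδ
  have hδδ : δ * δ = 1 := f3_sq h3 hQy
  have h2δ : 2 * δ ≠ 0 := mul_ne_zero h2 hQy
  -- a hyperbolic partner of `z` orthogonal to `y`
  obtain ⟨w, hw, hwz⟩ : ∃ w ∈ W, polar Q w z ≠ 0 := by
    by_contra hcon
    push Not at hcon
    exact hz0 (hnd z hz hcon)
  set w₁ : V := w - (polar Q y w / (2 * δ)) • y with hw₁
  have hw₁W : w₁ ∈ W := W.sub_mem hw (W.smul_mem _ hy)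
  have hyw₁ : polar Q y w₁ = 0 := by
    rw [hw₁, polar_sub_right, polar_smul_right, polar_self, nsmul_eq_mul, smul_eq_mul, ← hδ]
    push_cast
    field_simp
    ring
  have hw₁z : polar Q w₁ z = polar Q w z := by
    rw [hw₁, polar_sub_left, polar_smul_left, hyz]; simp
  set w₂ : V := (polar Q w z)⁻¹ • w₁ with hw₂
  have hw₂W : w₂ ∈ W := W.smul_mem _ hw₁W
  have hyw₂ : polar Q y w₂ = 0 := by rw [hw₂, polar_smul_right, hyw₁, smul_zero]
  have hw₂z : polar Q w₂ z = 1 := by
    rw [hw₂, polar_smul_left, hw₁z, smul_eq_mul, inv_mul_cancel₀ hwz]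
  set z' : V := w₂ + (-Q w₂) • z with hz'
  have hz'W : z' ∈ W := W.add_mem hw₂W (W.smul_mem _ hz)
  have hQz' : Q z' = 0 := by rw [hz', Q_add_smul, hQz, hw₂z]; ring
  have hyz' : polar Q y z' = 0 := by
    rw [hz', polar_add_right, hyw₂, polar_smul_right, hyz]; simp
  have hzz' : polar Q z z' = 1 := by
    rw [hz', polar_add_right, polar_comm Q z w₂, hw₂z, polar_smul_right, polar_self, hQz]; simp
  -- expansion in the basis `y, z, z'`
  have hexp : ∀ x ∈ W, x = (polar Q y x / (2 * δ)) • y + polar Q z' x • z + polar Q z x • z' := by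
    intro x hx
    set x' : V := x - ((polar Q y x / (2 * δ)) • y + polar Q z' x • z + polar Q z x • z') with hx'
    have hx'W : x' ∈ W := W.sub_mem hx (W.add_mem (W.add_mem (W.smul_mem _ hy) (W.smul_mem _ hz))
      (W.smul_mem _ hz'W))
    have p1 : polar Q y x' = 0 := by
      rw [hx']
      simp only [polar_sub_right, polar_add_right, polar_smul_right, polar_self, hyz, hyz', ← hδ,
        smul_eq_mul, nsmul_eq_mul, mul_zero, add_zero]
      push_cast
      field_simp
      ring
    have p2 : polar Q z x' = 0 := by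
      rw [hx']
      simp only [polar_sub_right, polar_add_right, polar_smul_right, polar_self, polar_comm Q z y, hyz,
        hzz', hQz, smul_eq_mul, nsmul_eq_mul, mul_zero, add_zero, zero_add, mul_one, sub_self]
    have p3 : polar Q z' x' = 0 := by
      rw [hx']
      simp only [polar_sub_right, polar_add_right, polar_smul_right, polar_self, polar_comm Q z' y, hyz',
        polar_comm Q z' z, hzz', hQz', smul_eq_mul, nsmul_eq_mul, mul_zero, add_zero, zero_add, mul_one,
        sub_self]
    have hx'0 : x' = 0 := by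
      by_contra hne
      have hli : LinearIndependent F ![(⟨y, hy⟩ : W), ⟨z, hz⟩, ⟨z', hz'W⟩, ⟨x', hx'W⟩] := by
        rw [Fintype.linearIndependent_iff]
        intro g hg
        have hsum : g 0 • y + g 1 • z + g 2 • z' + g 3 • x' = 0 := by
          have := congrArg (Subtype.val) hg
          simpa [Fin.sum_univ_four] using this
        have e0 : g 0 = 0 := by
          have := congrArg (fun u => polar Q y u) hsum
          simp only [polar_add_right, polar_smul_right, polar_self, hyz, hyz', p1, ← hδ, smul_eq_mul,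
            nsmul_eq_mul, mul_zero, add_zero, polar_zero_right] at this
          push_cast at this
          exact (mul_eq_zero.1 this).resolve_right h2δ
        have e1 : g 1 = 0 := by
          have := congrArg (fun u => polar Q z' u) hsum
          simp only [polar_add_right, polar_smul_right, polar_self, polar_comm Q z' y, hyz',
            polar_comm Q z' z, hzz', hQz', p3, smul_eq_mul, nsmul_eq_mul, mul_zero, add_zero, zero_add,
            mul_one, polar_zero_right] at this
          exact this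
        have e2 : g 2 = 0 := by
          have := congrArg (fun u => polar Q z u) hsum
          simp only [polar_add_right, polar_smul_right, polar_self, polar_comm Q z y, hyz,
            hzz', hQz, p2, smul_eq_mul, nsmul_eq_mul, mul_zero, add_zero, zero_add,
            mul_one, polar_zero_right] at this
          exact this
        have e3 : g 3 = 0 := by
          rw [e0, e1, e2, zero_smul, zero_smul, zero_smul, zero_add, zero_add, zero_add] at hsum
          exact (smul_eq_zero.1 hsum).resolve_right hne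
        intro i
        fin_cases i
        · exact e0
        · exact e1
        · exact e2
        · exact e3
      have := hli.fintype_card_le_finrank
      rw [hfr] at this
      simp at this
    exact sub_eq_zero.1 hx'0
  refine ⟨z + (-δ) • z', W.add_mem hz (W.smul_mem _ hz'W), ?_, ?_⟩
  · rw [Q_add_smul, hQz, hQz', hzz']
    simpa using hQy
  · intro x hx hax hQx
    rw [polar_add_left, polar_smul_left, smul_eq_mul] at hax
    have hγ : polar Q z x = δ * polar Q z' x := by linear_combination hax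
    have hx2 := hexp x hx
    set α := polar Q y x / (2 * δ) with hα
    set β := polar Q z' x with hβ
    rw [hγ] at hx2
    have hQx2 : Q x = δ * (α * α + β * β) := by
      rw [hx2, QuadraticMap.map_add (⇑Q), QuadraticMap.map_add (⇑Q)]
      simp only [QuadraticMap.map_smul, polar_add_left, polar_smul_left, polar_smul_right, hyz, hyz',
        hzz', hQz, hQz', ← hδ, smul_eq_mul]
      ring
    rw [hQx] at hQx2
    have := (mul_eq_zero.1 hQx2.symm).resolve_left hQy
    obtain ⟨ha0, hb0⟩ := f3_sum_sq h3 h30 this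
    rw [hx2, ha0, hb0]
    simp

end f3

section wrap

variable {ι : Type} [Fintype ι] [DecidableEq ι] {F : Type*} [Field F]

/-- general frame criterion in matrix form -/
theorem frame_not_maximal (Q : QuadraticForm F (ι → F)) {t : ℕ} (D : Fin t → Submodule F (ι → F))
    (ε : F) (h2 : (2 : F) ≠ 0) (hε : ε ≠ 0)
    (horth : ∀ i j, i ≠ j → ∀ u ∈ D i, ∀ v ∈ D j, polar Q u v = 0)
    (hnd : ∀ i, ∀ w ∈ D i, (∀ z ∈ D i, polar Q z w = 0) → w = 0)
    (FP : ∀ i, ∀ v ∈ D i, ∀ w ∈ D i, Q v = ε → Q w = ε → w = v ∨ w = -v ∨ polar Q v w = 0)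
    (a : Fin t → (ι → F)) (ha : ∀ i, a i ∈ D i) (hQa : ∀ i, Q (a i) = ε) (ht : 5 ≤ t)
    (a' : ι → F) (ha' : a' ∈ D ⟨0, by omega⟩) (ha'0 : a' ≠ 0) (haa' : polar Q (a ⟨0, by omega⟩) a' = 0) :
    ∃ K : Subgroup (Matrix.GeneralLinearGroup ι F),
      Cfsg.Geo.decompositionStabilizer D ⊓ Cfsg.Geo.omegaGL ⇑Q < K ∧ K < Cfsg.Geo.omegaGL ⇑Q := by
  have hne : ∀ x y : ℕ, ∀ (hx : x < t) (hy : y < t), x ≠ y → (⟨x, hx⟩ : Fin t) ≠ ⟨y, hy⟩ := by
    intro x y hx hy hxy h
    exact hxy (congrArg Fin.val h)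
  refine omega_not_maximal Q (Cfsg.Geo.decompositionStabilizer D) (DecStab D)
    (fun φ => φ ∈ setStab (F := F) (frameSet Q D ε))
    (fun g => mem_decompositionStabilizer_iff D g)
    ((setStab (F := F) (frameSet Q D ε)).comap (glEquiv ι F).toMonoidHom) (fun g => Iff.rfl)
    (fun φ hφ hs => decStab_mem_setStab Q D ε (Om_le_OQ Q hφ) hs) ?_ ?_
  · exact exists_frame_not_decStab Q D ε h2 hε horth hnd FP
      (hne 0 1 (by omega) (by omega) (by omega)) (hne 0 2 (by omega) (by omega) (by omega))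
      (hne 1 2 (by omega) (by omega) (by omega)) (ha _) (ha _) (ha _) (hQa _) (hQa _) (hQa _)
      ha' ha'0 haa'
  · exact exists_not_frame Q D ε h2 hε horth
      (hne 0 4 (by omega) (by omega) (by omega)) (hne 1 4 (by omega) (by omega) (by omega))
      (hne 2 4 (by omega) (by omega) (by omega)) (hne 3 4 (by omega) (by omega) (by omega))
      (hne 0 1 (by omega) (by omega) (by omega)) (hne 0 2 (by omega) (by omega) (by omega))
      (hne 0 3 (by omega) (by omega) (by omega)) (hne 1 2 (by omega) (by omega) (by omega))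
      (hne 1 3 (by omega) (by omega) (by omega)) (hne 2 3 (by omega) (by omega) (by omega))
      (ha _) (ha _) (ha _) (ha _) (ha _) (hQa _) (hQa _) (hQa _) (hQa _) (hQa _)

theorem f3_not_maximal [Fintype F] (hq : Fintype.card F = 3) (Q : QuadraticForm F (ι → F)) {t k : ℕ}
    (D : Fin t → Submodule F (ι → F)) (hk : k = 2 ∨ k = 3)
    (hD : Cfsg.Geo.IsOrthogonalMDecomposition ⇑Q k D) (hn : 13 ≤ Fintype.card ι) :
    ∃ K : Subgroup (Matrix.GeneralLinearGroup ι F),
      Cfsg.Geo.decompositionStabilizer D ⊓ Cfsg.Geo.omegaGL ⇑Q < K ∧ K < Cfsg.Geo.omegaGL ⇑Q := by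
  classical
  have h30 : (3 : F) = 0 := by
    have := Nat.cast_card_eq_zero F
    rw [hq] at this
    exact_mod_cast this
  have h2 : (2 : F) ≠ 0 := by
    intro h
    exact one_ne_zero (show (1 : F) = 0 by linear_combination h30 - h)
  have h3 : ∀ x : F, x = 0 ∨ x = 1 ∨ x = -1 := by
    intro x
    by_contra hcon
    push Not at hcon
    have h1n : (1 : F) ≠ -1 := by
      intro h
      exact h2 (by linear_combination h)
    have h0n : (0 : F) ≠ -1 := by
      intro h
      exact one_ne_zero (show (1 : F) = 0 by linear_combination h)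
    have h4 : ({0, 1, -1, x} : Finset F).card = 4 := by
      rw [Finset.card_insert_of_notMem (by simp [zero_ne_one, h0n, Ne.symm hcon.1]),
        Finset.card_insert_of_notMem (by simp [h1n, Ne.symm hcon.2.1]),
        Finset.card_insert_of_notMem (by simp [Ne.symm hcon.2.2]), Finset.card_singleton]
    have := Finset.card_le_univ ({0, 1, -1, x} : Finset F)
    rw [h4, hq] at this
    omega
  obtain ⟨bs, -, -⟩ := exists_adapted_basis D hD.decomp.decomp.finrank_eq hD.decomp.decomp.indep
    hD.decomp.decomp.iSup_eq_top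
  have htk : Fintype.card ι = t * k := by
    have := card_mul_eq bs
    rwa [Module.finrank_fintype_fun_eq_card] at this
  have ht : 5 ≤ t := by
    rcases hk with rfl | rfl <;> omega
  have horth : ∀ i j, i ≠ j → ∀ u ∈ D i, ∀ v ∈ D j, polar Q u v = 0 :=
    fun i j hij u hu v hv => hD.decomp.orthogonal i j hij u hu v hv
  have hnd : ∀ i, ∀ w ∈ D i, (∀ z ∈ D i, polar Q z w = 0) → w = 0 := by
    intro i w hw hz
    by_contra h0
    obtain ⟨x, hx, hne⟩ := (hD.decomp.nondegenerate i w hw h0).1
    exact hne (hz x hx)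
  have hfr := hD.decomp.decomp.finrank_eq
  obtain ⟨a₀, ha₀, hQa₀, hA₀⟩ : ∃ a ∈ D ⟨0, by omega⟩, Q a ≠ 0 ∧ Aniso Q (D ⟨0, by omega⟩) a := by
    rcases hk with rfl | rfl
    · have hW : D ⟨0, by omega⟩ ≠ ⊥ := by
        intro hb
        have := hfr ⟨0, by omega⟩
        rw [hb] at this
        simp at this
      obtain ⟨y, hy, hQy⟩ := exists_nonsingular (hnd _) hW
      exact ⟨y, hy, hQy, aniso_of_plane h2 (hnd _) (hfr _) hy hQy⟩
    · exact exists_aniso_three h3 h30 (hnd _) (hfr _)
  choose e he using fun i => hD.isometric ⟨0, by omega⟩ i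
  have hpol : ∀ i (x y : D ⟨0, by omega⟩),
      polar Q ((e i x : D i) : ι → F) ((e i y : D i) : ι → F) = polar Q (x : ι → F) (y : ι → F) := by
    intro i x y
    have h1 := he i (x + y)
    rw [map_add] at h1
    unfold polar
    rw [← he i x, ← he i y]
    have : ((e i x + e i y : D i) : ι → F) = ((e i x : D i) : ι → F) + ((e i y : D i) : ι → F) := rfl
    rw [← this, h1]
    rfl
  set a : Fin t → (ι → F) := fun i => ((e i ⟨a₀, ha₀⟩ : D i) : ι → F) with ha
  have haD : ∀ i, a i ∈ D i := fun i => (e i ⟨a₀, ha₀⟩).2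
  have hQa : ∀ i, Q (a i) = Q a₀ := fun i => he i ⟨a₀, ha₀⟩
  have hAa : ∀ i, Aniso Q (D i) (a i) := by
    intro i z hz hp hQz
    obtain ⟨z₀, hz₀⟩ := (e i).surjective ⟨z, hz⟩
    have hz' : ((e i z₀ : D i) : ι → F) = z := by rw [hz₀]
    have h1 : polar Q a₀ (z₀ : ι → F) = 0 := by
      have := hpol i ⟨a₀, ha₀⟩ z₀
      rw [hz'] at this
      rw [← this]; exact hp
    have h4 : Q (z₀ : ι → F) = 0 := by
      rw [← he i z₀, hz']; exact hQz
    have h5 := hA₀ _ z₀.2 h1 h4
    have h6 : z₀ = 0 := Subtype.ext h5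
    rw [← hz', h6, map_zero]; rfl
  have FP : ∀ i, ∀ v ∈ D i, ∀ w ∈ D i, Q v = Q a₀ → Q w = Q a₀ → w = v ∨ w = -v ∨ polar Q v w = 0 := by
    intro i v hv w hw hQv hQw
    have hAv : Aniso Q (D i) v :=
      (hAa i).of_norm_eq h2 (haD i) hv (by rw [hQv, hQa]) (by rw [hQa]; exact hQa₀)
    exact fp_of_aniso h3 h30 hv hw (by rw [hQv]; exact hQa₀) (by rw [hQw, hQv]) hAv
  obtain ⟨a', ha', ha'0, haa'⟩ := exists_perp_ne_zero (Q := Q) h2
    (show 2 ≤ finrank F (D ⟨0, by omega⟩) by rw [hfr]; rcases hk with rfl | rfl <;> omega)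
    (haD ⟨0, by omega⟩) (by rw [hQa]; exact hQa₀)
  exact frame_not_maximal Q D (Q a₀) h2 hQa₀ horth hnd FP a haD hQa ht a' ha' ha'0 haa'

end wrap

end Cfsg.Agent.Lib.Helper94.OF
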