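import Mathlib
import Cfsg.Agent.Lib.Helper94.TensF3
import Cfsg.Agent.Lib.Helper94.HermF4
import Cfsg.Agent.Lib.Helper94.HermND

set_option autoImplicit false
set_option linter.unusedSimpArgs false
set_option linter.unusedSectionVars false

/-! # `GU₂(2) ⊗ GU_n(2)` is not maximal in `SU` -/

namespace Cfsg.Agent.Lib.Helper94.Tens

open Matrix Module
open Cfsg.Agent.Lib.Helper94 Cfsg.Agent.Lib.Helper94.U
open Cfsg.Agent.Lib.Helper13 (frobQ frobQ_apply frobQ_ne_id pow_q_pow_q)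

section pow

variable {F : Type*} [Field F] [Fintype F] {q : ℕ} {κ : Type} [Fintype κ] [DecidableEq κ]

/-- a unitary form given as a function, as a sesquilinear map (arguments swapped) -/
def powB (hF : Fintype.card F = q ^ 2) (f : (κ → F) → (κ → F) → F) (hf : Cfsg.Geo.IsUnitaryFormPow q f) :
    (κ → F) →ₛₗ[frobQ hF] (κ → F) →ₗ[F] F :=
  LinearMap.mk₂'ₛₗ (frobQ hF) (RingHom.id F) (fun x y => f y x)
    (fun m₁ m₂ y => by
      rw [hf.herm y (m₁ + m₂), hf.add_left, hf.herm y m₁, hf.herm y m₂]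
      exact map_add (frobQ hF) _ _)
    (fun c m y => by
      rw [hf.herm y (c • m), hf.smul_left, hf.herm y m, mul_pow]
      rfl)
    (fun m y₁ y₂ => hf.add_left y₁ y₂ m)
    (fun c m y => hf.smul_left c y m)

@[simp] lemma powB_apply (hF : Fintype.card F = q ^ 2) (f : (κ → F) → (κ → F) → F)
    (hf : Cfsg.Geo.IsUnitaryFormPow q f) (x y : κ → F) : powB hF f hf x y = f y x := rfl

lemma powB_hform (hF : Fintype.card F = q ^ 2) (f : (κ → F) → (κ → F) → F)
    (hf : Cfsg.Geo.IsUnitaryFormPow q f) : HForm (frobQ hF) (powB hF f hf) where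
  ne_id := frobQ_ne_id hF
  invol := fun a => pow_q_pow_q hF a
  symm := fun x y => (hf.herm x y).symm
  nondeg := by
    intro x hx
    by_contra h0
    obtain ⟨y, hy⟩ := (hf.nondegenerate x h0).1
    exact hy (hx y)

lemma formOfGram_gram_pow (hF : Fintype.card F = q ^ 2) (f : (κ → F) → (κ → F) → F)
    (hf : Cfsg.Geo.IsUnitaryFormPow q f) (x y : κ → F) :
    Cfsg.Geo.formOfGram (fun t : F => t ^ q) (Cfsg.Geo.gramMatrix f) x y = f x y := by
  unfold Cfsg.Geo.formOfGram Cfsg.Geo.gramMatrix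
  have hx : x = ∑ i, x i • (Pi.single i (1 : F) : κ → F) := by
    funext j; simp [Finset.sum_apply, Pi.single_apply]
  have hy : y = ∑ i, y i • (Pi.single i (1 : F) : κ → F) := by
    funext j; simp [Finset.sum_apply, Pi.single_apply]
  rw [← powB_apply hF f hf y x]
  conv_rhs => rw [hx, hy]
  simp only [map_sum, LinearMap.sum_apply, map_smul, map_smulₛₗ, LinearMap.smul_apply, powB_apply,
    smul_eq_mul, frobQ_apply]
  refine Finset.sum_congr rfl fun i _ => ?_
  rw [Finset.mul_sum]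
  refine Finset.sum_congr rfl fun j _ => ?_
  ring

variable {ι : Type} [Fintype ι] [DecidableEq ι] {n₁ n₂ : ℕ}

lemma form_pt_pow (hF : Fintype.card F = q ^ 2) (f : (ι → F) → (ι → F) → F)
    (f₁ : (Fin n₁ → F) → (Fin n₁ → F) → F)
    (f₂ : (Fin n₂ → F) → (Fin n₂ → F) → F) (hf₁ : Cfsg.Geo.IsUnitaryFormPow q f₁)
    (hf₂ : Cfsg.Geo.IsUnitaryFormPow q f₂) (e : ι ≃ Fin n₁ × Fin n₂) (P : Matrix.GeneralLinearGroup ι F)
    (hT : Cfsg.Geo.IsTensorFormStructure (fun t : F => t ^ q) f f₁ f₂ e P) :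
    ∃ c : F, c ≠ 0 ∧ ∀ a b a' b', f (pt e P a b) (pt e P a' b') = c * (f₁ a a' * f₂ b b') := by
  obtain ⟨c, hc, h⟩ := hT
  refine ⟨c, hc, fun a b a' b' => ?_⟩
  rw [pt_apply, pt_apply, h, formOfGram_kron _ (fun x y => mul_pow x y q), formOfGram_gram_pow hF f₁ hf₁,
    formOfGram_gram_pow hF f₂ hf₂]

end pow

section ur

variable {F V : Type*} [Field F] [AddCommGroup V] [Module F V]
variable {σ : F →+* F} {B : V →ₛₗ[σ] V →ₗ[F] F}

lemma ur_one_inv (H : HForm σ B) (h4 : F4Like σ) {w : V} (hw : B w w = 0) :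
    (ur H w 1 (one_cond h4 hw))⁻¹ = ur H w 1 (one_cond h4 hw) := by
  apply inv_eq_of_mul_eq_one_right
  ext x
  rw [LinearEquiv.mul_apply, ur_apply, ur_apply]
  simp only [map_add, map_smul, hw, smul_eq_mul, mul_zero, add_zero, one_mul, LinearEquiv.coe_one, id]
  rw [add_assoc, ← add_smul, h4.two, zero_smul, add_zero]

lemma exists_isotropic_f4 [Finite F] [FiniteDimensional F V] (H : HForm σ B) (h4 : F4Like σ)
    (hd : 2 < finrank F V) : ∃ u : V, u ≠ 0 ∧ B u u = 0 := by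
  obtain ⟨p, -, hp⟩ := exists_nonisotropic_perp H ⊥ (by simp; omega)
  obtain ⟨p', hp', hp'n⟩ := exists_nonisotropic_perp H (Submodule.span F {p}) (by
    have := finrank_span_le_card (R := F) ({p} : Set V)
    simp at this
    omega)
  rw [mem_perp_span_singleton] at hp'
  have h1 : B p p = 1 := (h4.fix _ (H.norm_fixed p)).resolve_left hp
  have h2 : B p' p' = 1 := (h4.fix _ (H.norm_fixed p')).resolve_left hp'n
  refine ⟨p + p', ?_, ?_⟩
  · intro h0
    have : B p (p + p') = 1 := by rw [map_add, h1, hp', add_zero]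
    rw [h0, map_zero] at this
    exact zero_ne_one this
  · rw [H.norm_add, h1, h2, hp', h4.two]; simp

end ur

section main

variable {F : Type*} [Field F] [Fintype F] {n : ℕ}

theorem f4_tensor_not_maximal (hF : Fintype.card F = 2 ^ 2) (hn : 13 ≤ n) (n₂ : ℕ) (e : Fin n ≃ Fin 2 × Fin n₂)
    (P : Matrix.GeneralLinearGroup (Fin n) F) (f₁ : (Fin 2 → F) → (Fin 2 → F) → F)
    (f₂ : (Fin n₂ → F) → (Fin n₂ → F) → F) (hf₁ : Cfsg.Geo.IsUnitaryFormPow 2 f₁)
    (hf₂ : Cfsg.Geo.IsUnitaryFormPow 2 f₂)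
    (hT : Cfsg.Geo.IsTensorFormStructure (fun x : F => x ^ 2) (Cfsg.hermForm n F 2) f₁ f₂ e P) :
    ∃ K : Subgroup (Matrix.GeneralLinearGroup (Fin n) F),
      Cfsg.Geo.tensorProductSubgroup 2 n₂ e P ⊓ (Cfsg.GU n F 2 ⊓ Cfsg.Geo.specialLinear (Fin n) F) < K ∧
      K < (Cfsg.GU n F 2 ⊓ Cfsg.Geo.specialLinear (Fin n) F) := by
  classical
  have h4 := f4Like hF
  have H := stdB_hform (n := n) hF
  set B₁ := powB hF f₁ hf₁ with hB₁
  set B₂ := powB hF f₂ hf₂ with hB₂
  have H₁ : HForm (frobQ hF) B₁ := powB_hform hF f₁ hf₁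
  have H₂ : HForm (frobQ hF) B₂ := powB_hform hF f₂ hf₂
  obtain ⟨p, -, p', -, hpp, hp'p', hpp', hsp⟩ := plane_basis H₁ h4 ⊤
    (fun w _ hw => H₁.nondeg w (fun y => H₁.eq_zero_comm.1 (hw y trivial))) (by simp)
  have hp'p : B₁ p' p = 0 := H₁.eq_zero_comm.1 hpp'
  have hli : LinearIndependent F ![p, p'] := by
    rw [LinearIndependent.pair_iff]
    intro x y hxy
    have e1 := congrArg (B₁ p) hxy
    have e2 := congrArg (B₁ p') hxy
    simp only [map_add, map_smul, hpp, hpp', hp'p, hp'p', smul_eq_mul, map_zero, mul_one, mul_zero,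
      add_zero, zero_add] at e1 e2
    exact ⟨e1, e2⟩
  let a : Module.Basis (Fin 2) F (Fin 2 → F) := basisOfLinearIndependentOfCardEqFinrank hli (by simp)
  have ha0 : a 0 = p := by simp [a]
  have ha1 : a 1 = p' := by simp [a]
  set T := pt e P with hTdef
  have hU : Function.Injective (Th T a) := by
    rw [injective_iff_map_eq_zero]
    intro y hy
    rw [Th_apply] at hy
    funext i
    exact sum_pt_eq_zero e P a a.linearIndependent y hy i
  obtain ⟨c, hc, hform⟩ := form_pt_pow hF (Cfsg.hermForm n F 2) f₁ f₂ hf₁ hf₂ e P hT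
  have hB : ∀ x y x' y', stdB n hF (T x y) (T x' y') = c * (B₁ x x' * B₂ y y') := by
    intro x y x' y'
    rw [stdB_apply]
    exact hform x' y' x y
  have hcard : n = 2 * n₂ := by
    have := Fintype.card_congr e
    simpa using this
  obtain ⟨u, hu, huu⟩ := exists_isotropic_f4 H₂ h4 (by simp; omega)
  obtain ⟨y₀, hy₀⟩ := H₂.exists_ne hu
  have hy₀' : B₂ y₀ u ≠ 0 := fun h => hy₀ (H₂.eq_zero_comm.1 h)
  have h00 : B₁ (a 0) (a 0) = 1 := by rw [ha0]; exact hpp
  have h11 : B₁ (a 1) (a 1) = 1 := by rw [ha1]; exact hp'p'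
  have h01 : B₁ (a 0) (a 1) = 0 := by rw [ha0, ha1]; exact hpp'
  have h10 : B₁ (a 1) (a 0) = 0 := by rw [ha0, ha1]; exact hp'p
  have core : ∀ φ, UIsom (stdB n hF) φ →
      (glEquiv _ F).symm φ ∈ Cfsg.Geo.tensorProductSubgroup 2 n₂ e P →
      ∀ v ∈ blocks T a, φ v ∈ blocks T a := by
    intro φ hI hst
    obtain ⟨A, B, hAB⟩ := exists_of_symm_mem e P φ hst
    obtain ⟨μ, hμ, hsim⟩ := simil_of_isom (fun y y' => B₂ y y') (fun x x' => B₁ x x') B A (by
        intro y y' x x'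
        have := hI (T x y) (T x' y')
        rw [hAB, hAB, hB, hB] at this
        have := mul_left_cancel₀ hc this
        linear_combination this) ⟨u, y₀, hy₀⟩ ⟨a 0, a 0, by rw [h00]; exact one_ne_zero⟩
    refine maps_blocks hAB ?_
    intro i
    have hni : B₁ (A (a i)) (A (a i)) ≠ 0 := by
      rw [hsim]
      refine mul_ne_zero hμ ?_
      fin_cases i
      · exact h00 ▸ one_ne_zero
      · exact h11 ▸ one_ne_zero
    have hv := hsp (A (a i)) trivial
    rcases plane_noniso H₁ h4 hpp hp'p' hpp' hv hni with h | h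
    · refine ⟨1, B₁ p' (A (a i)), ?_⟩
      rw [ha1]
      conv_lhs => rw [hv, h, zero_smul, zero_add]
    · refine ⟨0, B₁ p (A (a i)), ?_⟩
      rw [ha0]
      conv_lhs => rw [hv, h, zero_smul, add_zero]
  have hw0 : stdB n hF (T (a 0) u) (T (a 0) u) = 0 := by rw [hB, huu]; simp
  have hw1 : stdB n hF (T (a 0) u + T (a 1) u) (T (a 0) u + T (a 1) u) = 0 := by
    simp only [map_add, LinearMap.add_apply, hB, huu]; simp
  refine su_between hF _ (fun φ => (glEquiv _ F).symm φ ∈ Cfsg.Geo.tensorProductSubgroup 2 n₂ e P)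
    (fun g => by simp) (setStab (F := F) (blocks T a)) ?_ ?_ ?_
  · intro φ hI _ hst
    refine mem_setStab_of_maps (core φ hI hst) (core φ⁻¹ hI.inv ?_)
    rw [map_inv]
    exact inv_mem hst
  · refine ⟨ur H (T (a 0) u) 1 (one_cond h4 hw0), ur_isom _ _ _ _, by rw [ur_det, hw0]; simp, ?_, ?_⟩
    · have hblk : ∀ v ∈ blocks T a, ur H (T (a 0) u) 1 (one_cond h4 hw0) v ∈ blocks T a := by
        rintro v ⟨i, y, rfl⟩
        rw [ur_apply, hB]
        fin_cases i
        · exact ⟨0, y + (1 * (c * (B₁ (a 0) (a 0) * B₂ u y))) • u, by rw [map_add, map_smul]; rfl⟩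
        · refine ⟨1, y, ?_⟩
          change T (a 1) y + (1 * (c * (B₁ (a 0) (a 1) * B₂ u y))) • T (a 0) u = _
          rw [h01]; simp
      refine mem_setStab_of_maps hblk ?_
      rw [ur_one_inv H h4 hw0]
      exact hblk
    · intro hst
      obtain ⟨A, B, hAB⟩ := exists_of_symm_mem e P _ hst
      have h1 := hAB (a 0 + a 1) y₀
      have h2 : ur H (T (a 0) u) 1 (one_cond h4 hw0) (T (a 0 + a 1) y₀) =
          T (a 0) (y₀ + (c * B₂ u y₀) • u) + T (a 1) y₀ := by
        rw [ur_apply, hB, (B₁ (a 0)).map_add, h00, h01]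
        simp only [map_add, LinearMap.add_apply, map_smul, one_mul, add_zero]
        abel
      obtain ⟨ξ, ξ', e1, e2⟩ := pure_parallel hU (i := 0) (j := 1) (by decide) (h1.symm.trans h2)
      have hm := minor_eq e1 e2 (B₂ u) (B₂ y₀)
      simp only [map_add, map_smul, huu, smul_eq_mul, mul_zero, add_zero] at hm
      have : c * (B₂ u y₀ * B₂ u y₀ * B₂ y₀ u) = 0 := by linear_combination -hm
      exact mul_ne_zero hc (mul_ne_zero (mul_ne_zero hy₀ hy₀) hy₀') this
  · refine ⟨ur H (T (a 0) u + T (a 1) u) 1 (one_cond h4 hw1), ur_isom _ _ _ _, by rw [ur_det, hw1]; simp, ?_⟩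
    intro hmem
    have h1 := (hmem (T (a 0) y₀)).1 ⟨0, y₀, rfl⟩
    have h2 : ur H (T (a 0) u + T (a 1) u) 1 (one_cond h4 hw1) (T (a 0) y₀) =
        T (a 0) (y₀ + (c * B₂ u y₀) • u) + T (a 1) ((c * B₂ u y₀) • u) := by
      rw [ur_apply, map_add, LinearMap.add_apply, hB, hB, h00, h10]
      simp only [map_add, map_smul, one_mul, zero_mul, mul_zero, add_zero, smul_add]
      abel
    rw [h2] at h1
    have hκ : c * B₂ u y₀ ≠ 0 := mul_ne_zero hc hy₀
    refine two_comp_not_mem hU (by decide) ?_ (smul_ne_zero hκ hu) h1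
    intro h0
    have := congrArg (B₂ u) h0
    simp only [map_add, map_smul, huu, smul_eq_mul, mul_zero, add_zero, map_zero] at this
    exact hy₀ this

end main

end Cfsg.Agent.Lib.Helper94.Tens
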