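import Mathlib
import Cfsg.Agent.Lib.Helper94.SympDecomp
import Cfsg.Agent.Lib.Helper94.SympDecompWrap

set_option autoImplicit false
set_option linter.unusedSimpArgs false

namespace Cfsg.Agent.Lib.Helper94

open LinearMap (BilinForm)
open Module

variable {F V : Type*} [Field F] [AddCommGroup V] [Module F V]

/-- the linear automorphisms preserving a function -/
def funStab {α : Type*} (Q : V → α) : Subgroup (V ≃ₗ[F] V) where
  carrier := {g | ∀ v, Q (g v) = Q v}
  mul_mem' := by
    intro a b ha hb v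
    rw [LinearEquiv.mul_apply, ha, hb]
  one_mem' := by intro v; rfl
  inv_mem' := by
    intro a ha v
    have := ha (a⁻¹ v)
    rw [apply_inv_self'] at this
    exact this.symm

lemma symp_plane_basis [FiniteDimensional F V] (B : BilinForm F V) (hA : B.IsAlt) (W : Submodule F V)
    (hnd : ∀ w ∈ W, (∀ z ∈ W, B z w = 0) → w = 0) (hfr : finrank F W = 2) :
    ∃ a ∈ W, ∃ b ∈ W, B a b = 1 ∧ ∀ d ∈ W, ∃ x y : F, d = x • a + y • b := by
  have hW0 : W ≠ ⊥ := by
    rintro rfl
    simp at hfr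
  obtain ⟨b, hb, hb0⟩ := Submodule.exists_mem_ne_zero_of_ne_bot hW0
  have hex : ∃ z ∈ W, B z b ≠ 0 := by
    by_contra hcon
    push Not at hcon
    exact hb0 (hnd b hb hcon)
  obtain ⟨z, hz, hzb⟩ := hex
  set a := (B z b)⁻¹ • z with ha
  have haW : a ∈ W := W.smul_mem _ hz
  have hab : B a b = 1 := by
    rw [ha, map_smul, LinearMap.smul_apply, smul_eq_mul, inv_mul_cancel₀ hzb]
  refine ⟨a, haW, b, hb, hab, fun d hd => ?_⟩
  have hli : LinearIndependent F ![(⟨a, haW⟩ : W), ⟨b, hb⟩] := by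
    rw [Fintype.linearIndependent_iff]
    intro g hg
    have hsum : g 0 • a + g 1 • b = 0 := by
      have := congrArg (Subtype.val) hg
      simpa [Fin.sum_univ_two] using this
    have e1 : g 1 = 0 := by
      have := congrArg (B a) hsum
      simpa [map_add, map_smul, hA a, hab] using this
    have e0 : g 0 = 0 := by
      have := congrArg (fun x => B x b) hsum
      simpa [map_add, map_smul, hA b, hab] using this
    intro i
    fin_cases i
    · exact e0
    · exact e1
  have hspan : ⊤ ≤ Submodule.span F (Set.range ![(⟨a, haW⟩ : W), ⟨b, hb⟩]) := by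
    rw [hli.span_eq_top_of_card_eq_finrank' (by rw [hfr]; simp)]
  have hz' : (⟨d, hd⟩ : W) ∈ Submodule.span F (Set.range ![(⟨a, haW⟩ : W), ⟨b, hb⟩]) :=
    hspan Submodule.mem_top
  rw [Submodule.mem_span_range_iff_exists_fun] at hz'
  obtain ⟨c, hc⟩ := hz'
  refine ⟨c 0, c 1, ?_⟩
  have := congrArg (Subtype.val) hc
  simpa [Fin.sum_univ_two] using this.symm

section main

variable (B : BilinForm F V) (hA : B.IsAlt) {t : ℕ} (D : Fin t → Submodule F V)

open Classical in
/-- `1` if `v` has a non-zero component in `D i`, else `0` -/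
noncomputable def supp1 (i : Fin t) (v : V) : F := if ∀ d ∈ D i, B d v = 0 then 0 else 1

/-- the parity of the number of non-zero components -/
noncomputable def oddQ (v : V) : F := ∑ i, supp1 B D i v

lemma decStab_mem_funStab {φ : V ≃ₗ[F] V} (hφ : IsIsom B φ) (hs : DecStab D φ) :
    φ ∈ funStab (F := F) (oddQ B D) := by
  obtain ⟨s, hs⟩ := hs
  intro v
  unfold oddQ
  rw [← Equiv.sum_comp s]
  refine Finset.sum_congr rfl fun i _ => ?_
  unfold supp1
  have : (∀ d ∈ D (s i), B d (φ v) = 0) ↔ (∀ d ∈ D i, B d v = 0) := by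
    constructor
    · intro h d hd
      rw [← hφ d v]
      apply h
      rw [← hs i]
      exact Submodule.mem_map_of_mem hd
    · intro h d hd
      rw [← hs i] at hd
      obtain ⟨d', hd', rfl⟩ := hd
      change B (φ d') (φ v) = 0
      rw [hφ]; exact h d' hd'
  by_cases h : ∀ d ∈ D i, B d v = 0
  · rw [if_pos h, if_pos (this.2 h)]
  · rw [if_neg h, if_neg (fun h' => h (this.1 h'))]

variable (h2 : ∀ x : F, x = 0 ∨ x = 1)
  (a b : Fin t → V) (ha : ∀ i, a i ∈ D i) (hb : ∀ i, b i ∈ D i) (hab : ∀ i, B (a i) (b i) = 1)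
  (hsp : ∀ i, ∀ d ∈ D i, ∃ x y : F, d = x • a i + y • b i)
  (horth : ∀ i j, i ≠ j → ∀ u ∈ D i, ∀ v ∈ D j, B u v = 0)

include h2 in
lemma f2_two (x : F) : x + x = 0 := by
  have h1 : (1 : F) + 1 = 0 := by
    rcases h2 (1 + 1) with h | h
    · exact h
    · exfalso
      have : (1 : F) = 0 := by linear_combination h
      exact one_ne_zero this
  linear_combination x * h1

include h2 in
lemma f2_neg (x : F) : -x = x := by
  linear_combination (-1 : F) * f2_two h2 x

include h2 ha hb hsp in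
lemma supp1_eq (i : Fin t) (v : V) :
    supp1 B D i v = B (a i) v + B (a i) v * B (b i) v + B (b i) v := by
  unfold supp1
  split_ifs with h
  · rw [h _ (ha i), h _ (hb i)]; ring
  · have hne : ¬ (B (a i) v = 0 ∧ B (b i) v = 0) := by
      rintro ⟨h1, h3⟩
      apply h
      intro d hd
      obtain ⟨x, y, rfl⟩ := hsp i d hd
      rw [map_add, LinearMap.add_apply, map_smul, map_smul, LinearMap.smul_apply, LinearMap.smul_apply,
        h1, h3]
      simp
    have h11 := f2_two h2 1
    rcases h2 (B (a i) v) with h1 | h1 <;> rcases h2 (B (b i) v) with h3 | h3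
    · exact absurd ⟨h1, h3⟩ hne
    · rw [h1, h3]; ring
    · rw [h1, h3]; ring
    · rw [h1, h3]; linear_combination (-1 : F) * h11

include hA h2 ha hb hab hsp horth in
lemma oddQ_st (I : Finset (Fin t)) (x : V) :
    oddQ B D (st B hA (∑ i ∈ I, a i) 1 x) =
      oddQ B D x + B x (∑ i ∈ I, a i) * (B x (∑ i ∈ I, a i) + (I.card : F)) := by
  classical
  set c := ∑ i ∈ I, a i with hc
  have hac : ∀ j, B (a j) c = 0 := by
    intro j
    rw [hc, map_sum]
    refine Finset.sum_eq_zero fun i _ => ?_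
    by_cases hij : j = i
    · rw [hij, hA]
    · exact horth j i hij _ (ha j) _ (ha i)
  have hbc : ∀ j, B (b j) c = if j ∈ I then 1 else 0 := by
    intro j
    rw [hc, map_sum]
    have : ∀ i ∈ I, B (b j) (a i) = if i = j then 1 else 0 := by
      intro i _
      split_ifs with hij
      · rw [hij, alt_swap hA, hab, f2_neg h2]
      · exact horth j i (Ne.symm hij) _ (hb j) _ (ha i)
    rw [Finset.sum_congr rfl this, Finset.sum_ite_eq']
  have hlam : B x c = ∑ i ∈ I, B (a i) x := by
    rw [hc, map_sum]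
    refine Finset.sum_congr rfl fun i _ => ?_
    rw [alt_swap hA, f2_neg h2]
  set lam := B x c with hl
  have hterm : ∀ j, supp1 B D j (st B hA c 1 x) =
      supp1 B D j x + lam * (if j ∈ I then (B (a j) x + 1) else 0) := by
    intro j
    rw [supp1_eq B D h2 a b ha hb hsp, supp1_eq B D h2 a b ha hb hsp, st_apply, one_mul, map_add,
      map_add, map_smul, map_smul, hac, hbc]
    split_ifs
    · simp only [smul_eq_mul, mul_zero, add_zero, mul_one]; ring
    · simp
  unfold oddQ
  rw [Finset.sum_congr rfl (fun j _ => hterm j), Finset.sum_add_distrib, ← Finset.mul_sum,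
    Finset.sum_ite_mem, Finset.univ_inter, Finset.sum_add_distrib, ← hlam]
  simp

include hA h2 ha hb hab hsp horth in
lemma exists_oddQ_not_decStab (i1 i2 i3 : Fin t) (h12 : i1 ≠ i2) (h13 : i1 ≠ i3) (h23 : i2 ≠ i3) :
    ∃ φ : V ≃ₗ[F] V, IsIsom B φ ∧ φ ∈ funStab (F := F) (oddQ B D) ∧ ¬ DecStab D φ := by
  classical
  set I : Finset (Fin t) := {i1, i2, i3} with hI
  have hcard : I.card = 3 := Finset.card_eq_three.2 ⟨i1, i2, i3, h12, h13, h23, rfl⟩
  refine ⟨st B hA (∑ i ∈ I, a i) 1, st_isIsom _ _ _ _, ?_, ?_⟩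
  · intro v
    rw [oddQ_st B hA D h2 a b ha hb hab hsp horth, hcard]
    have h11 := f2_two h2 1
    rcases h2 (B v (∑ i ∈ I, a i)) with h | h
    · rw [h]; ring
    · rw [h]; push_cast; linear_combination 2 * h11
  · rintro ⟨s, hs⟩
    have hsum : ∑ i ∈ I, a i = a i1 + (a i2 + a i3) := by
      rw [hI, Finset.sum_insert (by simp [h12, h13]), Finset.sum_insert (by simp [h23]),
        Finset.sum_singleton]
    have hb1 : B (b i1) (∑ i ∈ I, a i) = 1 := by
      rw [hsum, map_add, map_add, alt_swap hA, hab, f2_neg h2, horth i1 i2 h12 _ (hb i1) _ (ha i2),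
        horth i1 i3 h13 _ (hb i1) _ (ha i3)]
      ring
    have himg : st B hA (∑ i ∈ I, a i) 1 (b i1) = b i1 + (a i1 + (a i2 + a i3)) := by
      rw [st_apply, hb1, hsum]; simp
    have hm : b i1 + (a i1 + (a i2 + a i3)) ∈ D (s i1) := by
      rw [← hs i1, ← himg]; exact Submodule.mem_map_of_mem (hb i1)
    have e2 : B (b i2) (b i1 + (a i1 + (a i2 + a i3))) = 1 := by
      rw [map_add, map_add, map_add, horth i2 i1 h12.symm _ (hb i2) _ (hb i1),
        horth i2 i1 h12.symm _ (hb i2) _ (ha i1), alt_swap hA (b i2), hab, f2_neg h2,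
        horth i2 i3 h23 _ (hb i2) _ (ha i3)]
      ring
    have e3 : B (b i3) (b i1 + (a i1 + (a i2 + a i3))) = 1 := by
      rw [map_add, map_add, map_add, horth i3 i1 h13.symm _ (hb i3) _ (hb i1),
        horth i3 i1 h13.symm _ (hb i3) _ (ha i1), alt_swap hA (b i3) (a i3), hab, f2_neg h2,
        horth i3 i2 h23.symm _ (hb i3) _ (ha i2)]
      ring
    have s2 : s i1 = i2 := by
      by_contra hne
      have := horth i2 (s i1) (Ne.symm hne) _ (hb i2) _ hm
      rw [e2] at this
      exact one_ne_zero this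
    have s3 : s i1 = i3 := by
      by_contra hne
      have := horth i3 (s i1) (Ne.symm hne) _ (hb i3) _ hm
      rw [e3] at this
      exact one_ne_zero this
    exact h23 (s2.symm.trans s3)

include hA h2 ha hb hab hsp horth in
lemma exists_not_oddQ (i1 i2 : Fin t) (h12 : i1 ≠ i2) :
    ∃ φ : V ≃ₗ[F] V, IsIsom B φ ∧ φ ∉ funStab (F := F) (oddQ B D) := by
  classical
  set I : Finset (Fin t) := {i1, i2} with hI
  have hcard : I.card = 2 := Finset.card_pair h12
  refine ⟨st B hA (∑ i ∈ I, a i) 1, st_isIsom _ _ _ _, fun h => ?_⟩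
  have h1 := h (b i1)
  rw [oddQ_st B hA D h2 a b ha hb hab hsp horth, hcard] at h1
  have hsum : ∑ i ∈ I, a i = a i1 + a i2 := by
    rw [hI, Finset.sum_insert (by simp [h12]), Finset.sum_singleton]
  have hb1 : B (b i1) (∑ i ∈ I, a i) = 1 := by
    rw [hsum, map_add, alt_swap hA, hab, f2_neg h2, horth i1 i2 h12 _ (hb i1) _ (ha i2)]
    ring
  rw [hb1] at h1
  have h11 := f2_two h2 1
  have : (1 : F) = 0 := by
    push_cast at h1
    linear_combination h1 - h11
  exact one_ne_zero this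

end main

section wrap

variable {F : Type*} [Field F]

theorem sp_between (m : ℕ) (S : Subgroup (Matrix.GeneralLinearGroup (Fin m ⊕ Fin m) F))
    (stab : ((Fin m ⊕ Fin m → F) ≃ₗ[F] (Fin m ⊕ Fin m → F)) → Prop)
    (hS : ∀ g, g ∈ S ↔ stab (glEquiv _ F g))
    (M : Subgroup ((Fin m ⊕ Fin m → F) ≃ₗ[F] (Fin m ⊕ Fin m → F)))
    (h1 : ∀ φ, IsIsom (sympB m F) φ → stab φ → φ ∈ M)
    (h2 : ∃ φ, IsIsom (sympB m F) φ ∧ φ ∈ M ∧ ¬ stab φ)
    (h3 : ∃ φ, IsIsom (sympB m F) φ ∧ φ ∉ M) :
    ∃ K : Subgroup (Matrix.GeneralLinearGroup (Fin m ⊕ Fin m) F),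
      S ⊓ Cfsg.spGL m F < K ∧ K < Cfsg.spGL m F := by
  refine ⟨M.comap (glEquiv _ F).toMonoidHom ⊓ Cfsg.spGL m F, ?_, ?_⟩
  · refine lt_of_le_of_ne ?_ ?_
    · intro g hg
      exact ⟨h1 _ ((mem_spGL_iff m g).1 hg.2) ((hS g).1 hg.1), hg.2⟩
    · intro heq
      obtain ⟨φ, hI, hM, hns⟩ := h2
      have hmem : (glEquiv _ F).symm φ ∈ M.comap (glEquiv _ F).toMonoidHom ⊓ Cfsg.spGL m F := by
        refine Subgroup.mem_inf.2 ⟨?_, ?_⟩
        · change glEquiv _ F ((glEquiv _ F).symm φ) ∈ M
          rw [MulEquiv.apply_symm_apply]; exact hM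
        · rw [mem_spGL_iff, MulEquiv.apply_symm_apply]; exact hI
      rw [← heq] at hmem
      have := (hS _).1 hmem.1
      rw [MulEquiv.apply_symm_apply] at this
      exact hns this
  · refine lt_of_le_of_ne inf_le_right ?_
    intro heq
    obtain ⟨φ, hI, hM⟩ := h3
    have hmem : (glEquiv _ F).symm φ ∈ Cfsg.spGL m F := by
      rw [mem_spGL_iff, MulEquiv.apply_symm_apply]; exact hI
    rw [← heq] at hmem
    have : glEquiv _ F ((glEquiv _ F).symm φ) ∈ M := hmem.1
    rw [MulEquiv.apply_symm_apply] at this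
    exact hM this

end wrap

end Cfsg.Agent.Lib.Helper94
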