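import Mathlib
import Cfsg.Agent.Lib.Helper94.HermLag

set_option autoImplicit false
set_option linter.unusedSimpArgs false

namespace Cfsg.Agent.Lib.Helper94.U

open Module
open Cfsg.Agent.Lib.Helper94

variable {F V : Type*} [Field F] [AddCommGroup V] [Module F V]
variable {σ : F →+* F} {B : V →ₛₗ[σ] V →ₗ[F] F}

/-- a family with a dual family is linearly independent -/
lemma linearIndependent_of_dual {ι : Type*} [Fintype ι] [DecidableEq ι] (v v' : ι → V)
    (h : ∀ i j, B (v' i) (v j) = if i = j then 1 else 0) : LinearIndependent F v := by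
  rw [Fintype.linearIndependent_iff]
  intro g hg i
  have := congrArg (B (v' i)) hg
  simpa [map_sum, map_smul, h, Finset.sum_ite_eq] using this

lemma coe_eq_sum_repr {ι : Type*} [Fintype ι] {W : Submodule F V} (b : Basis ι F W) {x : V}
    (hx : x ∈ W) : x = ∑ i, b.repr ⟨x, hx⟩ i • (b i : V) := by
  calc x = ((⟨x, hx⟩ : W) : V) := rfl
    _ = ((∑ i, b.repr ⟨x, hx⟩ i • b i : W) : V) := by rw [b.sum_repr]
    _ = _ := by
      rw [Submodule.coe_sum]
      rfl

/-- the hyperbolic rotation `e ↦ l e`, `f ↦ (σ l)⁻¹ f` -/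
lemma exists_hyp_rotation [FiniteDimensional F V] (H : HForm σ B) {e f : V} (he : B e e = 0)
    (hf : B f f = 0) (hfe : B f e = 1) (l : F) (hl : l ≠ 0) :
    ∃ p : V ≃ₗ[F] V, UIsom B p ∧ LinearMap.det (p : V →ₗ[F] V) = l * (σ l)⁻¹ ∧
      ∀ x, p x = x + ((l - 1) * B f x) • e + (((σ l)⁻¹ - 1) * B e x) • f := by
  have hef : B e f = 1 := by rw [← H.symm, hfe, map_one]
  have hs : σ l ≠ 0 := H.sigma_ne_zero hl
  have h1 : IsUnit (1 + ((l - 1) • B f) e) := by
    rw [LinearMap.smul_apply, hfe, smul_eq_mul, mul_one, add_sub_cancel]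
    exact isUnit_iff_ne_zero.2 hl
  have h2 : IsUnit (1 + (((σ l)⁻¹ - 1) • B e) f) := by
    rw [LinearMap.smul_apply, hef, smul_eq_mul, mul_one, add_sub_cancel]
    exact isUnit_iff_ne_zero.2 (inv_ne_zero hs)
  have happ : ∀ x, (LinearEquiv.dilatransvection h1 * LinearEquiv.dilatransvection h2) x =
      x + ((l - 1) * B f x) • e + (((σ l)⁻¹ - 1) * B e x) • f := by
    intro x
    rw [LinearEquiv.mul_apply, LinearEquiv.dilatransvection.apply, LinearEquiv.dilatransvection.apply]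
    simp only [LinearMap.smul_apply, smul_eq_mul, map_add, map_smul, hf, mul_zero, add_zero]
    abel
  refine ⟨LinearEquiv.dilatransvection h1 * LinearEquiv.dilatransvection h2, ?_, ?_, happ⟩
  · intro x y
    rw [happ, happ]
    simp only [map_add, map_smulₛₗ, LinearMap.add_apply, LinearMap.smul_apply, smul_eq_mul, he, hf, hfe,
      hef, map_mul, map_sub, map_one, map_inv₀, H.invol, H.symm, RingHom.id_apply]
    field_simp
    ring
  · rw [det_mul, LinearEquiv.dilatransvection.coe_toLinearMap, LinearEquiv.dilatransvection.coe_toLinearMap,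
      LinearMap.transvection.det, LinearMap.transvection.det, LinearMap.smul_apply, LinearMap.smul_apply,
      hfe, hef]
    simp

namespace LagPair

variable {W₁ W₂ : Submodule F V}

lemma exists_dual [Finite F] [FiniteDimensional F V] (h : LagPair B W₁ W₂) (H : HForm σ B)
    {ι : Type*} [Fintype ι] [DecidableEq ι] (b : Basis ι F W₁) :
    ∃ b' : ι → V, (∀ i, b' i ∈ W₂) ∧ ∀ i j, B (b i : V) (b' j) = if i = j then 1 else 0 := by
  have hli : LinearIndependent F (fun i => (b i : V)) :=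
    b.linearIndependent.map' W₁.subtype (Submodule.ker_subtype W₁)
  have key : ∀ j, ∃ z ∈ W₂, ∀ i, B (b i : V) z = if i = j then 1 else 0 := by
    intro j
    have hnot : (b j : V) ∉ W₂ ⊔ Submodule.span F ((fun i => (b i : V)) '' {j}ᶜ) := by
      intro hmem
      obtain ⟨w, hw, y, hy, hwy⟩ := Submodule.mem_sup.1 hmem
      have hyW : y ∈ W₁ := by
        have hle : Submodule.span F ((fun i => (b i : V)) '' {j}ᶜ) ≤ W₁ := by
          rw [Submodule.span_le]
          rintro _ ⟨i, -, rfl⟩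
          exact (b i).2
        exact hle hy
      have hw0 : w = 0 := h.inter (by rw [eq_sub_of_add_eq hwy]; exact W₁.sub_mem (b j).2 hyW) hw
      rw [hw0, zero_add] at hwy
      exact hli.notMem_span_image (s := {j}ᶜ) (x := j) (by simp) (hwy ▸ hy)
    obtain ⟨z, hz, hzU, hzn⟩ := h.exists_in H _ hnot
    refine ⟨(B (b j : V) z)⁻¹ • z, W₂.smul_mem _ hz, fun i => ?_⟩
    by_cases hij : i = j
    · subst hij
      rw [map_smul, smul_eq_mul, inv_mul_cancel₀ hzn, if_pos rfl]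
    · rw [map_smul, hzU _ (Submodule.subset_span ⟨i, by simpa using hij, rfl⟩), smul_zero, if_neg hij]
  choose b' hb' hbb' using key
  exact ⟨b', hb', fun i j => hbb' j i⟩

lemma exists_swap0 [Finite F] [FiniteDimensional F V] (h : LagPair B W₁ W₂) (H : HForm σ B) :
    ∃ J : V ≃ₗ[F] V, UIsom B J ∧ (∀ w ∈ W₁, J w ∈ W₂) ∧ (∀ w ∈ W₂, J w ∈ W₁) := by
  classical
  let b := Module.finBasis F W₁
  obtain ⟨b', hb', hbb'⟩ := h.exists_dual H b
  have hb'b : ∀ i j, B (b' i) (b j : V) = if i = j then 1 else 0 := by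
    intro i j
    rw [← H.symm, hbb']
    by_cases hij : i = j
    · subst hij; simp
    · rw [if_neg hij, if_neg (Ne.symm hij), map_zero]
  let v : Fin (finrank F W₁) ⊕ Fin (finrank F W₁) → V := Sum.elim (fun i => (b i : V)) b'
  let w : Fin (finrank F W₁) ⊕ Fin (finrank F W₁) → V := Sum.elim b' (fun i => (b i : V))
  have hwv : ∀ x y, B (w x) (v y) = if x = y then 1 else 0 := by
    rintro (i | i) (j | j)
    · simp [v, w, hb'b]
    · simp [v, w, h.iso₂ _ (hb' i) _ (hb' j)]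
    · simp [v, w, h.iso₁ _ (b i).2 _ (b j).2]
    · simp [v, w, hbb']
  have hvw : ∀ x y, B (v x) (w y) = if x = y then 1 else 0 := by
    rintro (i | i) (j | j)
    · simp [v, w, hbb']
    · simp [v, w, h.iso₁ _ (b i).2 _ (b j).2]
    · simp [v, w, h.iso₂ _ (hb' i) _ (hb' j)]
    · simp [v, w, hb'b]
  obtain ⟨J, hJ, hJv⟩ := exists_isom_family H v w (linearIndependent_of_dual v w hwv)
    (linearIndependent_of_dual w v hvw) (by
      rintro (i | i) (j | j)
      · simp [v, w, h.iso₁ _ (b i).2 _ (b j).2, h.iso₂ _ (hb' i) _ (hb' j)]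
      · simp [v, w, hbb', hb'b]
      · simp [v, w, hbb', hb'b]
      · simp [v, w, h.iso₁ _ (b i).2 _ (b j).2, h.iso₂ _ (hb' i) _ (hb' j)])
  have hJb : ∀ i, J (b i : V) = b' i := fun i => hJv (Sum.inl i)
  have hJb' : ∀ i, J (b' i) = (b i : V) := fun i => hJv (Sum.inr i)
  refine ⟨J, hJ, ?_, ?_⟩
  · intro x hx
    have e : x = ∑ i, b.repr ⟨x, hx⟩ i • (b i : V) := coe_eq_sum_repr b hx
    rw [e, map_sum]
    refine Submodule.sum_mem _ fun i _ => ?_
    rw [map_smul, hJb]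
    exact W₂.smul_mem _ (hb' i)
  · intro x hx
    have e : x = ∑ i, B (b i : V) x • b' i := by
      have hmem : x - ∑ i, B (b i : V) x • b' i ∈ W₂ :=
        W₂.sub_mem hx (Submodule.sum_mem _ fun i _ => W₂.smul_mem _ (hb' i))
      have hperp : ∀ y ∈ W₁, B y (x - ∑ i, B (b i : V) x • b' i) = 0 := by
        intro y hy
        have ey : y = ∑ i, b.repr ⟨y, hy⟩ i • (b i : V) := coe_eq_sum_repr b hy
        have hj : ∀ j, B (b j : V) (x - ∑ i, B (b i : V) x • b' i) = 0 := by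
          intro j
          simp [map_sub, map_sum, map_smul, hbb', Finset.sum_ite_eq]
        rw [ey, map_sum, LinearMap.sum_apply]
        refine Finset.sum_eq_zero fun j _ => ?_
        rw [map_smulₛₗ, LinearMap.smul_apply, hj, smul_zero]
      have := h.inter (h.symm.mem_of_perp H hperp) hmem
      exact sub_eq_zero.1 this
    rw [e, map_sum]
    refine Submodule.sum_mem _ fun i _ => ?_
    rw [map_smul, hJb']
    exact W₁.smul_mem _ (b i).2

lemma exists_swap [Finite F] [FiniteDimensional F V] (h : LagPair B W₁ W₂) (H : HForm σ B)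
    (hne : W₁ ≠ ⊥) :
    ∃ J : V ≃ₗ[F] V, UIsom B J ∧ LinearMap.det (J : V →ₗ[F] V) = 1 ∧ (∀ w ∈ W₁, J w ∈ W₂) ∧
      (∀ w ∈ W₂, J w ∈ W₁) := by
  obtain ⟨J, hJ, hJ1, hJ2⟩ := h.exists_swap0 H
  have hN := norm_det_eq_one H J hJ
  set η := LinearMap.det (J : V →ₗ[F] V) with hη
  have hη0 : η ≠ 0 := by
    intro h0; rw [h0] at hN; simp at hN
  obtain ⟨l, hl0, hl⟩ := Cfsg.Agent.Lib.Helper13.hilbert90 σ H.ne_id H.invol η⁻¹
    (by rw [map_inv₀, ← mul_inv, hN, inv_one])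
  obtain ⟨e, he, he0⟩ := Submodule.exists_mem_ne_zero_of_ne_bot hne
  have hnot : e ∉ W₂ ⊔ (⊥ : Submodule F V) := by
    rw [sup_bot_eq]
    intro hmem
    exact he0 (h.inter he hmem)
  obtain ⟨z, hz, -, hzn⟩ := h.exists_in H _ hnot
  have hfe : B ((B e z)⁻¹ • z) e = 1 := by
    rw [map_smulₛₗ, LinearMap.smul_apply, smul_eq_mul, map_inv₀, H.symm,
      inv_mul_cancel₀ (fun h' => hzn (H.eq_zero_comm.1 h'))]
  have hfW : (B e z)⁻¹ • z ∈ W₂ := W₂.smul_mem _ hz
  obtain ⟨p, hp, hpd, hpa⟩ := exists_hyp_rotation H (h.iso₁ e he e he) (h.iso₂ _ hfW _ hfW) hfe l hl0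
  refine ⟨p * J, hp.mul hJ, ?_, ?_, ?_⟩
  · rw [det_mul, hpd, ← hη]
    have hs := H.sigma_ne_zero hl0
    have h5 : l * η = σ l := by
      conv_lhs => rw [hl]
      field_simp
    field_simp
    exact h5
  · intro w hw
    rw [LinearEquiv.mul_apply, hpa, h.iso₂ _ hfW _ (hJ1 w hw), mul_zero, zero_smul, add_zero]
    exact W₂.add_mem (hJ1 w hw) (W₂.smul_mem _ hfW)
  · intro w hw
    rw [LinearEquiv.mul_apply, hpa, h.iso₁ _ he _ (hJ2 w hw), mul_zero, zero_smul, add_zero]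
    exact W₁.add_mem (hJ2 w hw) (W₁.smul_mem _ he)

end LagPair

/-- `φ` fixes or interchanges `W₁` and `W₂`. -/
def PairStab (W₁ W₂ : Submodule F V) (φ : V ≃ₗ[F] V) : Prop :=
  ((∀ w ∈ W₁, φ w ∈ W₁) ∧ (∀ w ∈ W₂, φ w ∈ W₂)) ∨ ((∀ w ∈ W₁, φ w ∈ W₂) ∧ (∀ w ∈ W₂, φ w ∈ W₁))

namespace LagPair

variable {W₁ W₂ : Submodule F V}

lemma sr_pairStab (h : LagPair B W₁ W₂) (a b : V) (ha : a ∈ W₁) (hb : b ∈ W₂)
    (hab : TI B a b) : PairStab W₁ W₂ (sr B a b hab) := by
  left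
  constructor
  · intro w hw
    rw [sr_apply, h.iso₁ a ha w hw, zero_smul, sub_zero]
    exact W₁.add_mem hw (W₁.smul_mem _ ha)
  · intro w hw
    rw [sr_apply, h.iso₂ b hb w hw, zero_smul, add_zero]
    exact W₂.sub_mem hw (W₂.smul_mem _ hb)

lemma sr_pairStab' (h : LagPair B W₁ W₂) (a b : V) (ha : a ∈ W₂) (hb : b ∈ W₁)
    (hab : TI B a b) : PairStab W₁ W₂ (sr B a b hab) := by
  left
  constructor
  · intro w hw
    rw [sr_apply, h.iso₁ b hb w hw, zero_smul, add_zero]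
    exact W₁.sub_mem hw (W₁.smul_mem _ hb)
  · intro w hw
    rw [sr_apply, h.iso₂ a ha w hw, zero_smul, sub_zero]
    exact W₂.add_mem hw (W₂.smul_mem _ ha)

theorem core [Finite F] [FiniteDimensional F V] (h : LagPair B W₁ W₂) (H : HForm σ B)
    (hdim : 6 < finrank F V)
    (hm : 3 < finrank F W₁) (hfr : finrank F W₁ = finrank F W₂)
    (G : Subgroup (V ≃ₗ[F] V))
    (hP : ∀ φ : V ≃ₗ[F] V, UIsom B φ → LinearMap.det (φ : V →ₗ[F] V) = 1 → PairStab W₁ W₂ φ → φ ∈ G)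
    (φ0 : V ≃ₗ[F] V) (hφ0 : φ0 ∈ G) (hI : UIsom B φ0) (hS : ¬ PairStab W₁ W₂ φ0) :
    ∀ φ : V ≃ₗ[F] V, UIsom B φ → LinearMap.det (φ : V →ₗ[F] V) = 1 → φ ∈ G := by
  have hW1 : W₁ ≠ ⊥ := by
    intro hb
    rw [hb, finrank_bot] at hm
    omega
  obtain ⟨J, hJI, hJd, hJ1, hJ2⟩ := h.exists_swap H hW1
  have hJG : J ∈ G := hP J hJI hJd (Or.inr ⟨hJ1, hJ2⟩)
  have hP1 : ∀ a ∈ W₁, ∀ b ∈ W₂, ∀ hab : TI B a b, sr B a b hab ∈ G :=
    fun a ha b hb hab => hP _ (sr_isom H _) (sr_det _) (h.sr_pairStab a b ha hb hab)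
  have hP2 : ∀ a ∈ W₂, ∀ b ∈ W₁, ∀ hab : TI B a b, sr B a b hab ∈ G :=
    fun a ha b hb hab => hP _ (sr_isom H _) (sr_det _) (h.sr_pairStab' a b ha hb hab)
  have hJsurj1 : ∀ w ∈ W₂, ∃ x ∈ W₁, J x = w := by
    intro w hw
    have := map_eq_of_forall_mem'' J W₁ W₂ hfr hJ1
    rw [← this] at hw
    obtain ⟨x, hx, hxw⟩ := hw
    exact ⟨x, hx, hxw⟩
  have hJsurj2 : ∀ w ∈ W₁, ∃ x ∈ W₂, J x = w := by
    intro w hw
    have := map_eq_of_forall_mem'' J W₂ W₁ hfr.symm hJ2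
    rw [← this] at hw
    obtain ⟨x, hx, hxw⟩ := hw
    exact ⟨x, hx, hxw⟩
  have hboth : (∀ w ∈ W₁, w ∈ tvX H G) ∧ (∀ w ∈ W₂, w ∈ tvX H G) := by
    by_cases hc1 : (∃ a ∈ W₁, φ0 a ∉ W₂) ∧ (∃ b ∈ W₂, φ0 b ∉ W₂)
    · obtain ⟨⟨a₀, ha₀, ha₀'⟩, b₀, hb₀, hb₀'⟩ := hc1
      have h1 := h.sub_tvX H hm G hP1 φ0 hφ0 hI a₀ ha₀ ha₀' b₀ hb₀ hb₀'
      refine ⟨h1, fun w hw => ?_⟩
      obtain ⟨x, hx, rfl⟩ := hJsurj1 w hw
      exact tvX_map H (h1 x hx) hJG hJI
    · by_cases hc2 : (∃ a ∈ W₂, φ0 a ∉ W₁) ∧ (∃ b ∈ W₁, φ0 b ∉ W₁)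
      · obtain ⟨⟨a₀, ha₀, ha₀'⟩, b₀, hb₀, hb₀'⟩ := hc2
        have h1 := h.symm.sub_tvX H (hfr ▸ hm) G hP2 φ0 hφ0 hI a₀ ha₀ ha₀' b₀ hb₀ hb₀'
        refine ⟨fun w hw => ?_, h1⟩
        obtain ⟨x, hx, rfl⟩ := hJsurj2 w hw
        exact tvX_map H (h1 x hx) hJG hJI
      · exfalso
        apply hS
        rw [not_and_or] at hc1 hc2
        push Not at hc1 hc2
        have hne : ∃ e ∈ W₁, e ≠ 0 := Submodule.exists_mem_ne_zero_of_ne_bot hW1
        have hne2 : ∃ e ∈ W₂, e ≠ 0 := by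
          apply Submodule.exists_mem_ne_zero_of_ne_bot
          intro hb
          rw [hfr, hb, finrank_bot] at hm
          omega
        rcases hc1 with hc1 | hc1 <;> rcases hc2 with hc2 | hc2
        · exact Or.inr ⟨hc1, hc2⟩
        · exfalso
          obtain ⟨e, he, he0⟩ := hne
          have := h.inter (hc2 e he) (hc1 e he)
          exact he0 (by simpa using this)
        · exfalso
          obtain ⟨e, he, he0⟩ := hne2
          have := h.inter (hc2 e he) (hc1 e he)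
          exact he0 (by simpa using this)
        · exact Or.inl ⟨hc2, hc1⟩
  obtain ⟨hX1, hX2⟩ := hboth
  have hall : ∀ v, B v v = 0 → v ∈ tvX H G := by
    intro v hv
    obtain ⟨w₁, hw₁, w₂, hw₂, rfl⟩ := h.exists_add v
    by_cases hB : B w₁ w₂ = 0
    · by_cases hw0 : w₁ = 0
      · rw [hw0, zero_add]; exact hX2 _ hw₂
      · have hnot : w₁ ∉ W₂ ⊔ (⊥ : Submodule F V) := by
          rw [sup_bot_eq]
          intro hmem
          exact hw0 (h.inter hw₁ hmem)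
        obtain ⟨z0, hz0, -, hzn0⟩ := h.exists_in H _ hnot
        obtain ⟨ε, hε0, hε⟩ := H.exists_skew
        set z := (ε / B w₁ z0) • z0 with hz
        have hzW : z ∈ W₂ := W₂.smul_mem _ hz0
        have hwz : B w₁ z = ε := by rw [hz, map_smul, smul_eq_mul, div_mul_cancel₀ _ hzn0]
        have h1 : z + (1 : F) • w₁ ∈ tvX H G := by
          refine tvX_line H (hX1 _ hw₁) (hX2 _ hzW) (by rw [hwz]; exact hε0) 1 ?_
          rw [one_smul, H.norm_add, h.iso₂ z hzW z hzW, h.iso₁ w₁ hw₁ w₁ hw₁, H.symm, hwz, ← H.symm, hwz]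
          linear_combination hε
        have h3 : B (z + (1 : F) • w₁) (w₂ - z) ≠ 0 := by
          rw [one_smul, map_add, LinearMap.add_apply, map_sub, map_sub, hB, h.iso₂ z hzW w₂ hw₂,
            h.iso₂ z hzW z hzW, hwz]
          simpa using hε0
        have := tvX_line H h1 (hX2 _ (W₂.sub_mem hw₂ hzW)) h3 1 (by
          have he : w₂ - z + (1 : F) • (z + (1 : F) • w₁) = w₁ + w₂ := by
            rw [one_smul, one_smul]; abel
          rw [he]; exact hv)
        have he : w₂ - z + (1 : F) • (z + (1 : F) • w₁) = w₁ + w₂ := by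
          rw [one_smul, one_smul]; abel
        rwa [he] at this
    · have := tvX_line H (hX1 _ hw₁) (hX2 _ hw₂) hB 1 (by
        rw [one_smul, add_comm]; exact hv)
      rwa [one_smul, add_comm] at this
  intro φ hφ hφd
  exact mem_of_sisom H hdim G (fun v k hk hv => (hall v hv).2 k hk) φ hφ hφd

lemma exists_sisom_not_stab [Finite F] [FiniteDimensional F V] (h : LagPair B W₁ W₂) (H : HForm σ B)
    (hm : 0 < finrank F W₁) :
    ∃ φ : V ≃ₗ[F] V, UIsom B φ ∧ LinearMap.det (φ : V →ₗ[F] V) = 1 ∧ ¬ PairStab W₁ W₂ φ := by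
  obtain ⟨e, he, he0⟩ : ∃ e ∈ W₁, e ≠ 0 := by
    apply Submodule.exists_mem_ne_zero_of_ne_bot
    intro hb
    rw [hb, finrank_bot] at hm
    omega
  have hnot : e ∉ W₂ ⊔ (⊥ : Submodule F V) := by
    rw [sup_bot_eq]
    intro hmem
    exact he0 (h.inter he hmem)
  obtain ⟨z, hz, -, hzn⟩ := h.exists_in H _ hnot
  obtain ⟨ε, hε0, hε⟩ := H.exists_skew
  have hee := h.iso₁ e he e he
  have hk : ε + σ ε + ε * σ ε * B e e = 0 := by rw [hee, hε]; simp
  refine ⟨ur H e ε hk, ur_isom _ _ _ _, by rw [ur_det, hee]; simp, ?_⟩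
  have hc : ε * B e z ≠ 0 := mul_ne_zero hε0 hzn
  rintro (⟨-, h2⟩ | ⟨-, h2⟩)
  · have := h2 z hz
    rw [ur_apply] at this
    have h3 : (ε * B e z) • e ∈ W₂ := by
      have := W₂.sub_mem this hz
      simpa using this
    have h4 := h.inter (W₁.smul_mem _ he) h3
    exact (smul_ne_zero hc he0) h4
  · have := h2 z hz
    rw [ur_apply] at this
    have h3 : z ∈ W₁ := by
      have := W₁.sub_mem this (W₁.smul_mem (ε * B e z) he)
      simpa using this
    have h4 := h.inter h3 hz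
    rw [h4] at hzn
    simp at hzn

end LagPair

end Cfsg.Agent.Lib.Helper94.U
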