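import Mathlib
import Cfsg.Prelude.Def_GeometricClasses
import Cfsg.Agent.Lib.Helper94.Transfer
import Cfsg.Agent.Lib.Helper94.FormB
import Cfsg.Agent.Lib.Helper94.HermSL

set_option autoImplicit false

namespace Cfsg.Agent.Lib.Helper94.U

open Module Matrix
open Cfsg.Agent.Lib.Helper94

variable {ι : Type} [Fintype ι] [DecidableEq ι] {F : Type*} [Field F]

/-- a unitary form given as a function, as a sesquilinear map (arguments swapped) -/
def hermB (σ : F ≃+* F) (f : (ι → F) → (ι → F) → F) (hf : Cfsg.Geo.IsUnitaryForm σ f) :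
    (ι → F) →ₛₗ[(σ : F →+* F)] (ι → F) →ₗ[F] F :=
  LinearMap.mk₂'ₛₗ (σ : F →+* F) (RingHom.id F) (fun x y => f y x)
    (by
      intro m₁ m₂ n
      change f n (m₁ + m₂) = f n m₁ + f n m₂
      rw [hf.herm, hf.add_left, map_add, ← hf.herm, ← hf.herm])
    (by
      intro c m n
      change f n (c • m) = σ c • f n m
      rw [hf.herm, hf.smul_left, map_mul, ← hf.herm, smul_eq_mul])
    (by
      intro m n₁ n₂
      exact hf.add_left n₁ n₂ m)
    (by
      intro c m n
      exact hf.smul_left c n m)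

omit [Fintype ι] [DecidableEq ι] in
@[simp] lemma hermB_apply (σ : F ≃+* F) (f : (ι → F) → (ι → F) → F) (hf : Cfsg.Geo.IsUnitaryForm σ f)
    (u v : ι → F) : hermB σ f hf u v = f v u := rfl

omit [Fintype ι] [DecidableEq ι] in
lemma hermB_hform (σ : F ≃+* F) (f : (ι → F) → (ι → F) → F) (hf : Cfsg.Geo.IsUnitaryForm σ f) :
    HForm (σ : F →+* F) (hermB σ f hf) where
  ne_id := by
    intro h
    apply hf.ne_refl
    ext a
    exact congrArg (fun φ : F →+* F => φ a) h
  invol := hf.involutive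
  symm := by
    intro x y
    rw [hermB_apply, hermB_apply]
    exact (hf.herm x y).symm
  nondeg := by
    intro x hx
    by_contra hx0
    obtain ⟨y, hy⟩ := (hf.nondegenerate x hx0).1
    exact hy (hx y)

lemma mem_similarityGroup_iff (σ : F ≃+* F) (f : (ι → F) → (ι → F) → F)
    (hf : Cfsg.Geo.IsUnitaryForm σ f) (g : Matrix.GeneralLinearGroup ι F) :
    g ∈ Cfsg.Geo.similarityGroup f ↔ USimil (hermB σ f hf) (glEquiv ι F g) := by
  constructor
  · rintro ⟨c, hc⟩
    refine ⟨c, c.ne_zero, fun u v => ?_⟩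
    rw [hermB_apply, hermB_apply, glEquiv_apply, glEquiv_apply]
    exact hc v u
  · rintro ⟨c, hc0, hc⟩
    refine ⟨Units.mk0 c hc0, fun u v => ?_⟩
    have := hc v u
    rw [hermB_apply, hermB_apply, glEquiv_apply, glEquiv_apply] at this
    exact this

end Cfsg.Agent.Lib.Helper94.U
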