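import Mathlib
import Cfsg.Agent.Lib.Helper94.TensF3
import Cfsg.Agent.Lib.Helper94.SLMax

set_option autoImplicit false
set_option linter.unusedSimpArgs false
set_option linter.unusedSectionVars false

/-! # Tensor decompositions with a two-dimensional factor over the field with two elements -/

namespace Cfsg.Agent.Lib.Helper94.Tens

open Matrix Module
open Cfsg.Agent.Lib.Helper94 Cfsg.Agent.Lib.Helper94.U

section grp

variable {G : Type*} [Group G]

/-- the elements centralising or inverting `w` -/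
def invNorm (w : G) : Subgroup G where
  carrier := {g | g * w * g⁻¹ = w ∨ g * w * g⁻¹ = w⁻¹}
  mul_mem' := by
    intro a b ha hb
    have e : a * b * w * (a * b)⁻¹ = a * (b * w * b⁻¹) * a⁻¹ := by group
    have e' : a * w⁻¹ * a⁻¹ = (a * w * a⁻¹)⁻¹ := by group
    change a * b * w * (a * b)⁻¹ = w ∨ a * b * w * (a * b)⁻¹ = w⁻¹
    rw [e]
    rcases hb with hb | hb <;> rcases ha with ha | ha <;> rw [hb]
    · exact Or.inl ha
    · exact Or.inr ha
    · right; rw [e', ha]
    · left; rw [e', ha, inv_inv]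
  one_mem' := Or.inl (by simp)
  inv_mem' := by
    intro a ha
    change a⁻¹ * w * a⁻¹⁻¹ = w ∨ a⁻¹ * w * a⁻¹⁻¹ = w⁻¹
    rcases ha with ha | ha
    · left
      conv_lhs => rw [← ha]
      group
    · right
      have : w = a * w⁻¹ * a⁻¹ := by
        calc w = (w⁻¹)⁻¹ := (inv_inv w).symm
          _ = (a * w * a⁻¹)⁻¹ := by rw [ha]
          _ = a * w⁻¹ * a⁻¹ := by group
      conv_lhs => rw [this]
      group

lemma mem_invNorm {w g : G} : g ∈ invNorm w ↔ g * w * g⁻¹ = w ∨ g * w * g⁻¹ = w⁻¹ := Iff.rfl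

end grp

section lift

variable {ι : Type} [Fintype ι] [DecidableEq ι] {F : Type*} [Field F] {n₁ n₂ : ℕ}

/-- action of a linear map on the first factor, in coordinates -/
def lift₀ (C : (Fin n₁ → F) →ₗ[F] (Fin n₁ → F)) :
    (Fin n₁ × Fin n₂ → F) →ₗ[F] (Fin n₁ × Fin n₂ → F) where
  toFun x := fun p => C (fun i => x (i, p.2)) p.1
  map_add' x y := by
    funext p
    have : (fun i => (x + y) (i, p.2)) = (fun i => x (i, p.2)) + (fun i => y (i, p.2)) := rfl
    change C (fun i => (x + y) (i, p.2)) p.1 = _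
    rw [this, map_add]
    rfl
  map_smul' c x := by
    funext p
    have : (fun i => (c • x) (i, p.2)) = c • (fun i => x (i, p.2)) := rfl
    change C (fun i => (c • x) (i, p.2)) p.1 = _
    rw [this, map_smul]
    rfl

lemma lift₀_apply (C : (Fin n₁ → F) →ₗ[F] (Fin n₁ → F)) (x : Fin n₁ × Fin n₂ → F) (p : Fin n₁ × Fin n₂) :
    lift₀ C x p = C (fun i => x (i, p.2)) p.1 := rfl

lemma lift₀_pc (C : (Fin n₁ → F) →ₗ[F] (Fin n₁ → F)) (a : Fin n₁ → F) (b : Fin n₂ → F) :
    lift₀ C (pc a b) = pc (C a) b := by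
  funext p
  rw [lift₀_apply]
  have : (fun i => pc a b (i, p.2)) = b p.2 • a := by
    funext i; simp [pc, mul_comm]
  rw [this, map_smul]
  simp [pc, mul_comm]

lemma lift₀_comp (C D : (Fin n₁ → F) →ₗ[F] (Fin n₁ → F)) (x : Fin n₁ × Fin n₂ → F) :
    lift₀ C (lift₀ D x) = lift₀ (C ∘ₗ D) x := by
  funext p
  simp only [lift₀_apply, LinearMap.comp_apply]

lemma lift₀_id (x : Fin n₁ × Fin n₂ → F) : lift₀ (LinearMap.id) x = x := by
  funext p
  simp only [lift₀_apply, LinearMap.id_apply]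

/-- action of a linear automorphism on the first factor, in coordinates -/
def liftE (C : (Fin n₁ → F) ≃ₗ[F] (Fin n₁ → F)) :
    (Fin n₁ × Fin n₂ → F) ≃ₗ[F] (Fin n₁ × Fin n₂ → F) :=
  LinearEquiv.ofLinear (lift₀ (C : (Fin n₁ → F) →ₗ[F] (Fin n₁ → F)))
    (lift₀ (C.symm : (Fin n₁ → F) →ₗ[F] (Fin n₁ → F)))
    (by
      refine LinearMap.ext fun x => ?_
      rw [LinearMap.comp_apply, lift₀_comp, LinearEquiv.comp_symm, lift₀_id]; rfl)
    (by
      refine LinearMap.ext fun x => ?_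
      rw [LinearMap.comp_apply, lift₀_comp, LinearEquiv.symm_comp, lift₀_id]; rfl)

/-- action of a linear automorphism on the first tensor factor -/
noncomputable def Lift (e : ι ≃ Fin n₁ × Fin n₂) (P : Matrix.GeneralLinearGroup ι F)
    (C : (Fin n₁ → F) ≃ₗ[F] (Fin n₁ → F)) : (ι → F) ≃ₗ[F] (ι → F) :=
  (TT e P).symm ≪≫ₗ liftE C ≪≫ₗ TT e P

lemma Lift_pt (e : ι ≃ Fin n₁ × Fin n₂) (P : Matrix.GeneralLinearGroup ι F)
    (C : (Fin n₁ → F) ≃ₗ[F] (Fin n₁ → F)) (a : Fin n₁ → F) (b : Fin n₂ → F) :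
    Lift e P C (pt e P a b) = pt e P (C a) b := by
  unfold Lift
  rw [pt_eq_TT, pt_eq_TT, LinearEquiv.trans_apply, LinearEquiv.trans_apply, LinearEquiv.symm_apply_apply]
  congr 1
  exact lift₀_pc _ a b

lemma pt_ext {M : Type*} [AddCommGroup M] [Module F M] (e : ι ≃ Fin n₁ × Fin n₂)
    (P : Matrix.GeneralLinearGroup ι F) {f g : (ι → F) →ₗ[F] M}
    (h : ∀ a b, f (pt e P a b) = g (pt e P a b)) : f = g := by
  have h1 : f ∘ₗ (TT e P : (Fin n₁ × Fin n₂ → F) →ₗ[F] (ι → F)) = g ∘ₗ (TT e P : _ →ₗ[F] (ι → F)) := by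
    apply (Pi.basisFun F (Fin n₁ × Fin n₂)).ext
    intro p
    have hp : Pi.basisFun F (Fin n₁ × Fin n₂) p = pc (Pi.single p.1 1) (Pi.single p.2 1) := by
      funext q
      obtain ⟨p1, p2⟩ := p
      obtain ⟨q1, q2⟩ := q
      simp only [Pi.basisFun_apply, pc, Pi.single_apply, Prod.mk.injEq]
      by_cases h1 : q1 = p1 <;> by_cases h2 : q2 = p2 <;> simp [h1, h2]
    rw [hp]
    exact h _ _
  refine LinearMap.ext fun v => ?_
  have := congrArg (fun L => L ((TT e P).symm v)) h1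
  simpa using this

lemma pt_ext_equiv (e : ι ≃ Fin n₁ × Fin n₂) (P : Matrix.GeneralLinearGroup ι F)
    {f g : (ι → F) ≃ₗ[F] (ι → F)} (h : ∀ a b, f (pt e P a b) = g (pt e P a b)) : f = g := by
  apply LinearEquiv.toLinearMap_injective
  exact pt_ext e P h

lemma Lift_inv (e : ι ≃ Fin n₁ × Fin n₂) (P : Matrix.GeneralLinearGroup ι F)
    (C : (Fin n₁ → F) ≃ₗ[F] (Fin n₁ → F)) : (Lift e P C)⁻¹ = Lift e P C⁻¹ := by
  apply inv_eq_of_mul_eq_one_right
  apply pt_ext_equiv e P
  intro a b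
  rw [LinearEquiv.mul_apply, Lift_pt, Lift_pt, apply_inv_self']
  rfl

lemma conj_Lift (e : ι ≃ Fin n₁ × Fin n₂) (P : Matrix.GeneralLinearGroup ι F)
    {φ : (ι → F) ≃ₗ[F] (ι → F)} {A : (Fin n₁ → F) ≃ₗ[F] (Fin n₁ → F)} {B : (Fin n₂ → F) ≃ₗ[F] (Fin n₂ → F)}
    (h : ∀ a b, φ (pt e P a b) = pt e P (A a) (B b)) (C : (Fin n₁ → F) ≃ₗ[F] (Fin n₁ → F)) :
    φ * Lift e P C * φ⁻¹ = Lift e P (A * C * A⁻¹) := by
  apply pt_ext_equiv e P
  intro a b
  have h1 : φ⁻¹ (pt e P a b) = pt e P (A⁻¹ a) (B⁻¹ b) := by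
    have := h (A⁻¹ a) (B⁻¹ b)
    rw [apply_inv_self', apply_inv_self'] at this
    rw [← this, inv_apply_self']
  rw [LinearEquiv.mul_apply, LinearEquiv.mul_apply, h1, Lift_pt, h, Lift_pt, apply_inv_self']
  rfl

end lift

section w

variable {F : Type*} [Field F]

/-- the matrix `(0 1; 1 1)` -/
def wLin : (Fin 2 → F) →ₗ[F] (Fin 2 → F) where
  toFun x := ![x 1, x 0 + x 1]
  map_add' x y := by
    funext i; fin_cases i <;> simp <;> ring
  map_smul' c x := by
    funext i; fin_cases i <;> simp <;> ring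

def wInvLin : (Fin 2 → F) →ₗ[F] (Fin 2 → F) where
  toFun x := ![x 1 - x 0, x 0]
  map_add' x y := by
    funext i; fin_cases i <;> simp <;> ring
  map_smul' c x := by
    funext i; fin_cases i <;> simp <;> ring

/-- the automorphism `(0 1; 1 1)` -/
def ww : (Fin 2 → F) ≃ₗ[F] (Fin 2 → F) :=
  LinearEquiv.ofLinear wLin wInvLin
    (by refine LinearMap.ext fun x => ?_; funext i; fin_cases i <;> simp [wLin, wInvLin])
    (by refine LinearMap.ext fun x => ?_; funext i; fin_cases i <;> simp [wLin, wInvLin])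

lemma ww_apply (x : Fin 2 → F) : ww x = ![x 1, x 0 + x 1] := rfl

lemma ww_sq (x : Fin 2 → F) : ww (ww x) = ww x + x := by
  funext i; fin_cases i <;> simp [ww_apply] <;> ring

lemma ww_single0 : ww (Pi.single 0 1 : Fin 2 → F) = Pi.single 1 1 := by
  funext i; fin_cases i <;> simp [ww_apply]

lemma ww_single1 : ww (Pi.single 1 1 : Fin 2 → F) = Pi.single 0 1 + Pi.single 1 1 := by
  funext i; fin_cases i <;> simp [ww_apply]

variable (h2 : ∀ x : F, x = 0 ∨ x = 1) (h20 : (2 : F) = 0)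

include h20 in
lemma ww_inv (x : Fin 2 → F) : (ww : (Fin 2 → F) ≃ₗ[F] (Fin 2 → F))⁻¹ x = ww x + x := by
  have : ww (ww x + x) = x := by
    rw [map_add, ww_sq]
    funext i
    simp only [Pi.add_apply]
    linear_combination (ww x i) * h20
  rw [← this, inv_apply_self', this]

include h2 h20 in
lemma conj_ww (A : (Fin 2 → F) ≃ₗ[F] (Fin 2 → F)) : A * ww * A⁻¹ = ww ∨ A * ww * A⁻¹ = ww⁻¹ := by
  set M := A * ww * A⁻¹ with hM
  have hv2 : ∀ v : Fin 2 → F, v + v = 0 := by
    intro v; funext i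
    simp only [Pi.add_apply, Pi.zero_apply]
    linear_combination (v i) * h20
  have hsq : ∀ v, M (M v) = M v + v := by
    intro v
    simp only [hM, LinearEquiv.mul_apply, inv_apply_self', ww_sq, map_add, apply_inv_self']
  set e0 : Fin 2 → F := Pi.single 0 1 with he0
  set e1 : Fin 2 → F := Pi.single 1 1 with he1
  have hext : ∀ N : (Fin 2 → F) ≃ₗ[F] (Fin 2 → F), M e0 = N e0 → M e1 = N e1 → M = N := by
    intro N h0 h1
    apply (Pi.basisFun F (Fin 2)).ext'
    intro i
    fin_cases i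
    · simpa using h0
    · simpa using h1
  have he00 : e0 ≠ 0 := by
    intro h; have := congrFun h 0; simp [he0] at this
  have hm : M e0 = ![M e0 0, M e0 1] := by
    funext i; fin_cases i <;> rfl
  have hE1 : (![0, 1] : Fin 2 → F) = e1 := by
    funext i; fin_cases i <;> simp [he1]
  have hE0 : (![1, 0] : Fin 2 → F) = e0 := by
    funext i; fin_cases i <;> simp [he0]
  have hE01 : (![1, 1] : Fin 2 → F) = e0 + e1 := by
    funext i; fin_cases i <;> simp [he0, he1]
  have hE : (![0, 0] : Fin 2 → F) = 0 := by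
    funext i; fin_cases i <;> simp
  have h0 := hsq e0
  rcases h2 (M e0 0) with ha | ha <;> rcases h2 (M e0 1) with hb | hb <;> rw [ha, hb] at hm
  · exfalso
    rw [hE] at hm
    rw [hm, map_zero, zero_add] at h0
    exact he00 h0.symm
  · left
    rw [hE1] at hm
    rw [hm] at h0
    refine hext _ ?_ ?_
    · rw [hm, he0, ww_single0]
    · rw [h0, he1, ww_single1, add_comm]
  · exfalso
    rw [hE0] at hm
    rw [hm, hm, hv2] at h0
    exact he00 h0
  · right
    rw [hE01] at hm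
    rw [hm, map_add, hm] at h0
    have h1 : M e1 = e0 := by
      have : M e1 = (e0 + e1 + M e1) + (e0 + e1) := by
        rw [add_comm (e0 + e1) (M e1), add_assoc, hv2, add_zero]
      rw [this, h0]
      have : e0 + e1 + e0 + (e0 + e1) = e0 + ((e0 + e1) + (e0 + e1)) := by abel
      rw [this, hv2, add_zero]
    refine hext _ ?_ ?_
    · rw [hm, ww_inv h20, he0, ww_single0, add_comm]
    · rw [h1, ww_inv h20, he1, ww_single1, add_assoc, hv2, add_zero]

end w

section abstract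

variable {F V : Type*} [Field F] [AddCommGroup V] [Module F V]

lemma not_mem_invNorm {ω t : V ≃ₗ[F] V} (hω : ∀ x, ω (ω x) = ω x + x) {x : V} (hx0 : x ≠ 0) (hx : t x = x)
    (hωx : t (ω x) = ω x) {y : V} (hy : t (ω y) ≠ ω (t y)) : t ∉ invNorm ω := by
  rintro (h | h)
  · apply hy
    have := congrArg (fun g : V ≃ₗ[F] V => g (t y)) h
    simpa [LinearEquiv.mul_apply] using this
  · have h1 := congrArg (fun g : V ≃ₗ[F] V => ω (g (t x))) h
    simp only [LinearEquiv.mul_apply, inv_apply_self', apply_inv_self'] at h1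
    rw [hωx, hx, hω] at h1
    have h2 : ω x = 0 := by
      have := congrArg (fun z => z - x) h1
      simpa using this
    exact hx0 (by simpa using h2)

lemma mem_invNorm_of_comm {ω t : V ≃ₗ[F] V} (h : ∀ x, t (ω x) = ω (t x)) : t ∈ invNorm ω := by
  left
  ext x
  rw [LinearEquiv.mul_apply, LinearEquiv.mul_apply, h, apply_inv_self']

end abstract

section comp

variable {F V V₁ V₂ κ : Type*} [Field F] [AddCommGroup V] [Module F V] [AddCommGroup V₁] [Module F V₁]
  [AddCommGroup V₂] [Module F V₂] [Fintype κ] [DecidableEq κ]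
  {T : V₁ →ₗ[F] V₂ →ₗ[F] V} {a : Basis κ F V₁}

lemma comp_eq (hU : Function.Injective (Th T a)) {i j : κ} (hij : i ≠ j) {y₁ y₂ z₁ z₂ : V₂}
    (h : T (a i) y₁ + T (a j) y₂ = T (a i) z₁ + T (a j) z₂) : y₁ = z₁ ∧ y₂ = z₂ := by
  rw [← Th_single, ← Th_single, ← Th_single, ← Th_single, ← map_add, ← map_add] at h
  have h' := hU h
  constructor
  · have := congrFun h' i
    simpa [Pi.single_apply, hij, Ne.symm hij] using this
  · have := congrFun h' j
    simpa [Pi.single_apply, hij, Ne.symm hij] using this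

end comp

end Cfsg.Agent.Lib.Helper94.Tens

namespace Cfsg.Agent.Lib.Helper94.Tens

section card2

variable {F : Type*} [Field F] [Fintype F]

lemma card2_two (hq : Fintype.card F = 2) : (2 : F) = 0 := by
  have := Nat.cast_card_eq_zero F
  rw [hq] at this
  exact_mod_cast this

lemma card2_cases (hq : Fintype.card F = 2) : ∀ x : F, x = 0 ∨ x = 1 := by
  classical
  intro x
  by_contra hcon
  push Not at hcon
  have h3 : ({0, 1, x} : Finset F).card = 3 :=
    Finset.card_eq_three.2 ⟨0, 1, x, zero_ne_one, hcon.1.symm, hcon.2.symm, rfl⟩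
  have := Finset.card_le_univ ({0, 1, x} : Finset F)
  rw [h3, hq] at this
  omega

end card2

section more

variable {F V V₁ V₂ κ : Type*} [Field F] [AddCommGroup V] [Module F V] [AddCommGroup V₁] [Module F V₁]
  [AddCommGroup V₂] [Module F V₂] [Fintype κ] [DecidableEq κ]
  {T : V₁ →ₗ[F] V₂ →ₗ[F] V} {a : Module.Basis κ F V₁}

lemma T_ne_zero (hU : Function.Injective (Th T a)) (i : κ) {y : V₂} (hy : y ≠ 0) : T (a i) y ≠ 0 := by
  intro h
  rw [← Th_single, ← map_zero (Th T a)] at h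
  have := congrFun (hU h) i
  simp at this
  exact hy this

end more

section omega

variable {ι : Type} [Fintype ι] [DecidableEq ι] {F : Type*} [Field F] {n₂ : ℕ}

lemma Lift_ww_sq (e : ι ≃ Fin 2 × Fin n₂) (P : Matrix.GeneralLinearGroup ι F) (v : ι → F) :
    Lift e P ww (Lift e P ww v) = Lift e P ww v + v := by
  have := pt_ext e P (f := (Lift e P ww : (ι → F) →ₗ[F] (ι → F)) ∘ₗ (Lift e P ww : (ι → F) →ₗ[F] (ι → F)))
    (g := (Lift e P ww : (ι → F) →ₗ[F] (ι → F)) + LinearMap.id) (fun a b => by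
      simp only [LinearMap.comp_apply, LinearEquiv.coe_coe, LinearMap.add_apply, LinearMap.id_apply,
        Lift_pt, ww_sq, map_add])
  exact LinearMap.congr_fun this v

/-- tensor elements normalise the group generated by `ω` -/
lemma tensor_mem_invNorm (h2 : ∀ x : F, x = 0 ∨ x = 1) (h20 : (2 : F) = 0) (e : ι ≃ Fin 2 × Fin n₂)
    (P : Matrix.GeneralLinearGroup ι F) (φ : (ι → F) ≃ₗ[F] (ι → F))
    (hst : (glEquiv ι F).symm φ ∈ Cfsg.Geo.tensorProductSubgroup 2 n₂ e P) :
    φ ∈ invNorm (Lift e P ww) := by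
  obtain ⟨A, B, hAB⟩ := exists_of_symm_mem e P φ hst
  rw [mem_invNorm, conj_Lift e P hAB, Lift_inv]
  rcases conj_ww h2 h20 A with h | h <;> rw [h]
  · exact Or.inl rfl
  · exact Or.inr rfl

lemma Th_basisFun_injective (e : ι ≃ Fin 2 × Fin n₂) (P : Matrix.GeneralLinearGroup ι F) :
    Function.Injective (Th (pt e P) (Pi.basisFun F (Fin 2))) := by
  rw [injective_iff_map_eq_zero]
  intro y hy
  rw [Th_apply] at hy
  funext i
  exact sum_pt_eq_zero e P _ (Pi.basisFun F (Fin 2)).linearIndependent y hy i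

end omega

end Cfsg.Agent.Lib.Helper94.Tens
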