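import Mathlib
import Cfsg.Agent.Lib.Helper94.OrthFrame
import Cfsg.Agent.Lib.Helper94.QuadWrap
import Cfsg.Agent.Lib.Helper94.Tens
import Cfsg.Agent.Lib.Helper94.TensF2

set_option autoImplicit false
set_option linter.unusedSimpArgs false
set_option linter.unusedSectionVars false

/-! # Plus type orthogonal decompositions whose stabiliser is not maximal -/

namespace Cfsg.Agent.Lib.Helper94.OP

open QuadraticMap Module
open Cfsg.Agent.Lib.Helper44 Cfsg.Agent.Lib.Helper13.O Cfsg.Agent.Lib.Helper94 Cfsg.Agent.Lib.Helper94.U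
  Cfsg.Agent.Lib.Helper94.OF

variable {F V : Type*} [Field F] [AddCommGroup V] [Module F V]

section hyp

variable (Q : QuadraticForm F V) (W : Submodule F V)

lemma expand [FiniteDimensional F V] {m : ℕ} (hW : finrank F W = m) (b c : Fin m → V)
    (hb : ∀ i, b i ∈ W) (hbc : ∀ i j, polar Q (c i) (b j) = if i = j then 1 else 0) {w : V}
    (hw : w ∈ W) : w = ∑ i, polar Q (c i) w • b i := by
  let T : W →ₗ[F] (Fin m → F) := LinearMap.pi (fun i => (polarBilin Q (c i)) ∘ₗ W.subtype)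
  have hT : ∀ (x : W) i, T x i = polarBilin Q (c i) (x : V) := fun x i => rfl
  have hsum : ∀ (y : Fin m → F) i, polarBilin Q (c i) (∑ j, y j • b j) = y i := by
    intro y i
    rw [map_sum]
    simp only [map_smul, polarBilin_apply_apply, hbc, smul_eq_mul, mul_ite, mul_one, mul_zero,
      Finset.sum_ite_eq, Finset.mem_univ, if_true]
  have hsurj : Function.Surjective T := by
    intro y
    refine ⟨⟨∑ j, y j • b j, W.sum_mem fun j _ => W.smul_mem _ (hb j)⟩, ?_⟩
    ext i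
    rw [hT]
    exact hsum y i
  have hinj : Function.Injective T :=
    (LinearMap.injective_iff_surjective_of_finrank_eq_finrank (by simp [hW])).2 hsurj
  have hmem : ∑ i, polar Q (c i) w • b i ∈ W := W.sum_mem fun j _ => W.smul_mem _ (hb j)
  have : (⟨w, hw⟩ : W) = ⟨_, hmem⟩ := by
    apply hinj
    ext i
    rw [hT, hT]
    exact (hsum (fun i => polar Q (c i) w) i).symm
  exact congrArg Subtype.val this

variable {Q W}

lemma exists_partner (hnd : ∀ w ∈ W, (∀ z ∈ W, polar Q z w = 0) → w = 0) {z : V} (hz : z ∈ W)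
    (hz0 : z ≠ 0) (hQz : Q z = 0) : ∃ z' ∈ W, Q z' = 0 ∧ polar Q z z' = 1 := by
  obtain ⟨y, hy, hyz⟩ : ∃ y ∈ W, polar Q y z ≠ 0 := by
    by_contra h
    push Not at h
    exact hz0 (hnd z hz h)
  obtain ⟨y1, hy1W, h1⟩ : ∃ y1 ∈ W, polar Q y1 z = 1 :=
    ⟨(polar Q y z)⁻¹ • y, W.smul_mem _ hy, by rw [polar_smul_left, smul_eq_mul, inv_mul_cancel₀ hyz]⟩
  refine ⟨y1 + (-Q y1) • z, W.add_mem hy1W (W.smul_mem _ hz), ?_, ?_⟩
  · rw [Q_add_smul, hQz, h1]; ring
  · rw [polar_add_right, polar_smul_right, polar_self, hQz, polar_comm, h1]; simp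

/-- hyperbolic basis of a plus type plane -/
lemma hyp2 [FiniteDimensional F V] (hnd : ∀ w ∈ W, (∀ z ∈ W, polar Q z w = 0) → w = 0)
    (hW : finrank F W = 2) (U : Submodule F V) (hU : U ≤ W) (hUs : ∀ u ∈ U, Q u = 0)
    (hUr : 2 * finrank F U = finrank F W) :
    ∃ z ∈ W, ∃ z' ∈ W, Q z = 0 ∧ Q z' = 0 ∧ polar Q z z' = 1 ∧
      ∀ w ∈ W, w = polar Q z' w • z + polar Q z w • z' := by
  have hU1 : finrank F U = 1 := by omega
  obtain ⟨z, hz, hz0⟩ : ∃ z ∈ U, z ≠ 0 := by
    have : U ≠ ⊥ := by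
      intro h; rw [h] at hU1; simp at hU1
    exact (Submodule.ne_bot_iff _).1 this
  obtain ⟨z', hz', hQz', hzz'⟩ := exists_partner hnd (hU hz) hz0 (hUs z hz)
  refine ⟨z, hU hz, z', hz', hUs z hz, hQz', hzz', fun w hw => ?_⟩
  have := expand Q W hW ![z, z'] ![z', z] (by intro i; fin_cases i <;> simp [hU hz, hz'])
    (by
      intro i j
      fin_cases i <;> fin_cases j <;>
        simp [polar_self, hUs z hz, hQz', hzz', polar_comm Q z' z]) hw
  simpa [Fin.sum_univ_two] using this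

/-- hyperbolic basis of a plus type space of dimension four -/
lemma hyp4 [FiniteDimensional F V] (hnd : ∀ w ∈ W, (∀ z ∈ W, polar Q z w = 0) → w = 0)
    (hW : finrank F W = 4) (U : Submodule F V) (hU : U ≤ W) (hUs : ∀ u ∈ U, Q u = 0)
    (hUr : 2 * finrank F U = finrank F W) :
    ∃ e1 ∈ W, ∃ f1 ∈ W, ∃ e2 ∈ W, ∃ f2 ∈ W, Q e1 = 0 ∧ Q f1 = 0 ∧ Q e2 = 0 ∧ Q f2 = 0 ∧
      polar Q e1 f1 = 1 ∧ polar Q e2 f2 = 1 ∧ polar Q e1 e2 = 0 ∧ polar Q e1 f2 = 0 ∧
      polar Q f1 e2 = 0 ∧ polar Q f1 f2 = 0 ∧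
      ∀ w ∈ W, w = polar Q f1 w • e1 + polar Q e1 w • f1 + polar Q f2 w • e2 + polar Q e2 w • f2 := by
  have hU2 : finrank F U = 2 := by omega
  have hUp : ∀ x ∈ U, ∀ y ∈ U, polar Q x y = 0 := by
    intro x hx y hy
    unfold polar
    rw [hUs _ (U.add_mem hx hy), hUs x hx, hUs y hy]; simp
  obtain ⟨e1, he1, he10⟩ : ∃ z ∈ U, z ≠ 0 := by
    have : U ≠ ⊥ := by
      intro h; rw [h] at hU2; simp at hU2
    exact (Submodule.ne_bot_iff _).1 this
  obtain ⟨e, he, hne⟩ : ∃ e ∈ U, e ∉ Submodule.span F {e1} := by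
    have hle : Submodule.span F {e1} ≤ U := by
      rw [Submodule.span_singleton_le_iff_mem]; exact he1
    have hlt : Submodule.span F {e1} < U := by
      refine lt_of_le_of_ne hle (fun h => ?_)
      have := finrank_span_singleton (K := F) he10
      rw [h, hU2] at this
      omega
    exact SetLike.exists_of_lt hlt
  obtain ⟨f1, hf1, hQf1, hef1⟩ := exists_partner hnd (hU he1) he10 (hUs e1 he1)
  have hfe1 : polar Q f1 e1 = 1 := by rw [polar_comm]; exact hef1
  set e2 := e + (-polar Q f1 e) • e1 with he2def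
  have he2U : e2 ∈ U := U.add_mem he (U.smul_mem _ he1)
  have he20 : e2 ≠ 0 := by
    intro h
    apply hne
    rw [Submodule.mem_span_singleton]
    refine ⟨polar Q f1 e, ?_⟩
    have h' : e + (-polar Q f1 e) • e1 = 0 := by rw [← he2def]; exact h
    rw [neg_smul, add_neg_eq_zero] at h'
    exact h'.symm
  have hf1e2 : polar Q f1 e2 = 0 := by
    rw [he2def, polar_add_right, polar_smul_right, hfe1]; simp
  have he1e2 : polar Q e1 e2 = 0 := hUp e1 he1 e2 he2U
  let W' : Submodule F V := W ⊓ LinearMap.ker (polarBilin Q e1) ⊓ LinearMap.ker (polarBilin Q f1)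
  have hW' : ∀ x, x ∈ W' ↔ x ∈ W ∧ polar Q e1 x = 0 ∧ polar Q f1 x = 0 := by
    intro x
    simp only [W', Submodule.mem_inf, LinearMap.mem_ker, polarBilin_apply_apply, and_assoc]
  have hnd' : ∀ w ∈ W', (∀ z ∈ W', polar Q z w = 0) → w = 0 := by
    intro w hw hz
    obtain ⟨hwW, hw1, hw2⟩ := (hW' w).1 hw
    apply hnd w hwW
    intro y hy
    have hy' : y - polar Q f1 y • e1 - polar Q e1 y • f1 ∈ W' := by
      rw [hW']
      refine ⟨W.sub_mem (W.sub_mem hy (W.smul_mem _ (hU he1))) (W.smul_mem _ hf1), ?_, ?_⟩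
      · simp [polar_sub_right, polar_smul_right, polar_self, hUs e1 he1, hef1]
      · simp [polar_sub_right, polar_smul_right, polar_self, hQf1, hfe1]
    have := hz _ hy'
    simpa [polar_sub_left, polar_smul_left, hw1, hw2] using this
  obtain ⟨f2, hf2, hQf2, hef2⟩ := exists_partner hnd' ((hW' e2).2 ⟨hU he2U, he1e2, hf1e2⟩) he20
    (hUs e2 he2U)
  obtain ⟨hf2W, he1f2, hf1f2⟩ := (hW' f2).1 hf2
  refine ⟨e1, hU he1, f1, hf1, e2, hU he2U, f2, hf2W, hUs e1 he1, hQf1, hUs e2 he2U, hQf2, hef1, hef2,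
    he1e2, he1f2, hf1e2, hf1f2, fun w hw => ?_⟩
  have := expand Q W hW ![e1, f1, e2, f2] ![f1, e1, f2, e2]
    (by intro i; fin_cases i <;> simp [hU he1, hf1, hU he2U, hf2W])
    (by
      intro i j
      fin_cases i <;> fin_cases j <;>
        simp [polar_self, hUs e1 he1, hQf1, hUs e2 he2U, hQf2, hef1, hfe1, hef2, polar_comm Q f2 e2,
          he1e2, polar_comm Q e2 e1, he1f2, polar_comm Q f2 e1, hf1e2, polar_comm Q e2 f1, hf1f2,
          polar_comm Q f2 f1]) hw
  simpa [Fin.sum_univ_four] using this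

end hyp

section planes

/-- a decomposition into hyperbolic planes with chosen hyperbolic pairs -/
structure HypDec (Q : QuadraticForm F V) {t : ℕ} (D : Fin t → Submodule F V) (z z' : Fin t → V) :
    Prop where
  horth : ∀ i j, i ≠ j → ∀ u ∈ D i, ∀ v ∈ D j, polar Q u v = 0
  hz : ∀ i, z i ∈ D i
  hz' : ∀ i, z' i ∈ D i
  Qz : ∀ i, Q (z i) = 0
  Qz' : ∀ i, Q (z' i) = 0
  pol : ∀ i, polar Q (z i) (z' i) = 1
  exp : ∀ i, ∀ w ∈ D i, w = polar Q (z' i) w • z i + polar Q (z i) w • z' i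

lemma not_block {Q : QuadraticForm F V} {t : ℕ} {D : Fin t → Submodule F V}
    (horth : ∀ i j, i ≠ j → ∀ u ∈ D i, ∀ v ∈ D j, polar Q u v = 0) {i j : Fin t} (hij : i ≠ j)
    {w x y : V} (hx : x ∈ D i) (hy : y ∈ D j) (hwx : polar Q w x ≠ 0) (hwy : polar Q w y ≠ 0)
    (l : Fin t) : w ∉ D l := by
  intro hw
  have h1 : l = i := by
    by_contra h; exact hwx (horth l i h w hw x hx)
  have h2 : l = j := by
    by_contra h; exact hwy (horth l j h w hw y hy)
  exact hij (h1.symm.trans h2)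

lemma not_decStab {Q : QuadraticForm F V} {t : ℕ} {D : Fin t → Submodule F V}
    (horth : ∀ i j, i ≠ j → ∀ u ∈ D i, ∀ v ∈ D j, polar Q u v = 0) {φ : V ≃ₗ[F] V} {i j l : Fin t}
    (hij : i ≠ j) {v x y : V} (hv : v ∈ D l) (hx : x ∈ D i) (hy : y ∈ D j)
    (hwx : polar Q (φ v) x ≠ 0) (hwy : polar Q (φ v) y ≠ 0) : ¬ DecStab D φ := by
  rintro ⟨σ, hσ⟩
  refine not_block horth hij hx hy hwx hwy (σ l) ?_
  rw [← hσ l]
  exact Submodule.mem_map_of_mem hv

namespace HypDec

variable {Q : QuadraticForm F V} {t : ℕ} {D : Fin t → Submodule F V} {z z' : Fin t → V}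

lemma zz (P : HypDec Q D z z') (i j : Fin t) : polar Q (z i) (z j) = 0 := by
  by_cases h : i = j
  · subst h; rw [polar_self, P.Qz]; simp
  · exact P.horth i j h _ (P.hz i) _ (P.hz j)

lemma z'z' (P : HypDec Q D z z') (i j : Fin t) : polar Q (z' i) (z' j) = 0 := by
  by_cases h : i = j
  · subst h; rw [polar_self, P.Qz']; simp
  · exact P.horth i j h _ (P.hz' i) _ (P.hz' j)

lemma zz' (P : HypDec Q D z z') (i j : Fin t) : polar Q (z i) (z' j) = if i = j then 1 else 0 := by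
  by_cases h : i = j
  · subst h; rw [P.pol]; simp
  · rw [if_neg h]; exact P.horth i j h _ (P.hz i) _ (P.hz' j)

lemma z'z (P : HypDec Q D z z') (i j : Fin t) : polar Q (z' i) (z j) = if i = j then 1 else 0 := by
  rw [polar_comm, P.zz']
  simp [eq_comm]

lemma Qxy (P : HypDec Q D z z') (i : Fin t) (x y : F) : Q (x • z i + y • z' i) = x * y := by
  rw [QuadraticMap.map_add (⇑Q), QuadraticMap.map_smul, QuadraticMap.map_smul, P.Qz, P.Qz',
    polar_smul_left, polar_smul_right, P.pol]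
  simp

lemma Qw (P : HypDec Q D z z') (i : Fin t) {w : V} (hw : w ∈ D i) :
    Q w = polar Q (z' i) w * polar Q (z i) w := by
  conv_lhs => rw [P.exp i w hw]
  rw [P.Qxy]

lemma Qzz (P : HypDec Q D z z') (i j : Fin t) : Q (z i + z j) = 0 := by
  rw [QuadraticMap.map_add (⇑Q), P.Qz, P.Qz, P.zz]; simp

lemma pol_z_s (P : HypDec Q D z z') (j : Fin t) : polar Q (z j) (∑ i, (z i + z' i)) = 1 := by
  change polarBilin Q (z j) (∑ i, (z i + z' i)) = 1
  rw [map_sum]
  simp [polar_add_right, P.zz, P.zz']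

/-- `q = 2`: the sum of the nonsingular block vectors is fixed -/
lemma q2_stab (P : HypDec Q D z z') (h01 : ∀ x : F, x = 0 ∨ x = 1) {φ : V ≃ₗ[F] V} (hφ : φ ∈ OQ Q)
    (hs : DecStab D φ) : φ (∑ i, (z i + z' i)) = ∑ i, (z i + z' i) := by
  obtain ⟨σ, hσ⟩ := hs
  have huniq : ∀ j, ∀ w ∈ D j, Q w = 1 → w = z j + z' j := by
    intro j w hw hQ
    rw [P.Qw j hw] at hQ
    rw [P.exp j w hw]
    rcases h01 (polar Q (z' j) w) with h1 | h1 <;> rcases h01 (polar Q (z j) w) with h2 | h2 <;>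
      simp [h1, h2] at hQ ⊢
  have hQa : ∀ i, Q (z i + z' i) = 1 := by
    intro i
    have := P.Qxy i 1 1
    simpa using this
  have h1 : ∀ i, φ (z i + z' i) = z (σ i) + z' (σ i) := by
    intro i
    apply huniq
    · rw [← hσ i]
      exact Submodule.mem_map_of_mem ((D i).add_mem (P.hz i) (P.hz' i))
    · rw [mem_OQ.1 hφ, hQa]
  rw [map_sum]
  simp only [h1]
  exact Equiv.sum_comp σ (fun i => z i + z' i)

lemma q2_h2 (P : HypDec Q D z z') (h2 : (2 : F) = 0) {i1 i2 i3 i4 : Fin t} (h12 : i1 ≠ i2) (h13 : i1 ≠ i3)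
    (h14 : i1 ≠ i4) (h34 : i3 ≠ i4) (huv : polar Q (z i1 + z i2) (z i3 + z i4) = 0) :
    eichler Q (z i1 + z i2) (z i3 + z i4) (P.Qzz i1 i2) huv (∑ i, (z i + z' i)) = ∑ i, (z i + z' i) ∧
      ¬ DecStab D (eichler Q (z i1 + z i2) (z i3 + z i4) (P.Qzz i1 i2) huv) := by
  constructor
  · rw [eichler_apply]
    simp only [polar_add_left, P.pol_z_s, P.Qzz]
    have : (1 : F) + 1 = 0 := by rw [← h2]; norm_num
    simp [this]
  · refine not_decStab P.horth h13 (P.hz' i1) (P.hz i1) (P.hz' i3) ?_ ?_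
    · rw [eichler_apply]
      simp [polar_add_left, polar_sub_left, polar_smul_left, P.zz, P.zz', P.z'z, P.z'z', P.Qzz, h13,
        h14, h13.symm, h14.symm, h34, h34.symm, h12, h12.symm]
    · rw [eichler_apply]
      simp [polar_add_left, polar_sub_left, polar_smul_left, P.zz, P.zz', P.z'z, P.z'z', P.Qzz, h13,
        h14, h13.symm, h14.symm, h34, h34.symm, h12, h12.symm]

lemma q2_h3 (P : HypDec Q D z z') {i1 i2 : Fin t} (h12 : i1 ≠ i2) :
    eichler Q (z i1) (z i2) (P.Qz i1) (P.zz i1 i2) (∑ i, (z i + z' i)) ≠ ∑ i, (z i + z' i) := by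
  rw [eichler_apply]
  simp only [P.pol_z_s, P.Qz]
  intro h
  simp only [one_smul, zero_mul, zero_smul, sub_zero] at h
  have h1 : z i1 - z i2 = 0 := by
    rw [add_sub_assoc] at h
    exact add_eq_left.1 h
  have h2 := congrArg (fun v => polar Q v (z' i1)) h1
  simp [polar_sub_left, P.zz', h12, h12.symm] at h2

end HypDec

lemma setStab_closure {S : Set V} {φ : V ≃ₗ[F] V} (h : φ ∈ setStab (F := F) S) :
    φ ∈ setStab (F := F) ((AddSubgroup.closure S : AddSubgroup V) : Set V) := by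
  have key : ∀ ψ : V ≃ₗ[F] V, ψ ∈ setStab (F := F) S →
      ∀ v ∈ ((AddSubgroup.closure S : AddSubgroup V) : Set V),
        ψ v ∈ ((AddSubgroup.closure S : AddSubgroup V) : Set V) := by
    intro ψ hψ v hv
    induction hv using AddSubgroup.closure_induction with
    | mem x hx => exact AddSubgroup.subset_closure ((hψ x).1 hx)
    | zero => rw [map_zero]; exact AddSubgroup.zero_mem _
    | add x y _ _ hx hy => rw [map_add]; exact AddSubgroup.add_mem _ hx hy
    | neg x _ hx => rw [map_neg]; exact AddSubgroup.neg_mem _ hx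
  exact Tens.mem_setStab_of_maps (key φ h) (key φ⁻¹ (Subgroup.inv_mem _ h))

namespace HypDec

variable {Q : QuadraticForm F V} {t : ℕ} {D : Fin t → Submodule F V} {z z' : Fin t → V}

/-- the additive span of the norm one block vectors -/
def Lam (Q : QuadraticForm F V) (D : Fin t → Submodule F V) : AddSubgroup V :=
  AddSubgroup.closure (frameSet Q D 1)

lemma pol_frame (P : HypDec Q D z z') (h2 : (2 : F) = 0) (hcube : ∀ x : F, x ≠ 0 → x * x * x = 1)
    {v w : V} (hv : v ∈ frameSet Q D 1) (hw : w ∈ frameSet Q D 1) :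
    polar Q v w * polar Q v w = polar Q v w := by
  obtain ⟨i, hvi, hQv⟩ := hv
  obtain ⟨j, hwj, hQw⟩ := hw
  by_cases hij : i = j
  · subst hij
    rw [P.Qw i hvi] at hQv
    rw [P.Qw i hwj] at hQw
    have e : polar Q v w = polar Q (z' i) v * polar Q (z i) w + polar Q (z i) v * polar Q (z' i) w := by
      conv_lhs => rw [P.exp i v hvi, P.exp i w hwj]
      simp [polar_add_left, polar_add_right, polar_smul_left, polar_smul_right, P.zz, P.zz', P.z'z,
        P.z'z']
      ring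
    rw [e]
    set x := polar Q (z' i) v
    set y := polar Q (z i) v
    set x' := polar Q (z' i) w
    set y' := polar Q (z i) w
    have hρσ : (x * y') * (y * x') = 1 := by
      calc (x * y') * (y * x') = (x * y) * (x' * y') := by ring
        _ = 1 := by rw [hQv, hQw, one_mul]
    have hρ0 : x * y' ≠ 0 := left_ne_zero_of_mul_eq_one hρσ
    have hσ0 : y * x' ≠ 0 := right_ne_zero_of_mul_eq_one hρσ
    have h1 : (x * y') * (x * y') = y * x' := by
      apply mul_right_cancel₀ hρ0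
      rw [hcube _ hρ0, mul_comm, hρσ]
    have h3 : (y * x') * (y * x') = x * y' := by
      apply mul_right_cancel₀ hσ0
      rw [hcube _ hσ0, hρσ]
    calc (x * y' + y * x') * (x * y' + y * x')
        = (x * y') * (x * y') + (y * x') * (y * x') + 2 * ((x * y') * (y * x')) := by ring
      _ = x * y' + y * x' := by rw [h1, h3, h2]; ring
  · rw [P.horth i j hij v hvi w hwj]; simp

lemma idem_add (h2 : (2 : F) = 0) {a b : F} (ha : a * a = a) (hb : b * b = b) :
    (a + b) * (a + b) = a + b := by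
  calc (a + b) * (a + b) = a * a + b * b + 2 * (a * b) := by ring
    _ = a + b := by rw [ha, hb, h2]; ring

lemma idem_neg (h2 : (2 : F) = 0) {a : F} (ha : a * a = a) : (-a) * (-a) = -a := by
  have : -a = a := by linear_combination (-a) * h2
  rw [this, ha]

lemma pol_Lam (P : HypDec Q D z z') (h2 : (2 : F) = 0) (hcube : ∀ x : F, x ≠ 0 → x * x * x = 1)
    {v w : V} (hv : v ∈ Lam Q D) (hw : w ∈ Lam Q D) : polar Q v w * polar Q v w = polar Q v w := by
  induction hv using AddSubgroup.closure_induction with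
  | mem x hx =>
    induction hw using AddSubgroup.closure_induction with
    | mem y hy => exact P.pol_frame h2 hcube hx hy
    | zero => simp
    | add a b _ _ ha hb => rw [polar_add_right]; exact idem_add h2 ha hb
    | neg a _ ha => rw [polar_neg_right]; exact idem_neg h2 ha
  | zero => simp
  | add a b _ _ ha hb => rw [polar_add_left]; exact idem_add h2 ha hb
  | neg a _ ha => rw [polar_neg_left]; exact idem_neg h2 ha

lemma smul_mem_Lam {c : F} (hc : c * c = c) {u : V} (hu : u ∈ Lam Q D) : c • u ∈ Lam Q D := by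
  have : c * (c - 1) = 0 := by linear_combination hc
  rcases mul_eq_zero.1 this with h | h
  · rw [h, zero_smul]; exact AddSubgroup.zero_mem _
  · rw [sub_eq_zero.1 h, one_smul]; exact hu

lemma eich_maps_Lam (P : HypDec Q D z z') (h2 : (2 : F) = 0)
    (hcube : ∀ x : F, x ≠ 0 → x * x * x = 1) {u w : V} (hu : u ∈ Lam Q D) (hw : w ∈ Lam Q D)
    (hQw : Q w * Q w = Q w) {x : V} (hx : x ∈ Lam Q D) : eichlerLin Q u w x ∈ Lam Q D := by
  rw [eichlerLin_apply]
  refine AddSubgroup.sub_mem _ (AddSubgroup.sub_mem _ (AddSubgroup.add_mem _ hx ?_) ?_) ?_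
  · exact smul_mem_Lam (P.pol_Lam h2 hcube hw hx) hu
  · exact smul_mem_Lam (P.pol_Lam h2 hcube hu hx) hw
  · refine smul_mem_Lam ?_ hu
    have := P.pol_Lam h2 hcube hu hx
    calc Q w * polar Q u x * (Q w * polar Q u x) = (Q w * Q w) * (polar Q u x * polar Q u x) := by ring
      _ = _ := by rw [hQw, this]

lemma eich_mem_setStab (P : HypDec Q D z z') (h2 : (2 : F) = 0)
    (hcube : ∀ x : F, x ≠ 0 → x * x * x = 1) {u w : V} (hu : u ∈ Lam Q D) (hw : w ∈ Lam Q D)
    (hQw : Q w * Q w = Q w) (hQu : Q u = 0) (huw : polar Q u w = 0) :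
    eichler Q u w hQu huw ∈ setStab (F := F) (Lam Q D : Set V) := by
  apply Tens.mem_setStab_of_maps
  · intro v hv
    exact P.eich_maps_Lam h2 hcube hu hw hQw hv
  · intro v hv
    have : (eichler Q u w hQu huw)⁻¹ v = eichlerLin Q u (-w) v := rfl
    rw [this]
    exact P.eich_maps_Lam h2 hcube hu (AddSubgroup.neg_mem _ hw) (by rw [QuadraticMap.map_neg]; exact hQw) hv

/-- `q = 4`: data for the subfield subgroup -/
lemma q4_a_mem (P : HypDec Q D z z') (i : Fin t) : z i + z' i ∈ Lam Q D := by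
  apply AddSubgroup.subset_closure
  refine ⟨i, (D i).add_mem (P.hz i) (P.hz' i), ?_⟩
  have := P.Qxy i 1 1
  simpa using this

lemma q4_b_mem (P : HypDec Q D z z') (h2 : (2 : F) = 0) {ω : F} (hω : ω * ω + ω + 1 = 0) (i : Fin t) :
    ω • z i + (ω + 1) • z' i ∈ Lam Q D := by
  apply AddSubgroup.subset_closure
  refine ⟨i, (D i).add_mem ((D i).smul_mem _ (P.hz i)) ((D i).smul_mem _ (P.hz' i)), ?_⟩
  rw [P.Qxy]
  linear_combination hω - h2

lemma q4_Qa (P : HypDec Q D z z') (i : Fin t) : Q (z i + z' i) = 1 := by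
  have := P.Qxy i 1 1
  simpa using this

lemma q4_h2 (P : HypDec Q D z z') (h2 : (2 : F) = 0) (hcube : ∀ x : F, x ≠ 0 → x * x * x = 1)
    {ω : F} (hω : ω * ω + ω + 1 = 0) {i1 i2 i3 : Fin t} (h12 : i1 ≠ i2) (h13 : i1 ≠ i3)
    (h23 : i2 ≠ i3) :
    ∃ (hQu : Q ((z i1 + z' i1) + (z i2 + z' i2)) = 0)
      (huw : polar Q ((z i1 + z' i1) + (z i2 + z' i2)) (z i3 + z' i3) = 0),
      eichler Q _ _ hQu huw ∈ setStab (F := F) (Lam Q D : Set V) ∧ ¬ DecStab D (eichler Q _ _ hQu huw) := by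
  have hQu : Q ((z i1 + z' i1) + (z i2 + z' i2)) = 0 := by
    rw [QuadraticMap.map_add (⇑Q), P.q4_Qa, P.q4_Qa]
    simp [polar_add_left, polar_add_right, P.zz, P.zz', P.z'z, P.z'z', h12, h12.symm]
    linear_combination h2
  have huw : polar Q ((z i1 + z' i1) + (z i2 + z' i2)) (z i3 + z' i3) = 0 := by
    simp [polar_add_left, polar_add_right, P.zz, P.zz', P.z'z, P.z'z', h13, h23]
  refine ⟨hQu, huw, ?_, ?_⟩
  · exact P.eich_mem_setStab h2 hcube (AddSubgroup.add_mem _ (P.q4_a_mem i1) (P.q4_a_mem i2))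
      (P.q4_a_mem i3) (by rw [P.q4_Qa]; simp) hQu huw
  · have hb : ω • z i1 + (ω + 1) • z' i1 ∈ D i1 :=
      (D i1).add_mem ((D i1).smul_mem _ (P.hz i1)) ((D i1).smul_mem _ (P.hz' i1))
    have hc : ω + 1 + ω = 1 := by linear_combination ω * h2
    refine not_decStab P.horth h23 hb (P.hz i2) (P.hz i3) ?_ ?_
    · rw [eichler_apply]
      simp [polar_add_left, polar_add_right, polar_sub_left, polar_smul_left, polar_smul_right, P.zz,
        P.zz', P.z'z, P.z'z', P.q4_Qa, h12, h12.symm, h13, h13.symm, h23, h23.symm, hc]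
      intro h
      exact one_ne_zero (show (1 : F) = 0 by linear_combination (-1 : F) * h - ω * h2)
    · rw [eichler_apply]
      simp [polar_add_left, polar_add_right, polar_sub_left, polar_smul_left, polar_smul_right, P.zz,
        P.zz', P.z'z, P.z'z', P.q4_Qa, h12, h12.symm, h13, h13.symm, h23, h23.symm, hc]
      intro h
      exact one_ne_zero (show (1 : F) = 0 by linear_combination (-1 : F) * h - ω * h2)

lemma q4_h3 (P : HypDec Q D z z') (h2 : (2 : F) = 0) (hcube : ∀ x : F, x ≠ 0 → x * x * x = 1)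
    {ω : F} (hω : ω * ω + ω + 1 = 0) {i1 i2 : Fin t} (h12 : i1 ≠ i2) :
    eichler Q (z i1) (z i2) (P.Qz i1) (P.zz i1 i2) ∉ setStab (F := F) (Lam Q D : Set V) := by
  intro hmem
  have h1 := (hmem _).1 (P.q4_a_mem i1)
  have h3 := P.pol_Lam h2 hcube h1 (P.q4_b_mem h2 hω i2)
  rw [eichler_apply] at h3
  simp [polar_add_left, polar_add_right, polar_sub_left, polar_smul_left, polar_smul_right, P.zz,
    P.zz', P.z'z, P.z'z', P.Qz, h12, h12.symm] at h3
  exact one_ne_zero (show (1 : F) = 0 by linear_combination h3 - hω - ω * h2)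

end HypDec

end planes

section ani

lemma star_of_ani {Q : QuadraticForm F V} {W : Submodule F V} (h2 : (2 : F) = 0)
    (h01 : ∀ x : F, x = 0 ∨ x = 1) {p r : V} (hpW : p ∈ W) (hrW : r ∈ W) (Qp : Q p = 1) (Qr : Q r = 1)
    (hpr : polar Q p r = 1)
    (hani : ∀ v ∈ W, polar Q p v = 0 → polar Q r v = 0 → Q v = 0 → v = 0) :
    ∀ v ∈ W, Q v = 1 → (polar Q p v = 0 ∧ polar Q r v = 0) ∨ v = polar Q r v • p + polar Q p v • r := by
  intro v hv hQ
  have hrp : polar Q r p = 1 := by rw [polar_comm]; exact hpr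
  have hpp : polar Q p p = 0 := by rw [polar_self, Qp]; simpa using h2
  have hrr : polar Q r r = 0 := by rw [polar_self, Qr]; simpa using h2
  obtain ⟨a, ha⟩ : ∃ a, a = polar Q r v := ⟨_, rfl⟩
  obtain ⟨b, hb⟩ : ∃ b, b = polar Q p v := ⟨_, rfl⟩
  rw [← ha, ← hb]
  obtain ⟨v1, hv1⟩ : ∃ v1, v1 = v - (a • p + b • r) := ⟨_, rfl⟩
  have hv1W : v1 ∈ W := by
    rw [hv1]; exact W.sub_mem hv (W.add_mem (W.smul_mem _ hpW) (W.smul_mem _ hrW))
  have k1 : polar Q p v1 = 0 := by
    rw [hv1]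
    simp [polar_sub_right, polar_add_right, polar_smul_right, hpp, hpr, ← hb]
  have k2 : polar Q r v1 = 0 := by
    rw [hv1]
    simp [polar_sub_right, polar_add_right, polar_smul_right, hrr, hrp, ← ha]
  have e : v = v1 + (a • p + b • r) := by rw [hv1]; abel
  have k4 : Q (a • p + b • r) = a * a + a * b + b * b := by
    rw [QuadraticMap.map_add (⇑Q), QuadraticMap.map_smul, QuadraticMap.map_smul, Qp, Qr,
      polar_smul_left, polar_smul_right, hpr]
    simp only [smul_eq_mul]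
    ring
  have k5 : polar Q v1 (a • p + b • r) = 0 := by
    rw [polar_add_right, polar_smul_right, polar_smul_right, polar_comm Q v1 p, polar_comm Q v1 r, k1,
      k2]
    simp
  have k3 : 1 = Q v1 + (a * a + a * b + b * b) := by
    rw [← hQ, e, QuadraticMap.map_add (⇑Q), k4, k5, add_zero]
  have fin : Q v1 = 0 → v = a • p + b • r := by
    intro hz
    have := hani v1 hv1W k1 k2 hz
    rw [e, this, zero_add]
  rcases h01 a with a0 | a1 <;> rcases h01 b with b0 | b1
  · exact Or.inl ⟨b0, a0⟩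
  · right; apply fin; rw [a0, b1] at k3; linear_combination -k3
  · right; apply fin; rw [a1, b0] at k3; linear_combination -k3
  · right; apply fin; rw [a1, b1] at k3; linear_combination -k3 - h2

/-- anisotropic plane data in a plus type space of dimension four over the field of two elements -/
lemma ani4 [FiniteDimensional F V] {Q : QuadraticForm F V} {W : Submodule F V} (h2 : (2 : F) = 0)
    (h01 : ∀ x : F, x = 0 ∨ x = 1)
    (hnd : ∀ w ∈ W, (∀ z ∈ W, polar Q z w = 0) → w = 0)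
    (hW : finrank F W = 4) (U : Submodule F V) (hU : U ≤ W) (hUs : ∀ u ∈ U, Q u = 0)
    (hUr : 2 * finrank F U = finrank F W) :
    ∃ p ∈ W, ∃ r ∈ W, ∃ x ∈ W, ∃ y ∈ W, Q p = 1 ∧ Q r = 1 ∧ polar Q p r = 1 ∧ polar Q p x = 0 ∧
      polar Q r x = 0 ∧ polar Q x y ≠ 0 ∧
      ∀ v ∈ W, Q v = 1 → (polar Q p v = 0 ∧ polar Q r v = 0) ∨ v = polar Q r v • p + polar Q p v • r := by
  obtain ⟨e1, he1, f1, hf1, e2, he2, f2, hf2, Qe1, Qf1, Qe2, Qf2, e1f1, e2f2, e1e2, e1f2, f1e2, f1f2,
    hexp⟩ := hyp4 hnd hW U hU hUs hUr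
  have h11 : (1 : F) + 1 = 0 := by rw [← h2]; norm_num
  have f1e1 : polar Q f1 e1 = 1 := by rw [polar_comm]; exact e1f1
  have f2e2 : polar Q f2 e2 = 1 := by rw [polar_comm]; exact e2f2
  have e2e1 : polar Q e2 e1 = 0 := by rw [polar_comm]; exact e1e2
  have f2e1 : polar Q f2 e1 = 0 := by rw [polar_comm]; exact e1f2
  have e2f1 : polar Q e2 f1 = 0 := by rw [polar_comm]; exact f1e2
  have f2f1 : polar Q f2 f1 = 0 := by rw [polar_comm]; exact f1f2
  have Qp : Q (e1 + f1) = 1 := by rw [QuadraticMap.map_add (⇑Q), Qe1, Qf1, e1f1]; simp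
  have Qp' : Q (e2 + f2) = 1 := by rw [QuadraticMap.map_add (⇑Q), Qe2, Qf2, e2f2]; simp
  have Qr : Q (e1 + (e2 + f2)) = 1 := by
    rw [QuadraticMap.map_add (⇑Q), Qe1, Qp', polar_add_right, e1e2, e1f2]; simp
  have hpr : polar Q (e1 + f1) (e1 + (e2 + f2)) = 1 := by
    simp [polar_add_left, polar_add_right, polar_self, Qe1, e1e2, e1f2, f1e1, f1e2, f1f2]
  have hQv : ∀ v ∈ W, Q v = polar Q f1 v * polar Q e1 v + polar Q f2 v * polar Q e2 v := by
    intro v hv
    conv_lhs => rw [hexp v hv]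
    simp only [QuadraticMap.map_add (⇑Q), QuadraticMap.map_smul, Qe1, Qf1, Qe2, Qf2, polar_add_left,
      polar_smul_left, polar_smul_right, e1f1, e1e2, e1f2, f1e2, f1f2, e2f2, smul_eq_mul]
    ring
  -- the orthogonal complement of the plane is anisotropic
  have hani : ∀ v ∈ W, polar Q (e1 + f1) v = 0 → polar Q (e1 + (e2 + f2)) v = 0 → Q v = 0 → v = 0 := by
    intro v hv h1 h3 h4
    rw [hQv v hv] at h4
    simp only [polar_add_left] at h1 h3
    rw [hexp v hv]
    rcases h01 (polar Q f1 v) with a | a <;> rcases h01 (polar Q e1 v) with b | b <;>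
      rcases h01 (polar Q f2 v) with c | c <;> rcases h01 (polar Q e2 v) with d | d <;>
      simp [a, b, c, d, h11] at h1 h3 h4 ⊢
  refine ⟨e1 + f1, W.add_mem he1 hf1, e1 + (e2 + f2), W.add_mem he1 (W.add_mem he2 hf2), e2 + f2,
    W.add_mem he2 hf2, e2, he2, Qp, Qr, hpr, ?_, ?_, ?_, ?_⟩
  · simp [polar_add_left, polar_add_right, e1e2, e1f2, f1e2, f1f2]
  · simp [polar_add_left, polar_add_right, polar_self, e1e2, e1f2, Qe2, Qf2, e2f2, f2e2, h11]
  · simp [polar_add_left, polar_self, Qe2, f2e2]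
  · exact star_of_ani h2 h01 (W.add_mem he1 hf1) (W.add_mem he1 (W.add_mem he2 hf2)) Qp Qr hpr hani

/-- blocks with a distinguished anisotropic plane `⟨p, r⟩` -/
structure AniDec (Q : QuadraticForm F V) {t : ℕ} (D : Fin t → Submodule F V) (p r x y : Fin t → V) :
    Prop where
  horth : ∀ i j, i ≠ j → ∀ u ∈ D i, ∀ v ∈ D j, polar Q u v = 0
  hp : ∀ i, p i ∈ D i
  hr : ∀ i, r i ∈ D i
  hx : ∀ i, x i ∈ D i
  hy : ∀ i, y i ∈ D i
  Qp : ∀ i, Q (p i) = 1
  Qr : ∀ i, Q (r i) = 1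
  pr : ∀ i, polar Q (p i) (r i) = 1
  px : ∀ i, polar Q (p i) (x i) = 0
  rx : ∀ i, polar Q (r i) (x i) = 0
  xy : ∀ i, polar Q (x i) (y i) ≠ 0
  star : ∀ i, ∀ v ∈ D i, Q v = 1 → (polar Q (p i) v = 0 ∧ polar Q (r i) v = 0) ∨
    v = polar Q (r i) v • p i + polar Q (p i) v • r i

namespace AniDec

variable {Q : QuadraticForm F V} {t : ℕ} {D : Fin t → Submodule F V} {p r x y : Fin t → V}

lemma ppz (A : AniDec Q D p r x y) (h2 : (2 : F) = 0) (i j : Fin t) : polar Q (p i) (p j) = 0 := by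
  by_cases h : i = j
  · subst h; rw [polar_self, A.Qp]; simpa using h2
  · exact A.horth i j h _ (A.hp i) _ (A.hp j)

lemma rrz (A : AniDec Q D p r x y) (h2 : (2 : F) = 0) (i j : Fin t) : polar Q (r i) (r j) = 0 := by
  by_cases h : i = j
  · subst h; rw [polar_self, A.Qr]; simpa using h2
  · exact A.horth i j h _ (A.hr i) _ (A.hr j)

lemma prz (A : AniDec Q D p r x y) (i j : Fin t) : polar Q (p i) (r j) = if i = j then 1 else 0 := by
  by_cases h : i = j
  · subst h; rw [A.pr]; simp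
  · rw [if_neg h]; exact A.horth i j h _ (A.hp i) _ (A.hr j)

lemma rpz (A : AniDec Q D p r x y) (i j : Fin t) : polar Q (r i) (p j) = if i = j then 1 else 0 := by
  rw [polar_comm, A.prz]; simp [eq_comm]

lemma Qu (A : AniDec Q D p r x y) (h2 : (2 : F) = 0) (i j : Fin t) : Q (p i + p j) = 0 := by
  rw [QuadraticMap.map_add (⇑Q), A.Qp, A.Qp, A.ppz h2]; linear_combination h2

lemma Qw (A : AniDec Q D p r x y) (h2 : (2 : F) = 0) (i j : Fin t) : Q (r i + r j) = 0 := by
  rw [QuadraticMap.map_add (⇑Q), A.Qr, A.Qr, A.rrz h2]; linear_combination h2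

lemma uw (A : AniDec Q D p r x y) (h2 : (2 : F) = 0) {i j : Fin t} (hij : i ≠ j) :
    polar Q (p i + p j) (r i + r j) = 0 := by
  simp [polar_add_left, polar_add_right, A.prz, hij, hij.symm]
  linear_combination h2

lemma lin_frame1 (A : AniDec Q D p r x y) (h2 : (2 : F) = 0) {i j : Fin t} (hij : i ≠ j) {v : V}
    (hv : v ∈ D i) (hQ : Q v = 1) : eichlerLin Q (p i + p j) (r i + r j) v ∈ frameSet Q D 1 := by
  have hQE : Q (eichlerLin Q (p i + p j) (r i + r j) v) = 1 := by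
    rw [← hQ]
    exact eichler_mem Q _ _ (A.Qu h2 i j) (A.uw h2 hij) v
  have h1 : polar Q (r j) v = 0 := A.horth j i hij.symm _ (A.hr j) _ hv
  have h3 : polar Q (p j) v = 0 := A.horth j i hij.symm _ (A.hp j) _ hv
  have hE : eichlerLin Q (p i + p j) (r i + r j) v
      = v + polar Q (r i) v • (p i + p j) - polar Q (p i) v • (r i + r j) := by
    rw [eichlerLin_apply, A.Qw h2]
    simp [polar_add_left, h1, h3]
  rcases A.star i v hv hQ with ⟨k1, k2⟩ | k
  · rw [hE, k1, k2, zero_smul, zero_smul, add_zero, sub_zero]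
    exact ⟨i, hv, hQ⟩
  · refine ⟨j, ?_, hQE⟩
    obtain ⟨a, ha⟩ : ∃ a, a = polar Q (r i) v := ⟨_, rfl⟩
    obtain ⟨b, hb⟩ : ∃ b, b = polar Q (p i) v := ⟨_, rfl⟩
    rw [hE, ← ha, ← hb]
    rw [← ha, ← hb] at k
    have h2a : a • p i + a • p i = 0 := by rw [← add_smul, ← two_mul, h2, zero_mul, zero_smul]
    have : v + a • (p i + p j) - b • (r i + r j) = a • p j - b • r j := by
      calc v + a • (p i + p j) - b • (r i + r j)
          = (a • p i + a • p i) + (a • p j - b • r j) := by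
            rw [k]; simp only [smul_add]; abel
        _ = _ := by rw [h2a, zero_add]
    rw [this]
    exact (D j).sub_mem ((D j).smul_mem _ (A.hp j)) ((D j).smul_mem _ (A.hr j))

lemma lin_frame (A : AniDec Q D p r x y) (h2 : (2 : F) = 0) {i j : Fin t} (hij : i ≠ j) {v : V}
    (hv : v ∈ frameSet Q D 1) : eichlerLin Q (p i + p j) (r i + r j) v ∈ frameSet Q D 1 := by
  obtain ⟨l, hvl, hQ⟩ := hv
  by_cases hli : l = i
  · subst hli; exact A.lin_frame1 h2 hij hvl hQ
  by_cases hlj : l = j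
  · subst hlj
    rw [add_comm (p i), add_comm (r i)]
    exact A.lin_frame1 h2 hij.symm hvl hQ
  · have e : eichlerLin Q (p i + p j) (r i + r j) v = v := by
      rw [eichlerLin_apply]
      simp [polar_add_left, A.horth i l (Ne.symm hli) _ (A.hp i) _ hvl,
        A.horth j l (Ne.symm hlj) _ (A.hp j) _ hvl, A.horth i l (Ne.symm hli) _ (A.hr i) _ hvl,
        A.horth j l (Ne.symm hlj) _ (A.hr j) _ hvl]
    rw [e]; exact ⟨l, hvl, hQ⟩

lemma k4_h2 (A : AniDec Q D p r x y) (h2 : (2 : F) = 0) {i j : Fin t} (hij : i ≠ j) :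
    eichler Q (p i + p j) (r i + r j) (A.Qu h2 i j) (A.uw h2 hij) ∈ setStab (F := F) (frameSet Q D 1) ∧
      ¬ DecStab D (eichler Q (p i + p j) (r i + r j) (A.Qu h2 i j) (A.uw h2 hij)) := by
  constructor
  · apply Tens.mem_setStab_of_maps
    · intro v hv
      exact A.lin_frame h2 hij hv
    · intro v hv
      have e1 : (eichler Q (p i + p j) (r i + r j) (A.Qu h2 i j) (A.uw h2 hij))⁻¹ v
          = eichlerLin Q (p i + p j) (-(r i + r j)) v := rfl
      have e2 : -(r i + r j) = r i + r j := by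
        have : (r i + r j) + (r i + r j) = 0 := by
          rw [← two_smul F, h2, zero_smul]
        exact neg_eq_of_add_eq_zero_left this
      rw [e1, e2]
      exact A.lin_frame h2 hij hv
  · rintro ⟨σ, hσ⟩
    have f1 : eichler Q (p i + p j) (r i + r j) (A.Qu h2 i j) (A.uw h2 hij) (p i) = p j := by
      rw [eichler_apply]
      simp [polar_add_left, A.ppz h2, A.rpz, hij, hij.symm]
      rw [← add_assoc, ← two_smul F, h2, zero_smul, zero_add]
    have f2 : eichler Q (p i + p j) (r i + r j) (A.Qu h2 i j) (A.uw h2 hij) (x i) = x i := by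
      rw [eichler_apply]
      simp [polar_add_left, A.px, A.rx, A.horth j i hij.symm _ (A.hp j) _ (A.hx i),
        A.horth j i hij.symm _ (A.hr j) _ (A.hx i)]
    have m1 : p j ∈ D (σ i) := by
      rw [← hσ i]; exact ⟨p i, A.hp i, f1⟩
    have m2 : x i ∈ D (σ i) := by
      rw [← hσ i]; exact ⟨x i, A.hx i, f2⟩
    have s1 : σ i = j := by
      by_contra h
      have := A.horth (σ i) j h _ m1 _ (A.hr j)
      rw [A.pr] at this
      exact one_ne_zero this
    have s2 : σ i = i := by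
      by_contra h
      exact A.xy i (A.horth (σ i) i h _ m2 _ (A.hy i))
    exact hij (s2.symm.trans s1)

lemma k4_h3 (A : AniDec Q D p r x y) (h2 : (2 : F) = 0) {i j l : Fin t} (hij : i ≠ j) (hil : i ≠ l)
    (hjl : j ≠ l) (huw : polar Q (p i + p j) (p l) = 0) :
    eichler Q (p i + p j) (p l) (A.Qu h2 i j) huw ∉ setStab (F := F) (frameSet Q D 1) := by
  intro hmem
  obtain ⟨m, hm, -⟩ := (hmem (r i)).1 ⟨i, A.hr i, A.Qr i⟩
  refine not_block A.horth hjl (A.hr j) (A.hr l) ?_ ?_ m hm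
  · rw [eichler_apply]
    simp [polar_add_left, polar_sub_left, polar_smul_left, A.prz, A.rrz h2, A.Qp, hij, hij.symm, hil,
      hil.symm, hjl, hjl.symm]
  · rw [eichler_apply]
    simp [polar_add_left, polar_sub_left, polar_smul_left, A.prz, A.rrz h2, A.Qp, hij, hij.symm, hil,
      hil.symm, hjl, hjl.symm]

end AniDec

end ani

section wrap

variable {ι : Type} [Fintype ι] [DecidableEq ι] {F : Type*} [Field F] [Fintype F]

lemma fin_ne {t : ℕ} (x y : ℕ) (hx : x < t) (hy : y < t) (hxy : x ≠ y) : (⟨x, hx⟩ : Fin t) ≠ ⟨y, hy⟩ :=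
  fun h => hxy (congrArg Fin.val h)

theorem q2_not_maximal (Q : QuadraticForm F (ι → F)) (hQn : (polarBilin Q).Nondegenerate)
    (hn : 4 < Fintype.card ι) {t : ℕ} (D : Fin t → Submodule F (ι → F)) (z z' : Fin t → (ι → F))
    (P : HypDec Q D z z') (ht : 4 ≤ t) (hq : Fintype.card F = 2) :
    ∃ K : Subgroup (Matrix.GeneralLinearGroup ι F),
      Cfsg.Geo.decompositionStabilizer D ⊓ Cfsg.Geo.omegaGL ⇑Q < K ∧ K < Cfsg.Geo.omegaGL ⇑Q := by
  have h2 : (2 : F) = 0 := Tens.card2_two hq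
  have h01 := Tens.card2_cases hq
  have hfin : 4 < finrank F (ι → F) := by rw [Module.finrank_fintype_fun_eq_card]; exact hn
  have hmem : ∀ φ : (ι → F) ≃ₗ[F] (ι → F), φ (∑ i, (z i + z' i)) = ∑ i, (z i + z' i) →
      φ ∈ setStab (F := F) ({∑ i, (z i + z' i)} : Set (ι → F)) := by
    intro φ hφ v
    simp only [Set.mem_singleton_iff]
    constructor
    · rintro rfl; exact hφ
    · intro h; exact φ.injective (h.trans hφ.symm)
  refine omega_not_maximal Q (Cfsg.Geo.decompositionStabilizer D) (DecStab D)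
    (fun φ => φ ∈ setStab (F := F) ({∑ i, (z i + z' i)} : Set (ι → F)))
    (fun g => mem_decompositionStabilizer_iff D g)
    ((setStab (F := F) ({∑ i, (z i + z' i)} : Set (ι → F))).comap (Cfsg.Agent.Lib.Helper94.glEquiv ι F).toMonoidHom)
    (fun g => Iff.rfl)
    (fun φ hφ hs => hmem φ (P.q2_stab h01 (Om_le_OQ Q hφ) hs)) ?_ ?_
  · have huv : polar Q (z ⟨0, by omega⟩ + z ⟨1, by omega⟩) (z ⟨2, by omega⟩ + z ⟨3, by omega⟩) = 0 := by
      simp [polar_add_left, polar_add_right, P.zz]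
    obtain ⟨e1, e2⟩ := P.q2_h2 h2 (fin_ne 0 1 (by omega) (by omega) (by omega))
      (fin_ne 0 2 (by omega) (by omega) (by omega)) (fin_ne 0 3 (by omega) (by omega) (by omega))
      (fin_ne 2 3 (by omega) (by omega) (by omega)) huv
    exact ⟨_, eichler_mem_Om hQn hfin _ _ _ _, hmem _ e1, e2⟩
  · refine ⟨_, eichler_mem_Om hQn hfin _ _ (P.Qz ⟨0, by omega⟩) (P.zz ⟨0, by omega⟩ ⟨1, by omega⟩), ?_⟩
    intro hm
    have := (hm (∑ i, (z i + z' i))).1 rfl
    exact P.q2_h3 (fin_ne 0 1 (by omega) (by omega) (by omega)) this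

theorem q4_not_maximal (Q : QuadraticForm F (ι → F)) (hQn : (polarBilin Q).Nondegenerate)
    (hn : 4 < Fintype.card ι) {t : ℕ} (D : Fin t → Submodule F (ι → F)) (z z' : Fin t → (ι → F))
    (P : HypDec Q D z z') (ht : 4 ≤ t) (hq : Fintype.card F = 4) :
    ∃ K : Subgroup (Matrix.GeneralLinearGroup ι F),
      Cfsg.Geo.decompositionStabilizer D ⊓ Cfsg.Geo.omegaGL ⇑Q < K ∧ K < Cfsg.Geo.omegaGL ⇑Q := by
  classical
  have hfin : 4 < finrank F (ι → F) := by rw [Module.finrank_fintype_fun_eq_card]; exact hn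
  have h4 : (4 : F) = 0 := by
    have := Nat.cast_card_eq_zero F
    rw [hq] at this
    exact_mod_cast this
  have h2 : (2 : F) = 0 := by
    have : (2 : F) * 2 = 0 := by rw [← h4]; norm_num
    exact mul_self_eq_zero.1 this
  have hcube : ∀ x : F, x ≠ 0 → x * x * x = 1 := by
    intro x hx
    have := FiniteField.pow_card_sub_one_eq_one x hx
    rw [hq] at this
    rw [← this]; ring
  obtain ⟨ω, hω0, hω1⟩ : ∃ ω : F, ω ≠ 0 ∧ ω ≠ 1 := by
    by_contra hcon
    push Not at hcon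
    have hsub : (Finset.univ : Finset F) ⊆ {0, 1} := by
      intro x _
      by_cases hx : x = 0
      · simp [hx]
      · simp [hcon x hx]
    have := Finset.card_le_card hsub
    rw [Finset.card_univ, hq] at this
    have h5 : ({0, 1} : Finset F).card ≤ 2 := Finset.card_le_two
    omega
  have hω : ω * ω + ω + 1 = 0 := by
    have h5 : (ω - 1) * (ω * ω + ω + 1) = 0 := by linear_combination hcube ω hω0
    exact (mul_eq_zero.1 h5).resolve_left (sub_ne_zero.2 hω1)
  refine omega_not_maximal Q (Cfsg.Geo.decompositionStabilizer D) (DecStab D)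
    (fun φ => φ ∈ setStab (F := F) (HypDec.Lam Q D : Set (ι → F)))
    (fun g => mem_decompositionStabilizer_iff D g)
    ((setStab (F := F) (HypDec.Lam Q D : Set (ι → F))).comap (Cfsg.Agent.Lib.Helper94.glEquiv ι F).toMonoidHom)
    (fun g => Iff.rfl)
    (fun φ hφ hs => setStab_closure (decStab_mem_setStab Q D 1 (Om_le_OQ Q hφ) hs)) ?_ ?_
  · obtain ⟨hQu, huw, e1, e2⟩ := P.q4_h2 h2 hcube hω (fin_ne 0 1 (by omega) (by omega) (by omega))
      (fin_ne 0 2 (by omega) (by omega) (by omega)) (fin_ne 1 2 (by omega) (by omega) (by omega))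
    exact ⟨_, eichler_mem_Om hQn hfin _ _ hQu huw, e1, e2⟩
  · exact ⟨_, eichler_mem_Om hQn hfin _ _ (P.Qz ⟨0, by omega⟩) (P.zz ⟨0, by omega⟩ ⟨1, by omega⟩),
      P.q4_h3 h2 hcube hω (fin_ne 0 1 (by omega) (by omega) (by omega))⟩

theorem k4_not_maximal (Q : QuadraticForm F (ι → F)) (hQn : (polarBilin Q).Nondegenerate)
    (hn : 4 < Fintype.card ι) {t : ℕ} (D : Fin t → Submodule F (ι → F)) (p r x y : Fin t → (ι → F))
    (A : AniDec Q D p r x y) (ht : 3 ≤ t) (h2 : (2 : F) = 0) :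
    ∃ K : Subgroup (Matrix.GeneralLinearGroup ι F),
      Cfsg.Geo.decompositionStabilizer D ⊓ Cfsg.Geo.omegaGL ⇑Q < K ∧ K < Cfsg.Geo.omegaGL ⇑Q := by
  have hfin : 4 < finrank F (ι → F) := by rw [Module.finrank_fintype_fun_eq_card]; exact hn
  refine omega_not_maximal Q (Cfsg.Geo.decompositionStabilizer D) (DecStab D)
    (fun φ => φ ∈ setStab (F := F) (frameSet Q D 1))
    (fun g => mem_decompositionStabilizer_iff D g)
    ((setStab (F := F) (frameSet Q D 1)).comap (Cfsg.Agent.Lib.Helper94.glEquiv ι F).toMonoidHom)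
    (fun g => Iff.rfl)
    (fun φ hφ hs => decStab_mem_setStab Q D 1 (Om_le_OQ Q hφ) hs) ?_ ?_
  · obtain ⟨e1, e2⟩ := A.k4_h2 h2 (fin_ne 0 1 (by omega : 0 < t) (by omega) (by omega))
    exact ⟨_, eichler_mem_Om hQn hfin _ _ _ _, e1, e2⟩
  · have huw : polar Q (p ⟨0, by omega⟩ + p ⟨1, by omega⟩) (p ⟨2, by omega⟩) = 0 := by
      simp [polar_add_left, A.ppz h2]
    exact ⟨_, eichler_mem_Om hQn hfin _ _ _ huw,
      A.k4_h3 h2 (fin_ne 0 1 (by omega) (by omega) (by omega))
        (fin_ne 0 2 (by omega) (by omega) (by omega)) (fin_ne 1 2 (by omega) (by omega) (by omega)) huw⟩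

theorem q5_not_maximal (Q : QuadraticForm F (ι → F)) {t : ℕ} (D : Fin t → Submodule F (ι → F))
    (z z' : Fin t → (ι → F)) (P : HypDec Q D z z')
    (hnd : ∀ i, ∀ w ∈ D i, (∀ z ∈ D i, polar Q z w = 0) → w = 0) (ht : 5 ≤ t)
    (hq : Fintype.card F = 5) :
    ∃ K : Subgroup (Matrix.GeneralLinearGroup ι F),
      Cfsg.Geo.decompositionStabilizer D ⊓ Cfsg.Geo.omegaGL ⇑Q < K ∧ K < Cfsg.Geo.omegaGL ⇑Q := by
  have h5 : (5 : F) = 0 := by
    have := Nat.cast_card_eq_zero F
    rw [hq] at this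
    exact_mod_cast this
  have h2 : (2 : F) ≠ 0 := by
    intro h
    exact one_ne_zero (show (1 : F) = 0 by linear_combination h5 - 2 * h)
  have hfour : ∀ x : F, x ≠ 0 → x * x * x * x = 1 := by
    intro x hx
    have := FiniteField.pow_card_sub_one_eq_one x hx
    rw [hq] at this
    rw [← this]; ring
  have FP : ∀ i, ∀ v ∈ D i, ∀ w ∈ D i, Q v = 1 → Q w = 1 → w = v ∨ w = -v ∨ polar Q v w = 0 := by
    intro i v hv w hw hQv hQw
    rw [P.Qw i hv] at hQv
    rw [P.Qw i hw] at hQw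
    have e : polar Q v w = polar Q (z' i) v * polar Q (z i) w + polar Q (z i) v * polar Q (z' i) w := by
      conv_lhs => rw [P.exp i v hv, P.exp i w hw]
      simp [polar_add_left, polar_add_right, polar_smul_left, polar_smul_right, P.zz, P.zz', P.z'z,
        P.z'z']
      ring
    rw [e, P.exp i v hv, P.exp i w hw]
    simp only [polar_add_right, polar_smul_right, P.zz, P.zz', P.z'z, P.z'z', if_true, smul_eq_mul,
      mul_zero, mul_one, add_zero, zero_add]
    obtain ⟨x, hx⟩ : ∃ x, x = polar Q (z' i) v := ⟨_, rfl⟩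
    obtain ⟨y, hy⟩ : ∃ y, y = polar Q (z i) v := ⟨_, rfl⟩
    obtain ⟨x', hx'⟩ : ∃ x, x = polar Q (z' i) w := ⟨_, rfl⟩
    obtain ⟨y', hy'⟩ : ∃ y, y = polar Q (z i) w := ⟨_, rfl⟩
    rw [← hx, ← hy] at hQv ⊢
    rw [← hx', ← hy'] at hQw ⊢
    have hρσ : (x' * y) * (x * y') = 1 := by
      calc (x' * y) * (x * y') = (x * y) * (x' * y') := by ring
        _ = 1 := by rw [hQv, hQw, one_mul]
    have hρ0 : x' * y ≠ 0 := left_ne_zero_of_mul_eq_one hρσ
    have e1 : x' = (x' * y) * x := by linear_combination (-x') * hQv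
    have e2 : y' = (x * y') * y := by linear_combination (-y') * hQv
    have h4 := hfour _ hρ0
    have h6 : (x' * y - 1) * ((x' * y + 1) * ((x' * y) * (x' * y) + 1)) = 0 := by
      linear_combination h4
    rcases mul_eq_zero.1 h6 with h | h
    · left
      have hρ : x' * y = 1 := sub_eq_zero.1 h
      have hσ : x * y' = 1 := by rw [hρ, one_mul] at hρσ; exact hρσ
      rw [e1, e2, hρ, hσ, one_mul, one_mul]
    rcases mul_eq_zero.1 h with h | h
    · right; left
      have hρ : x' * y = -1 := by linear_combination h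
      have hσ : x * y' = -1 := by rw [hρ] at hρσ; linear_combination -hρσ
      rw [e1, e2, hρ, hσ]
      simp only [neg_mul, one_mul, neg_smul, neg_add_rev]
      abel
    · right; right
      have : (x * y' + y * x') * (x' * y) = 0 := by linear_combination h + hρσ
      exact (mul_eq_zero.1 this).resolve_right hρ0
  refine frame_not_maximal Q D 1 h2 one_ne_zero P.horth hnd FP (fun i => z i + z' i)
    (fun i => (D i).add_mem (P.hz i) (P.hz' i)) (fun i => P.q4_Qa i) ht
    (z ⟨0, by omega⟩ - z' ⟨0, by omega⟩) ((D _).sub_mem (P.hz _) (P.hz' _)) ?_ ?_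
  · intro h
    have := congrArg (fun v => polar Q v (z' ⟨0, by omega⟩)) h
    simp [polar_sub_left, P.zz', P.z'z'] at this
  · simp [polar_add_left, polar_sub_right, P.zz, P.zz', P.z'z, P.z'z']

/-- all the non-maximal plus type cases with plus type blocks -/
theorem plus_not_maximal (Q : QuadraticForm F (ι → F)) (hQn : (polarBilin Q).Nondegenerate)
    (hn : 13 ≤ Fintype.card ι) {t k : ℕ} (D : Fin t → Submodule F (ι → F))
    (hD : Cfsg.Geo.IsOrthogonalMDecomposition ⇑Q k D)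
    (hplus : ∀ i, Cfsg.Geo.IsPlusTypeOn ⇑Q (D i))
    (hcase : (k = 2 ∧ (Fintype.card F = 2 ∨ Fintype.card F = 4 ∨ Fintype.card F = 5)) ∨
      (k = 4 ∧ Fintype.card F = 2)) :
    ∃ K : Subgroup (Matrix.GeneralLinearGroup ι F),
      Cfsg.Geo.decompositionStabilizer D ⊓ Cfsg.Geo.omegaGL ⇑Q < K ∧ K < Cfsg.Geo.omegaGL ⇑Q := by
  classical
  obtain ⟨bs, -, -⟩ := exists_adapted_basis D hD.decomp.decomp.finrank_eq hD.decomp.decomp.indep
    hD.decomp.decomp.iSup_eq_top
  have htk : Fintype.card ι = t * k := by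
    have := card_mul_eq bs
    rwa [Module.finrank_fintype_fun_eq_card] at this
  have horth : ∀ i j, i ≠ j → ∀ u ∈ D i, ∀ v ∈ D j, polar Q u v = 0 :=
    fun i j hij u hu v hv => hD.decomp.orthogonal i j hij u hu v hv
  have hnd : ∀ i, ∀ w ∈ D i, (∀ z ∈ D i, polar Q z w = 0) → w = 0 := by
    intro i w hw hz
    by_contra h0
    obtain ⟨x, hx, hne⟩ := (hD.decomp.nondegenerate i w hw h0).1
    exact hne (hz x hx)
  have hfr := hD.decomp.decomp.finrank_eq
  rcases hcase with ⟨rfl, hq⟩ | ⟨rfl, hq⟩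
  · have ht : 7 ≤ t := by omega
    have hex : ∀ i, ∃ z ∈ D i, ∃ z' ∈ D i, Q z = 0 ∧ Q z' = 0 ∧ polar Q z z' = 1 ∧
        ∀ w ∈ D i, w = polar Q z' w • z + polar Q z w • z' := by
      intro i
      obtain ⟨U, hU, hUs, hUr⟩ := hplus i
      exact hyp2 (hnd i) (hfr i) U hU hUs hUr
    choose z hz z' hz' Qz Qz' pol exp using hex
    have P : HypDec Q D z z' := ⟨horth, hz, hz', Qz, Qz', pol, exp⟩
    rcases hq with hq | hq | hq
    · exact q2_not_maximal Q hQn (by omega) D z z' P (by omega) hq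
    · exact q4_not_maximal Q hQn (by omega) D z z' P (by omega) hq
    · exact q5_not_maximal Q D z z' P hnd (by omega) hq
  · have ht : 4 ≤ t := by omega
    have h2 : (2 : F) = 0 := Tens.card2_two hq
    have h01 := Tens.card2_cases hq
    have hex : ∀ i, ∃ p ∈ D i, ∃ r ∈ D i, ∃ x ∈ D i, ∃ y ∈ D i, Q p = 1 ∧ Q r = 1 ∧ polar Q p r = 1 ∧
        polar Q p x = 0 ∧ polar Q r x = 0 ∧ polar Q x y ≠ 0 ∧
        ∀ v ∈ D i, Q v = 1 →
          (polar Q p v = 0 ∧ polar Q r v = 0) ∨ v = polar Q r v • p + polar Q p v • r := by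
      intro i
      obtain ⟨U, hU, hUs, hUr⟩ := hplus i
      exact ani4 h2 h01 (hnd i) (hfr i) U hU hUs hUr
    choose p hp r hr x hx y hy Qp Qr pr px rx xy star using hex
    have A : AniDec Q D p r x y := ⟨horth, hp, hr, hx, hy, Qp, Qr, pr, px, rx, xy, star⟩
    exact k4_not_maximal Q hQn (by omega) D p r x y A (by omega) h2

end wrap

end Cfsg.Agent.Lib.Helper94.OP
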