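import Mathlib
import Cfsg.Agent.Lib.Helper94.TensF3
import Cfsg.Agent.Lib.Helper94.OrthFrame

set_option autoImplicit false
set_option linter.unusedSimpArgs false
set_option linter.unusedSectionVars false

/-! # `O₃(3) ⊗ O_n(3)` is not maximal in `Ω` -/

namespace Cfsg.Agent.Lib.Helper94.Tens

open Matrix Module QuadraticMap
open LinearMap (BilinForm)
open Cfsg.Agent.Lib.Helper44 Cfsg.Agent.Lib.Helper13.O Cfsg.Agent.Lib.Helper94 Cfsg.Agent.Lib.Helper94.U
  Cfsg.Agent.Lib.Helper94.OF

section general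

variable {F V : Type*} [Field F] [AddCommGroup V] [Module F V]

lemma refl_mul_refl_mem_Om (Q : QuadraticForm F V) {x y : V} (hxy : Q x = Q y) (h : Q (x - y) ≠ 0) :
    refl Q x * refl Q y ∈ Om Q := by
  have h1 : refl Q (x - y) x = y := refl_sub_apply hxy h
  have h3 : refl Q y = refl Q (x - y) * refl Q x * (refl Q (x - y))⁻¹ := by
    rw [conj_refl (refl_mem Q (x - y)), h1]
  have h2 : refl Q x * refl Q y = refl Q x * refl Q (x - y) * (refl Q x)⁻¹ * (refl Q (x - y))⁻¹ := by
    rw [h3, refl_inv Q x]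
    simp only [mul_assoc]
  rw [h2]
  exact comm_mem_Om (refl_mem Q _) (refl_mem Q _)

variable (h3 : ∀ x : F, x = 0 ∨ x = 1 ∨ x = -1) (h30 : (3 : F) = 0)

include h3 h30 in
lemma exists_pair [FiniteDimensional F V] (s : BilinForm F V) (hsym : ∀ x y, s x y = s y x)
    (hN : s.Nondegenerate) (hfr : 3 ≤ finrank F V) :
    ∃ b b' z : V, s b b = s b' b' ∧ s b b ≠ 0 ∧ s b b' = 0 ∧ s b z = 0 ∧ s b' z = 0 ∧ s z z ≠ 0 := by
  have h2 : (2 : F) ≠ 0 := by
    intro h
    exact one_ne_zero (show (1 : F) = 0 by linear_combination h30 - h)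
  let _ : Invertible (2 : F) := invertibleOfNonzero h2
  obtain ⟨v, hv⟩ := LinearMap.BilinForm.exists_orthogonal_basis (B := s) ⟨fun x y => hsym x y⟩
  have hv' : ∀ i j, i ≠ j → s (v i) (v j) = 0 := hv
  have hn : ∀ i, s (v i) (v i) ≠ 0 :=
    LinearMap.BilinForm.iIsOrtho.not_isOrtho_basis_self_of_nondegenerate hv hN
  have hpm : ∀ x y : F, x ≠ 0 → y ≠ 0 → x ≠ y → y = -x := by
    intro x y hx hy hxy
    rcases h3 x with rfl | rfl | rfl <;> rcases h3 y with rfl | rfl | rfl <;> simp_all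
  have hne : ∀ x y : ℕ, ∀ (hx : x < finrank F V) (hy : y < finrank F V), x ≠ y →
      (⟨x, hx⟩ : Fin (finrank F V)) ≠ ⟨y, hy⟩ := by
    intro x y hx hy hxy h
    exact hxy (congrArg Fin.val h)
  set i0 : Fin (finrank F V) := ⟨0, by omega⟩
  set i1 : Fin (finrank F V) := ⟨1, by omega⟩
  set i2 : Fin (finrank F V) := ⟨2, by omega⟩
  have h01 : i0 ≠ i1 := hne _ _ _ _ (by omega)
  have h02 : i0 ≠ i2 := hne _ _ _ _ (by omega)
  have h12 : i1 ≠ i2 := hne _ _ _ _ (by omega)
  by_cases e01 : s (v i0) (v i0) = s (v i1) (v i1)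
  · exact ⟨v i0, v i1, v i2, e01, hn _, hv' _ _ h01, hv' _ _ h02, hv' _ _ h12, hn _⟩
  · by_cases e02 : s (v i0) (v i0) = s (v i2) (v i2)
    · exact ⟨v i0, v i2, v i1, e02, hn _, hv' _ _ h02, hv' _ _ h01, hv' _ _ h12.symm, hn _⟩
    · have e1 := hpm _ _ (hn i0) (hn i1) e01
      have e2 := hpm _ _ (hn i0) (hn i2) e02
      exact ⟨v i1, v i2, v i0, by rw [e1, e2], hn _, hv' _ _ h12, hv' _ _ h01.symm, hv' _ _ h02.symm, hn _⟩

end general

section main

variable {ι : Type} [Fintype ι] [DecidableEq ι] {F : Type*} [Field F]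

theorem f3_tensor_not_maximal [Fintype F] (hq : Fintype.card F = 3) (Q : QuadraticForm F (ι → F)) (n₂ : ℕ)
    (h2 : 3 < n₂) (e : ι ≃ Fin 3 × Fin n₂) (P : Matrix.GeneralLinearGroup ι F)
    (f₁ : (Fin 3 → F) → (Fin 3 → F) → F) (f₂ : (Fin n₂ → F) → (Fin n₂ → F) → F)
    (hf₁ : Cfsg.Geo.IsSymmetricForm f₁) (hf₂ : Cfsg.Geo.IsSymmetricForm f₂)
    (hT : Cfsg.Geo.IsTensorFormStructure id (QuadraticMap.polar ⇑Q) f₁ f₂ e P) :
    ∃ K : Subgroup (Matrix.GeneralLinearGroup ι F),
      Cfsg.Geo.tensorProductSubgroup 3 n₂ e P ⊓ Cfsg.Geo.omegaGL ⇑Q < K ∧ K < Cfsg.Geo.omegaGL ⇑Q := by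
  classical
  have h30 := card3_three hq
  have h3 := card3_cases hq
  have h20 : (2 : F) ≠ 0 := by
    intro h
    exact one_ne_zero (show (1 : F) = 0 by linear_combination h30 - h)
  set s : LinearMap.BilinForm F (Fin 3 → F) := formB f₁ hf₁.bilinear with hs
  obtain ⟨w, ε, hε, hn, ho⟩ := exists_equal_norm h3 h30 s (fun x y => hf₁.symm x y)
    (formB_nondegenerate _ _ hf₁.nondegenerate) (by simp)
  have hli : LinearIndependent F w :=
    LinearMap.BilinForm.linearIndependent_of_iIsOrtho (B := s) ho (fun i => by rw [hn]; exact hε)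
  let a : Module.Basis (Fin 3) F (Fin 3 → F) := basisOfLinearIndependentOfCardEqFinrank hli (by simp)
  have ha : ∀ i, a i = w i := fun i => by simp [a]
  have hn' : ∀ i, s (a i) (a i) = ε := fun i => by rw [ha]; exact hn i
  have ho' : ∀ i j, i ≠ j → s (a i) (a j) = 0 := fun i j hij => by rw [ha, ha]; exact ho i j hij
  have hn'' : ∀ i, f₁ (a i) (a i) = ε := hn'
  have ho'' : ∀ i j, i ≠ j → f₁ (a i) (a j) = 0 := ho'
  set T := pt e P with hTdef
  have hU : Function.Injective (Th T a) := by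
    rw [injective_iff_map_eq_zero]
    intro y hy
    rw [Th_apply] at hy
    funext i
    exact sum_pt_eq_zero e P a a.linearIndependent y hy i
  obtain ⟨c, hc, hform⟩ := form_pt (QuadraticMap.polar ⇑Q) f₁ f₂ hf₁.bilinear hf₂.bilinear e P hT
  set β := QuadraticMap.polarBilin Q with hβ
  have hβp : ∀ u v, polar Q u v = β u v := fun u v => rfl
  have hB : ∀ x y x' y', β (T x y) (T x' y') = c * (f₁ x x' * f₂ y y') := hform
  have hQ2 : ∀ v, 2 * Q v = β v v := by
    intro v
    rw [← hβp, polar_self]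
    simp
  have hQeq : ∀ u v, β u u = β v v → Q u = Q v := by
    intro u v h
    rw [← hQ2, ← hQ2] at h
    exact mul_left_cancel₀ h20 h
  have hQne : ∀ v, β v v ≠ 0 → Q v ≠ 0 := by
    intro v h h0
    rw [← hQ2, h0, mul_zero] at h
    exact h rfl
  obtain ⟨b, b', z, hbb, hb0, hbb', hbz, hb'z, hzz⟩ := exists_pair h3 h30 (formB f₂ hf₂.bilinear)
    (fun x y => hf₂.symm x y) (formB_nondegenerate _ _ hf₂.nondegenerate) (by simp; omega)
  simp only [formB_apply] at hbb hb0 hbb' hbz hb'z hzz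
  set δ := f₂ b b with hδ
  have hb'b := (hf₂.symm b' b).trans hbb'
  have hzb := (hf₂.symm z b).trans hbz
  have hzb' := (hf₂.symm z b').trans hb'z
  have hz0 : z ≠ 0 := by
    rintro rfl
    have := hf₂.bilinear.smul_left 0 0 0
    simp at this
    exact hzz this
  have hbne : b ≠ 0 := by
    rintro rfl
    have := hf₂.bilinear.smul_left 0 0 0
    simp at this
    exact hb0 this
  have core : ∀ φ, φ ∈ Om Q →
      (glEquiv _ F).symm φ ∈ Cfsg.Geo.tensorProductSubgroup 3 n₂ e P →
      ∀ v ∈ blocks T a, φ v ∈ blocks T a := by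
    intro φ hI hst
    obtain ⟨A, B, hAB⟩ := exists_of_symm_mem e P φ hst
    obtain ⟨μ, hμ, hsim⟩ := simil_of_isom f₂ f₁ B A (by
        intro y y' x x'
        have := OQ_polar (Om_le_OQ Q hI) (T x y) (T x' y')
        rw [hAB, hAB, hβp, hβp, hB, hB] at this
        have := mul_left_cancel₀ hc this
        linear_combination this) ⟨b, b, hb0⟩ ⟨a 0, a 0, by rw [hn'']; exact hε⟩
    exact maps_blocks hAB (simil_frame h3 h30 s a ε hε hn' ho' A μ hμ hsim)
  have hblk : ∀ y : Fin n₂ → F, refl Q (T (a 0) y) ∈ setStab (F := F) (blocks T a) := by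
    intro y
    have h1 : ∀ v ∈ blocks T a, refl Q (T (a 0) y) v ∈ blocks T a := by
      rintro v ⟨i, y', rfl⟩
      rw [refl_apply, hβp, hB]
      by_cases hi : i = 0
      · subst hi
        exact ⟨0, y' - ((Q (T (a 0) y))⁻¹ * (c * (f₁ (a 0) (a 0) * f₂ y y'))) • y, by
          rw [map_sub, map_smul]⟩
      · rw [ho'' 0 i (Ne.symm hi)]
        exact ⟨i, y', by simp⟩
    refine mem_setStab_of_maps h1 ?_
    rw [refl_inv]
    exact h1
  refine omega_not_maximal Q _ (fun φ => (glEquiv _ F).symm φ ∈ Cfsg.Geo.tensorProductSubgroup 3 n₂ e P)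
    (fun φ => φ ∈ setStab (F := F) (blocks T a)) (fun g => by simp)
    ((setStab (F := F) (blocks T a)).comap (glEquiv ι F).toMonoidHom) (fun g => Iff.rfl) ?_ ?_ ?_
  · intro φ hI hst
    refine mem_setStab_of_maps (core φ hI hst) (core φ⁻¹ (inv_mem hI) ?_)
    rw [map_inv]
    exact inv_mem hst
  · refine ⟨refl Q (T (a 0) b) * refl Q (T (a 0) b'), ?_, mul_mem (hblk _) (hblk _), ?_⟩
    · refine refl_mul_refl_mem_Om Q (hQeq _ _ ?_) (hQne _ ?_)
      · rw [hB, hB, ← hbb]
      · simp only [map_sub, LinearMap.sub_apply, hB, hbb', hb'b, ← hbb, hn'']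
        intro h
        have : c * ε * δ * 2 = 0 := by linear_combination h
        exact mul_ne_zero (mul_ne_zero (mul_ne_zero hc hε) hb0) h20 this
    · intro hst
      obtain ⟨A, B, hAB⟩ := exists_of_symm_mem e P _ hst
      have h1 := hAB (a 0 + a 1) (b + z)
      have hx0 : Q (T (a 0) b) ≠ 0 := hQne _ (by
        rw [hB, hn'']; exact mul_ne_zero hc (mul_ne_zero hε hb0))
      have h2 : (refl Q (T (a 0) b) * refl Q (T (a 0) b')) (T (a 0 + a 1) (b + z)) =
          T (a 0) (z - b) + T (a 1) (b + z) := by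
        have e0 : refl Q (T (a 0) b') (T (a 0 + a 1) (b + z)) = T (a 0 + a 1) (b + z) :=
          refl_apply_of_polar_eq_zero Q (by
            rw [hβp, hB, hf₂.bilinear.add_right, hb'b, hb'z]; simp)
        have e1 : T (a 0 + a 1) (b + z) = T (a 0) b + (T (a 0) z + T (a 1) (b + z)) := by
          simp only [map_add, LinearMap.add_apply]
          abel
        have e2 : refl Q (T (a 0) b) (T (a 0) z + T (a 1) (b + z)) = T (a 0) z + T (a 1) (b + z) :=
          refl_apply_of_polar_eq_zero Q (by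
            rw [hβp, map_add, hB, hB, hbz, ho'' 0 1 (by decide)]; simp)
        rw [LinearEquiv.mul_apply, e0, e1, map_add, refl_apply_self Q hx0, e2]
        simp only [map_sub, map_add]
        abel
      obtain ⟨ξ, ξ', e1, e2⟩ := pure_parallel hU (i := 0) (j := 1) (by decide) (h1.symm.trans h2)
      have hm := minor_eq e1 e2 (LinearMap.flip (formB f₂ hf₂.bilinear) b)
        (LinearMap.flip (formB f₂ hf₂.bilinear) z)
      simp only [LinearMap.flip_apply, map_sub, map_add, LinearMap.sub_apply, LinearMap.add_apply,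
        formB_apply, hzb, hbz, ← hδ] at hm
      have : δ * f₂ z z * 2 = 0 := by linear_combination -hm
      exact mul_ne_zero (mul_ne_zero hb0 hzz) h20 this
  · have hx0 : Q (T (a 0) b - T (a 1) b) ≠ 0 := hQne _ (by
      simp only [map_sub, LinearMap.sub_apply, hB, hn'', ho'' 0 1 (by decide), ho'' 1 0 (by decide), ← hδ]
      intro h
      have : c * ε * δ * 2 = 0 := by linear_combination h
      exact mul_ne_zero (mul_ne_zero (mul_ne_zero hc hε) hb0) h20 this)
    refine ⟨refl Q (T (a 0) b - T (a 1) b) * refl Q (T (a 0) b' - T (a 1) b'), ?_, ?_⟩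
    · refine refl_mul_refl_mem_Om Q (hQeq _ _ ?_) (hQne _ ?_)
      · simp only [map_sub, LinearMap.sub_apply, hB, hn'', ho'' 0 1 (by decide), ho'' 1 0 (by decide),
          ← hbb, ← hδ]
      · simp only [map_sub, LinearMap.sub_apply, hB, hn'', ho'' 0 1 (by decide), ho'' 1 0 (by decide),
          ← hbb, hbb', hb'b]
        intro h
        have : c * ε * δ * (2 * 2) = 0 := by linear_combination h
        exact mul_ne_zero (mul_ne_zero (mul_ne_zero hc hε) hb0) (mul_ne_zero h20 h20) this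
    · intro hmem
      have h1 := (hmem (T (a 0) (b + z))).1 ⟨0, b + z, rfl⟩
      have h2 : (refl Q (T (a 0) b - T (a 1) b) * refl Q (T (a 0) b' - T (a 1) b')) (T (a 0) (b + z)) =
          T (a 1) b + T (a 0) z := by
        have e0 : refl Q (T (a 0) b' - T (a 1) b') (T (a 0) (b + z)) = T (a 0) (b + z) :=
          refl_apply_of_polar_eq_zero Q (by
            rw [hβp]
            simp only [map_sub, map_add, LinearMap.sub_apply, hB, hb'b, hb'z, ho'' 1 0 (by decide)]
            simp)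
        have e2 : refl Q (T (a 0) b - T (a 1) b) (T (a 0) z) = T (a 0) z :=
          refl_apply_of_polar_eq_zero Q (by
            rw [hβp]
            simp only [map_sub, LinearMap.sub_apply, hB, hbz, ho'' 1 0 (by decide)]
            simp)
        rw [LinearEquiv.mul_apply, e0, map_add, map_add,
          refl_sub_apply (hQeq _ _ (by rw [hB, hB, hn'', hn''])) hx0, e2]
      rw [h2] at h1
      exact two_comp_not_mem hU (by decide) hbne hz0 h1

end main

end Cfsg.Agent.Lib.Helper94.Tens
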